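import Mathlib
import Cfsg.Agent.Lib.GeoOmega.Eichler
import Cfsg.Agent.Lib.Elusive.BlockForm
import Cfsg.Agent.Lib.Elusive.EigenSplit
import Cfsg.Agent.Lib.Classical.SLConj
import Cfsg.Prelude.Def_GeometricClasses

/-!
# Conjugating elements of `SL_n` into the similarity group of a quadratic form: the constructions
-/

set_option autoImplicit false
set_option linter.style.haveILetI false

namespace Cfsg.Agent.Lib.FGStruct.GoA

open Module Matrix Polynomial Cfsg.Geo Cfsg.Agent.Lib.Geo.QForm
open Cfsg.Agent.Lib.Elusive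
open scoped MatrixGroups

variable {F : Type*} [Field F] {n : ℕ} {Q : (Fin n → F) → F}

/-- Similarities scale the polar form. -/
theorem polar_of_sim (A : Matrix (Fin n) (Fin n) F) (c : F) (h : ∀ v, Q (A *ᵥ v) = c * Q v)
    (u v : Fin n → F) : QuadraticMap.polar Q (A *ᵥ u) (A *ᵥ v) = c * QuadraticMap.polar Q u v := by
  simp only [QuadraticMap.polar]
  rw [← Matrix.mulVec_add, h, h, h]
  ring

/-- The key lemma: transporting the action of `x` on a basis `b` to the basis `c`. -/
theorem exists_conj_of_bases (hQ : IsNondegenerateQuadraticForm Q) (h2 : (2 : F) ≠ 0)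
    (x : GL (Fin n) F) {κ : Type} [Fintype κ] [DecidableEq κ]
    (b c : Basis κ F (Fin n → F)) (A : κ → κ → F)
    (hb : ∀ i, (x : Matrix (Fin n) (Fin n) F) *ᵥ b i = ∑ j, A j i • b j)
    (E : (Fin n → F) ≃ₗ[F] (Fin n → F))
    (hEd : LinearMap.det E.toLinearMap *
      LinearMap.det (b.equiv c (Equiv.refl κ)).toLinearMap = 1)
    (hE : ∀ v, E ((x : Matrix (Fin n) (Fin n) F) *ᵥ v) = (x : Matrix (Fin n) (Fin n) F) *ᵥ E v)
    (μ : F) (hμ : μ ≠ 0)
    (hc : ∀ i j, QuadraticMap.polar Q (∑ k, A k i • c k) (∑ k, A k j • c k) =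
      μ * QuadraticMap.polar Q (c i) (c j)) :
    ∃ g ∈ specialLinear (Fin n) F, g⁻¹ * x * g ∈ quadSimilarityGroup Q := by
  classical
  set T : (Fin n → F) ≃ₗ[F] (Fin n → F) := b.equiv c (Equiv.refl κ) with hT
  have hTb : ∀ i, T (b i) = c i := fun i => by simp [T]
  let R : (Fin n → F) ≃ₗ[F] (Fin n → F) := E.trans T
  have hR : LinearMap.det R.toLinearMap = 1 := by
    have : R.toLinearMap = T.toLinearMap ∘ₗ E.toLinearMap := rfl
    rw [this, LinearMap.det_comp, mul_comm, hEd]
  have hRs : LinearMap.det R.symm.toLinearMap = 1 := by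
    have h1 : LinearMap.det (R.symm.toLinearMap ∘ₗ R.toLinearMap) = 1 := by
      have : R.symm.toLinearMap ∘ₗ R.toLinearMap = LinearMap.id := by
        ext v
        simp
      rw [this, LinearMap.det_id]
    rw [LinearMap.det_comp, hR, mul_one] at h1
    exact h1
  obtain ⟨P, hP⟩ := Cfsg.Agent.Lib.Classical.SLConj.exists_sl_of_linearEquiv R.symm hRs
  let g : GL (Fin n) F := Matrix.SpecialLinearGroup.toGL P
  have hgmat : (g : Matrix (Fin n) (Fin n) F) = (P : Matrix (Fin n) (Fin n) F) := rfl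
  have hginv : ((g⁻¹ : GL (Fin n) F) : Matrix (Fin n) (Fin n) F) =
      ((P⁻¹ : Matrix.SpecialLinearGroup (Fin n) F) : Matrix (Fin n) (Fin n) F) := rfl
  have hPw : ∀ w, (P : Matrix (Fin n) (Fin n) F) *ᵥ w = R.symm w := by
    intro w
    rw [← hP]
    exact (Matrix.SpecialLinearGroup.toLin'_apply P w).symm
  have hPinv : ∀ w, ((P⁻¹ : Matrix.SpecialLinearGroup (Fin n) F) : Matrix (Fin n) (Fin n) F) *ᵥ w = R w := by
    intro w
    have h0 : (P : Matrix (Fin n) (Fin n) F) *ᵥ (R w) = w := by
      rw [hPw]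
      simp
    calc ((P⁻¹ : Matrix.SpecialLinearGroup (Fin n) F) : Matrix (Fin n) (Fin n) F) *ᵥ w
        = ((P⁻¹ : Matrix.SpecialLinearGroup (Fin n) F) : Matrix (Fin n) (Fin n) F) *ᵥ
            ((P : Matrix (Fin n) (Fin n) F) *ᵥ (R w)) := by rw [h0]
      _ = R w := by
        rw [Matrix.mulVec_mulVec, ← Matrix.SpecialLinearGroup.coe_mul, inv_mul_cancel]
        simp
  refine ⟨g, ?_, ?_⟩
  · change Matrix.GeneralLinearGroup.det g = 1
    ext
    change (g : Matrix (Fin n) (Fin n) F).det = 1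
    rw [hgmat]
    exact P.2
  -- the conjugate as a linear map
  let y : (Fin n → F) →ₗ[F] (Fin n → F) :=
    R.toLinearMap ∘ₗ Matrix.toLin' (x : Matrix (Fin n) (Fin n) F) ∘ₗ R.symm.toLinearMap
  have hy : ∀ v, ((g⁻¹ * x * g : GL (Fin n) F) : Matrix (Fin n) (Fin n) F) *ᵥ v = y v := by
    intro v
    rw [Units.val_mul, Units.val_mul, ← Matrix.mulVec_mulVec, ← Matrix.mulVec_mulVec, hgmat, hPw, hginv,
      hPinv]
    rfl
  have hyc : ∀ i, y (c i) = ∑ k, A k i • c k := by
    intro i
    have h1 : R.symm (c i) = E.symm (b i) := by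
      rw [LinearEquiv.symm_apply_eq]
      simp [R, hTb]
    have h3 : E ((x : Matrix (Fin n) (Fin n) F) *ᵥ (E.symm (b i))) =
        (x : Matrix (Fin n) (Fin n) F) *ᵥ (b i) := by
      rw [hE]
      simp
    simp only [y, LinearMap.comp_apply, LinearEquiv.coe_coe, Matrix.toLin'_apply, h1]
    simp only [R, LinearEquiv.trans_apply]
    rw [h3, hb, map_sum]
    simp [hTb]
  -- the similarity on the polar form
  let B : LinearMap.BilinForm F (Fin n → F) := QuadraticMap.polarBilin (Cfsg.Agent.Lib.GeoOmega.Eichler.toQF hQ)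
  have hB : ∀ u v, B u v = QuadraticMap.polar Q u v := fun u v => rfl
  have hcomp : B.comp y y = μ • B := by
    apply LinearMap.ext_basis c c
    intro i j
    simp only [LinearMap.smul_apply, smul_eq_mul]
    change B (y (c i)) (y (c j)) = _
    rw [hyc, hyc, hB, hB]
    exact hc i j
  have hpol : ∀ u v, QuadraticMap.polar Q (y u) (y v) = μ * QuadraticMap.polar Q u v :=
    fun u v => LinearMap.congr_fun (LinearMap.congr_fun hcomp u) v
  refine ⟨Units.mk0 μ hμ, fun v => ?_⟩
  rw [hy]
  have h3 := hpol v v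
  rw [show QuadraticMap.polar Q (y v) (y v) = pol Q (y v) (y v) from rfl,
    show QuadraticMap.polar Q v v = pol Q v v from rfl, pol_self hQ, pol_self hQ] at h3
  apply mul_left_cancel₀ h2
  rw [Units.val_mk0]
  linear_combination h3

/-- Scaling a vector of a basis gives any determinant in the centralizer of a diagonal map. -/
theorem exists_comm_det_diag {κ : Type} [Fintype κ] [DecidableEq κ] {V : Type*} [AddCommGroup V] [Module F V]
    (b : Basis κ F V) (d : κ → F) (G : V →ₗ[F] V) (hG : ∀ i, G (b i) = d i • b i) (i₀ : κ) (δ : F)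
    (hδ : δ ≠ 0) :
    ∃ E : V ≃ₗ[F] V, LinearMap.det E.toLinearMap = δ ∧ ∀ v, E (G v) = G (E v) := by
  classical
  let D : Matrix κ κ F := Matrix.diagonal (fun i => if i = i₀ then δ else 1)
  let D' : Matrix κ κ F := Matrix.diagonal (fun i => if i = i₀ then δ⁻¹ else 1)
  have h1 : D * D' = 1 := by
    simp only [D, D', Matrix.diagonal_mul_diagonal]
    rw [← Matrix.diagonal_one]
    congr 1
    funext i
    by_cases hi : i = i₀ <;> simp [hi, hδ]
  have h2 : D' * D = 1 := by
    simp only [D, D', Matrix.diagonal_mul_diagonal]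
    rw [← Matrix.diagonal_one]
    congr 1
    funext i
    by_cases hi : i = i₀ <;> simp [hi, hδ]
  let E₁ : V →ₗ[F] V := Matrix.toLin b b D
  let E₂ : V →ₗ[F] V := Matrix.toLin b b D'
  have h12 : E₁ ∘ₗ E₂ = LinearMap.id := by
    rw [← Matrix.toLin_mul b b b, h1, Matrix.toLin_one]
  have h21 : E₂ ∘ₗ E₁ = LinearMap.id := by
    rw [← Matrix.toLin_mul b b b, h2, Matrix.toLin_one]
  let E : V ≃ₗ[F] V := LinearEquiv.ofLinearMap E₁ E₂ h12 h21
  have hDdet : D.det = δ := by
    simp only [D]
    rw [Matrix.det_diagonal, Finset.prod_ite_eq' Finset.univ i₀ (fun _ => δ)]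
    simp
  refine ⟨E, ?_, ?_⟩
  · have : E.toLinearMap = E₁ := rfl
    rw [this, ← LinearMap.det_toMatrix b, LinearMap.toMatrix_toLin, hDdet]
  · intro v
    have hE₁ : ∀ i, E₁ (b i) = (if i = i₀ then δ else 1) • b i := by
      intro i
      simp only [E₁, D, Matrix.toLin_self, Matrix.diagonal_apply]
      rw [Finset.sum_eq_single i]
      · simp
      · intro j _ hj
        rw [if_neg hj, zero_smul]
      · simp
    have hEg : E₁ ∘ₗ G = G ∘ₗ E₁ := by
      apply b.ext
      intro i
      simp only [LinearMap.comp_apply, hG, map_smul, hE₁]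
      rw [smul_comm]
    exact LinearMap.congr_fun hEg v

/-- The diagonal form of the key lemma. -/
theorem exists_conj_diag (hQ : IsNondegenerateQuadraticForm Q) (h2 : (2 : F) ≠ 0)
    (x : GL (Fin n) F) {κ : Type} [Fintype κ] [DecidableEq κ] [Nonempty κ]
    (b c : Basis κ F (Fin n → F)) (d : κ → F)
    (hb : ∀ i, (x : Matrix (Fin n) (Fin n) F) *ᵥ b i = d i • b i)
    (μ : F) (hμ : μ ≠ 0)
    (hc : ∀ i j, QuadraticMap.polar Q (c i) (c j) ≠ 0 → d i * d j = μ) :
    ∃ g ∈ specialLinear (Fin n) F, g⁻¹ * x * g ∈ quadSimilarityGroup Q := by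
  classical
  obtain ⟨i₀⟩ := ‹Nonempty κ›
  have hT0 : LinearMap.det (b.equiv c (Equiv.refl κ)).toLinearMap ≠ 0 :=
    (LinearEquiv.isUnit_det' _).ne_zero
  obtain ⟨E, hEd, hE⟩ := exists_comm_det_diag b d (Matrix.toLin' (x : Matrix (Fin n) (Fin n) F))
    (fun i => by rw [Matrix.toLin'_apply, hb]) i₀ _ (inv_ne_zero hT0)
  refine exists_conj_of_bases hQ h2 x b c (fun j i => if j = i then d i else 0) ?_ E ?_ ?_ μ hμ ?_
  · intro i
    rw [hb, Finset.sum_eq_single i]
    · simp
    · intro j _ hj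
      simp [hj]
    · simp
  · rw [hEd, inv_mul_cancel₀ hT0]
  · intro v
    simpa using hE v
  · intro i j
    have h3 : ∀ i, (∑ k, (if k = i then d i else 0) • c k) = d i • c i := by
      intro i
      rw [Finset.sum_eq_single i]
      · simp
      · intro j _ hj
        simp [hj]
      · simp
    rw [h3, h3, hQ.polar_bilinear.smul_left, hQ.polar_bilinear.smul_right]
    by_cases h : QuadraticMap.polar Q (c i) (c j) = 0
    · rw [h]
      simp
    · rw [← hc i j h]
      ring

/-- An orthogonal basis with any index type of the right size. -/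
theorem exists_orth_basis (hQ : IsNondegenerateQuadraticForm Q) (h2 : (2 : F) ≠ 0)
    {κ : Type} [Fintype κ] [DecidableEq κ] (hκ : Fintype.card κ = n) :
    ∃ u : Basis κ F (Fin n → F), (∀ i j, i ≠ j → QuadraticMap.polar Q (u i) (u j) = 0) ∧
      ∀ i, Q (u i) ≠ 0 := by
  classical
  letI : Invertible (2 : F) := invertibleOfNonzero h2
  let B : LinearMap.BilinForm F (Fin n → F) :=
    QuadraticMap.polarBilin (Cfsg.Agent.Lib.GeoOmega.Eichler.toQF hQ)
  have hB : ∀ u v, B u v = QuadraticMap.polar Q u v := fun u v => rfl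
  have hS : LinearMap.IsSymm B := ⟨fun u v => QuadraticMap.polar_comm Q u v⟩
  obtain ⟨v, hv⟩ := LinearMap.BilinForm.exists_orthogonal_basis hS
  have hcard : Fintype.card (Fin (finrank F (Fin n → F))) = Fintype.card κ := by
    simp [hκ]
  let ε : Fin (finrank F (Fin n → F)) ≃ κ := Fintype.equivOfCardEq hcard
  let u : Basis κ F (Fin n → F) := v.reindex ε
  have hu : ∀ i, u i = v (ε.symm i) := fun i => by simp [u]
  have horth : ∀ i j, i ≠ j → QuadraticMap.polar Q (u i) (u j) = 0 := by
    intro i j hij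
    rw [hu, hu, ← hB]
    exact hv (fun h => hij (ε.symm.injective h))
  refine ⟨u, horth, fun i hi => ?_⟩
  have h0 : ∀ w, QuadraticMap.polar Q (u i) w = 0 := by
    intro w
    have hsp : B (u i) = 0 := by
      apply u.ext
      intro j
      rw [LinearMap.zero_apply, hB]
      by_cases hij : i = j
      · subst hij
        change pol Q (u i) (u i) = 0
        rw [pol_self hQ, hi, mul_zero]
      · exact horth i j hij
    exact LinearMap.congr_fun hsp w
  have hne : u i ≠ 0 := u.ne_zero i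
  obtain ⟨-, w, hw⟩ := hQ.nondegenerate (u i) hne
  exact hw (h0 w)

/-- Bases with prescribed values on planes. -/
theorem exists_plane_basis [Fintype F] (hQ : IsNondegenerateQuadraticForm Q) (h2 : (2 : F) ≠ 0)
    {K : Type} [Fintype K] [DecidableEq K] (hK : Fintype.card (Fin 2 × K) = n) {z : F}
    (hz : ¬ IsSquare z) :
    ∃ c : Basis (Fin 2 × K) F (Fin n → F),
      (∀ m m', m ≠ m' → ∀ i j, QuadraticMap.polar Q (c (i, m)) (c (j, m')) = 0) ∧
      ∀ m, Q (c (1, m)) = z * Q (c (0, m)) := by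
  classical
  have hodd : Fintype.card F % 2 = 1 := by
    by_contra hcon
    have h1 : ringChar F ≠ 2 := by
      intro hch
      apply h2
      have : CharP F 2 := hch ▸ ringChar.charP F
      exact CharTwo.two_eq_zero
    exact hcon (FiniteField.odd_card_of_char_ne_two h1)
  obtain ⟨u, horth, hne⟩ := exists_orth_basis hQ h2 hK
  have hsol : ∀ m : K, ∃ s t : F, s ^ 2 * Q (u (0, m)) + t ^ 2 * Q (u (1, m)) = z * Q (u (0, m)) := by
    intro m
    let f : F[X] := C (Q (u (0, m))) * X ^ 2 - C (z * Q (u (0, m)))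
    let g : F[X] := C (Q (u (1, m))) * X ^ 2
    have hf : f.degree = 2 := by
      simp only [f]
      rw [degree_sub_C (by rw [degree_C_mul_X_pow 2 (hne _)]; exact two_pos),
        degree_C_mul_X_pow 2 (hne _)]
      rfl
    have hg : g.degree = 2 := by
      simp only [g]
      rw [degree_C_mul_X_pow 2 (hne _)]
      rfl
    obtain ⟨a, b, hab⟩ := FiniteField.exists_root_sum_quadratic hf hg hodd
    refine ⟨a, b, ?_⟩
    simp only [f, g, eval_sub, eval_mul, eval_C, eval_pow, eval_X] at hab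
    linear_combination hab
  choose s t hst using hsol
  have ht : ∀ m, t m ≠ 0 := by
    intro m h0
    have h1 := hst m
    rw [h0] at h1
    apply hz
    refine ⟨s m, ?_⟩
    apply mul_right_cancel₀ (hne (0, m))
    linear_combination -h1
  let f : Fin 2 × K → (Fin n → F) := fun p =>
    if p.1 = 0 then u (0, p.2) else s p.2 • u (0, p.2) + t p.2 • u (1, p.2)
  let g : Fin 2 × K → (Fin n → F) := fun p =>
    if p.1 = 0 then u (0, p.2) else (t p.2)⁻¹ • (u (1, p.2) - s p.2 • u (0, p.2))
  have hf0 : ∀ m, f (0, m) = u (0, m) := fun m => by simp [f]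
  have hf1 : ∀ m, f (1, m) = s m • u (0, m) + t m • u (1, m) := fun m => by simp [f]
  have hg0 : ∀ m, g (0, m) = u (0, m) := fun m => by simp [g]
  have hg1 : ∀ m, g (1, m) = (t m)⁻¹ • (u (1, m) - s m • u (0, m)) := fun m => by simp [g]
  let Φ : (Fin n → F) →ₗ[F] (Fin n → F) := u.constr F f
  let Ψ : (Fin n → F) →ₗ[F] (Fin n → F) := u.constr F g
  have hΦ : ∀ p, Φ (u p) = f p := fun p => u.constr_basis F f p
  have hΨ : ∀ p, Ψ (u p) = g p := fun p => u.constr_basis F g p
  have h12 : Φ ∘ₗ Ψ = LinearMap.id := by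
    apply u.ext
    rintro ⟨i, m⟩
    fin_cases i
    · change Φ (Ψ (u (0, m))) = u (0, m)
      rw [hΨ, hg0, hΦ, hf0]
    · change Φ (Ψ (u (1, m))) = u (1, m)
      rw [hΨ, hg1, map_smul, map_sub, map_smul, hΦ, hΦ, hf0, hf1, add_sub_cancel_left, smul_smul,
        inv_mul_cancel₀ (ht m), one_smul]
  have h21 : Ψ ∘ₗ Φ = LinearMap.id := by
    apply u.ext
    rintro ⟨i, m⟩
    fin_cases i
    · change Ψ (Φ (u (0, m))) = u (0, m)
      rw [hΦ, hf0, hΨ, hg0]
    · change Ψ (Φ (u (1, m))) = u (1, m)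
      rw [hΦ, hf1, map_add, map_smul, map_smul, hΨ, hΨ, hg0, hg1, smul_smul, mul_inv_cancel₀ (ht m),
        one_smul, add_sub_cancel]
  let Θ : (Fin n → F) ≃ₗ[F] (Fin n → F) := LinearEquiv.ofLinearMap Φ Ψ h12 h21
  let c : Basis (Fin 2 × K) F (Fin n → F) := u.map Θ
  have hc : ∀ p, c p = f p := fun p => by
    simp only [c, Basis.map_apply]
    exact hΦ p
  have hb := hQ.polar_bilinear
  have huorth : ∀ m m', m ≠ m' → ∀ i j, QuadraticMap.polar Q (u (i, m)) (u (j, m')) = 0 := by
    intro m m' hm i j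
    apply horth
    intro h
    exact hm (congrArg Prod.snd h)
  refine ⟨c, ?_, ?_⟩
  · intro m m' hm i j
    rw [hc, hc]
    fin_cases i <;> fin_cases j
    · simp only [Fin.zero_eta, hf0]
      exact huorth m m' hm 0 0
    · simp only [Fin.zero_eta, Fin.mk_one, hf0, hf1]
      rw [hb.add_right, hb.smul_right, hb.smul_right, huorth m m' hm, huorth m m' hm]
      simp
    · simp only [Fin.zero_eta, Fin.mk_one, hf0, hf1]
      rw [hb.add_left, hb.smul_left, hb.smul_left, huorth m m' hm, huorth m m' hm]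
      simp
    · simp only [Fin.mk_one, hf1]
      rw [hb.add_left, hb.smul_left, hb.smul_left, hb.add_right, hb.smul_right, hb.smul_right,
        hb.add_right, hb.smul_right, hb.smul_right, huorth m m' hm, huorth m m' hm, huorth m m' hm,
        huorth m m' hm]
      simp
  · intro m
    rw [hc, hc, hf0, hf1, Q_smul_add hQ]
    have h3 : pol Q (u (0, m)) (u (1, m)) = 0 := horth _ _ (by
      intro h
      have := congrArg Prod.fst h
      simp at this)
    rw [h3, mul_zero, add_zero, hst]

/-- The case of a non-square. -/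
theorem exists_conj_nonsquare [Fintype F] (hQ : IsNondegenerateQuadraticForm Q) (h2 : (2 : F) ≠ 0)
    (hn : 0 < n) (x : GL (Fin n) F) (z : F) (hz0 : z ≠ 0) (hz : ¬ IsSquare z)
    (hsq : (x : Matrix (Fin n) (Fin n) F) * (x : Matrix (Fin n) (Fin n) F) = z • 1) :
    ∃ g ∈ specialLinear (Fin n) F, g⁻¹ * x * g ∈ quadSimilarityGroup Q := by
  classical
  let G : (Fin n → F) →ₗ[F] (Fin n → F) := Matrix.toLin' (x : Matrix (Fin n) (Fin n) F)
  have hG : ∀ v, G v = (x : Matrix (Fin n) (Fin n) F) *ᵥ v := fun v => rfl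
  have hGG : ∀ v, G (G v) = z • v := by
    intro v
    simp only [hG, Matrix.mulVec_mulVec, hsq, Matrix.smul_mulVec, Matrix.one_mulVec]
  obtain ⟨K, L, _, _, e, s, h1, h3, h4⟩ := BlockForm.exists_normal_basis G z hz0 hGG
  have hL : IsEmpty L := by
    refine ⟨fun l => hz ?_⟩
    have h5 := hGG (e (.inr l))
    rw [h4, map_smul, h4, smul_smul] at h5
    have h6 : (s l * s l - z) • e (.inr l) = 0 := by
      rw [sub_smul, h5, sub_self]
    have h7 := (smul_eq_zero.mp h6).resolve_right (e.ne_zero _)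
    exact ⟨s l, by linear_combination -h7⟩
  let ε : Fin 2 × K ≃ (K × Bool) ⊕ L :=
    { toFun := fun p => .inl (p.2, decide (p.1 = 1))
      invFun := fun y => match y with
        | .inl (k, b) => (if b then 1 else 0, k)
        | .inr l => (hL.false l).elim
      left_inv := by
        rintro ⟨i, k⟩
        fin_cases i <;> simp
      right_inv := by
        rintro (⟨k, b⟩ | l)
        · cases b <;> simp
        · exact (hL.false l).elim }
  let b : Basis (Fin 2 × K) F (Fin n → F) := e.reindex ε.symm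
  have hb : ∀ p, b p = e (ε p) := fun p => by simp [b]
  have hb0 : ∀ m, G (b (0, m)) = b (1, m) := by
    intro m
    rw [hb, hb]
    simpa [ε] using h1 m
  have hb1 : ∀ m, G (b (1, m)) = z • b (0, m) := by
    intro m
    rw [hb, hb]
    simpa [ε] using h3 m
  have hK : Fintype.card (Fin 2 × K) = n := by
    have := finrank_eq_card_basis b
    simpa using this.symm
  obtain ⟨c, hc1, hc2⟩ := exists_plane_basis hQ h2 hK hz
  -- block matrices
  let M : K → Matrix (Fin 2) (Fin 2) F := fun _ => BlockForm.swapBlock z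
  have hbM : ∀ i m, G (b (i, m)) = ∑ j, M m j i • b (j, m) := by
    intro i m
    fin_cases i
    · simp [M, BlockForm.swapBlock, Fin.sum_univ_two, hb0]
    · simp [M, BlockForm.swapBlock, Fin.sum_univ_two, hb1]
  have hKne : Nonempty K := by
    by_contra hne
    rw [not_nonempty_iff] at hne
    have h0 : Fintype.card (Fin 2 × K) = 0 := by simp
    omega
  obtain ⟨m₀⟩ := hKne
  have hT0 : LinearMap.det (b.equiv c (Equiv.refl _)).toLinearMap ≠ 0 :=
    (LinearEquiv.isUnit_det' _).ne_zero
  obtain ⟨U, hUc, hUd⟩ := BlockForm.exists_comm_swapBlock z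
    (LinearMap.det (b.equiv c (Equiv.refl _)).toLinearMap)⁻¹ hz0
  obtain ⟨E, hEd, hE⟩ := BlockForm.exists_comm_det b M G hbM m₀ U hUc (by
    rw [hUd]
    exact inv_ne_zero hT0)
  let A : Fin 2 × K → Fin 2 × K → F := fun p' p => if p'.2 = p.2 then BlockForm.swapBlock z p'.1 p.1 else 0
  have hsum : ∀ (f : Fin 2 × K → (Fin n → F)) (i : Fin 2) (m : K),
      ∑ p', A p' (i, m) • f p' = ∑ j, BlockForm.swapBlock z j i • f (j, m) := by
    intro f i m
    rw [Fintype.sum_prod_type_right, Finset.sum_eq_single m]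
    · simp [A]
    · intro m' _ hm'
      simp [A, hm']
    · simp
  have hsum0 : ∀ (f : Fin 2 × K → (Fin n → F)) (m : K), ∑ p', A p' (0, m) • f p' = f (1, m) := by
    intro f m
    rw [hsum]
    simp [BlockForm.swapBlock, Fin.sum_univ_two]
  have hsum1 : ∀ (f : Fin 2 × K → (Fin n → F)) (m : K), ∑ p', A p' (1, m) • f p' = z • f (0, m) := by
    intro f m
    rw [hsum]
    simp [BlockForm.swapBlock, Fin.sum_univ_two]
  have hbq := hQ.polar_bilinear
  refine exists_conj_of_bases hQ h2 x b c A ?_ E ?_ ?_ z hz0 ?_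
  · rintro ⟨i, m⟩
    rw [← hG]
    fin_cases i
    · simp only [Fin.zero_eta]
      rw [hsum0, hb0]
    · simp only [Fin.mk_one]
      rw [hsum1, hb1]
  · rw [hEd, hUd, inv_mul_cancel₀ hT0]
  · exact hE
  · rintro ⟨i, m⟩ ⟨j, m'⟩
    by_cases hmm : m = m'
    · subst hmm
      have h5 : pol Q (c (0, m)) (c (0, m)) = 2 * Q (c (0, m)) := pol_self hQ _
      have h6 : pol Q (c (1, m)) (c (1, m)) = 2 * Q (c (1, m)) := pol_self hQ _
      have h5' : QuadraticMap.polar Q (c (0, m)) (c (0, m)) = 2 * Q (c (0, m)) := h5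
      have h6' : QuadraticMap.polar Q (c (1, m)) (c (1, m)) = 2 * Q (c (1, m)) := h6
      fin_cases i <;> fin_cases j
      · simp only [Fin.zero_eta]
        rw [hsum0, h5', h6', hc2]
        ring
      · simp only [Fin.zero_eta, Fin.mk_one]
        rw [hsum0, hsum1, hbq.smul_right, QuadraticMap.polar_comm]
      · simp only [Fin.zero_eta, Fin.mk_one]
        rw [hsum0, hsum1, hbq.smul_left, QuadraticMap.polar_comm]
      · simp only [Fin.mk_one]
        rw [hsum1, hbq.smul_left, hbq.smul_right, h5', h6', hc2]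
        ring
    · fin_cases i <;> fin_cases j
      · simp only [Fin.zero_eta]
        rw [hsum0, hsum0, hc1 m m' hmm, hc1 m m' hmm, mul_zero]
      · simp only [Fin.zero_eta, Fin.mk_one]
        rw [hsum0, hsum1, hbq.smul_right, hc1 m m' hmm, hc1 m m' hmm, mul_zero]
      · simp only [Fin.zero_eta, Fin.mk_one]
        rw [hsum0, hsum1, hbq.smul_left, hc1 m m' hmm, hc1 m m' hmm, mul_zero]
      · simp only [Fin.mk_one]
        rw [hsum1, hsum1, hbq.smul_left, hbq.smul_right, hc1 m m' hmm, hc1 m m' hmm]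
        ring

/-- The case of a square. -/
theorem exists_conj_square [Fintype F] (hQ : IsNondegenerateQuadraticForm Q) (h2 : (2 : F) ≠ 0)
    (hn : 0 < n) (x : GL (Fin n) F) (a : F) (ha : a ≠ 0)
    (hsq : (x : Matrix (Fin n) (Fin n) F) * (x : Matrix (Fin n) (Fin n) F) = (a * a) • 1) :
    ∃ g ∈ specialLinear (Fin n) F, g⁻¹ * x * g ∈ quadSimilarityGroup Q := by
  classical
  let G : (Fin n → F) →ₗ[F] (Fin n → F) := Matrix.toLin' (x : Matrix (Fin n) (Fin n) F)
  have hG : ∀ v, G v = (x : Matrix (Fin n) (Fin n) F) *ᵥ v := fun v => rfl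
  have hGG : G * G = (a * a) • 1 := by
    apply LinearMap.ext
    intro v
    simp only [Module.End.mul_apply, hG, Matrix.mulVec_mulVec, hsq, Matrix.smul_mulVec, Matrix.one_mulVec]
    simp
  have hne : a ≠ -a := by
    intro h
    have h3 : 2 * a = 0 := by linear_combination h
    exact (mul_ne_zero h2 ha) h3
  have hprod : ∏ α ∈ ({a, -a} : Finset F), (X - C α) = (X - C a) * (X + C a) := by
    rw [Finset.prod_pair hne]
    simp
  have hann : aeval G (∏ α ∈ ({a, -a} : Finset F), (X - C α)) = 0 := by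
    rw [hprod, map_mul, map_sub, map_add, aeval_X, aeval_C]
    simp only [Module.algebraMap_end_eq_smul_id]
    have : (G - a • LinearMap.id) * (G + a • LinearMap.id) = G * G - (a * a) • (1 : End F (Fin n → F)) := by
      apply LinearMap.ext
      intro v
      simp [Module.End.mul_apply, smul_smul, mul_comm a]
      abel
    rw [this, hGG, sub_self]
  obtain ⟨d, b, hb, hd⟩ := EigenSplit.exists_eigen_basis G ({a, -a} : Finset F) hann n (by simp)
  obtain ⟨c, hc1, -⟩ := exists_orth_basis hQ h2 (κ := Fin n) (by simp)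
  haveI : Nonempty (Fin n) := ⟨⟨0, hn⟩⟩
  refine exists_conj_diag hQ h2 x b c d hb (a * a) (mul_ne_zero ha ha) ?_
  intro i j hij
  have hij' : i = j := by
    by_contra h
    exact hij (hc1 i j h)
  subst hij'
  have := hd i
  simp only [Finset.mem_insert, Finset.mem_singleton] at this
  rcases this with h | h <;> rw [h] <;> ring

end Cfsg.Agent.Lib.FGStruct.GoA
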