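import Mathlib
import Cfsg.Agent.Lib.FGStruct.GoA
import Cfsg.Agent.Lib.Orth.Std

/-!
# Elements of order `r` in dimension `r` for `r ∈ {3, 5}`
-/

set_option autoImplicit false
set_option linter.style.haveILetI false

namespace Cfsg.Agent.Lib.FGStruct.GoB

open Module Matrix Polynomial Cfsg.Geo Cfsg.Agent.Lib.Geo.QForm
open Cfsg.Agent.Lib.Elusive Cfsg.Agent.Lib.FGStruct.GoA
open scoped MatrixGroups

variable {F : Type*} [Field F] {n : ℕ} {Q : (Fin n → F) → F}

/-- The Witt form of the diagonal key lemma. -/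
theorem exists_conj_witt [Fintype F] (hQ : IsNondegenerateQuadraticForm Q) (h2 : (2 : F) ≠ 0) {m : ℕ}
    (hn : n = 2 * m + 1) (x : GL (Fin n) F)
    (b : Basis (Unit ⊕ (Fin m ⊕ Fin m)) F (Fin n → F)) (d : Unit ⊕ (Fin m ⊕ Fin m) → F)
    (hb : ∀ i, (x : Matrix (Fin n) (Fin n) F) *ᵥ b i = d i • b i) (hd0 : d (.inl ()) ≠ 0)
    (hd : ∀ k, d (.inr (.inl k)) * d (.inr (.inr k)) = d (.inl ()) * d (.inl ())) :
    ∃ g ∈ specialLinear (Fin n) F, g⁻¹ * x * g ∈ quadSimilarityGroup Q := by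
  classical
  let Q' := Cfsg.Agent.Lib.GeoOmega.Eichler.toQF hQ
  obtain ⟨c, -, h1, -, h3, h4⟩ := Cfsg.Agent.Lib.Orth.Std.exists_basis_odd (F := F) (Q := Q')
    (Cfsg.Agent.Lib.GeoOmega.Eichler.toQF_nd hQ) (m := m) (by simp [hn])
  have h1' : ∀ i, QuadraticMap.polar Q (c (.inl ())) (c (.inr (.inl i))) = 0 ∧
      QuadraticMap.polar Q (c (.inl ())) (c (.inr (.inr i))) = 0 := h1
  have h3' : ∀ i j, QuadraticMap.polar Q (c (.inr (.inl i))) (c (.inr (.inr j))) = if i = j then 1 else 0 := h3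
  have h4' : ∀ i j, QuadraticMap.polar Q (c (.inr (.inl i))) (c (.inr (.inl j))) = 0 ∧
      QuadraticMap.polar Q (c (.inr (.inr i))) (c (.inr (.inr j))) = 0 := h4
  haveI : Nonempty (Unit ⊕ (Fin m ⊕ Fin m)) := ⟨.inl ()⟩
  refine exists_conj_diag hQ h2 x b c d hb (d (.inl ()) * d (.inl ())) (mul_ne_zero hd0 hd0) ?_
  rintro (⟨⟩ | i | i) (⟨⟩ | j | j) hne
  · rfl
  · exact absurd (h1' j).1 hne
  · exact absurd (h1' j).2 hne
  · rw [QuadraticMap.polar_comm] at hne
    exact absurd (h1' i).1 hne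
  · exact absurd (h4' i j).1 hne
  · rw [h3'] at hne
    have hij : i = j := by
      by_contra h
      simp [h] at hne
    subst hij
    exact hd i
  · rw [QuadraticMap.polar_comm] at hne
    exact absurd (h1' i).2 hne
  · rw [QuadraticMap.polar_comm, h3'] at hne
    have hij : j = i := by
      by_contra h
      simp [h] at hne
    subst hij
    rw [mul_comm]
    exact hd j
  · exact absurd (h4' i j).2 hne

/-- `r`-th roots of `1` are trivial on `r`-th powers when `r² ∤ q - 1`. -/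
theorem pow_eq_one_of_val [Fintype F] {q r : ℕ} (hq : Fintype.card F = q) [hr : Fact r.Prime]
    (hval : padicValNat r (q - 1) = 1) {a : F} (ha : a ≠ 0) (h : a ^ (r * r) = 1) : a ^ r = 1 := by
  classical
  have hq1 : q - 1 ≠ 0 := by
    intro h0
    rw [h0] at hval
    simp at hval
  let u : Fˣ := Units.mk0 a ha
  have hu : u ^ (r ^ 2) = 1 := by
    ext
    simp only [u, Units.val_pow_eq_pow_val, Units.val_mk0, Units.val_one]
    rw [← h]
    ring
  have hq2 : orderOf u ∣ q - 1 := by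
    have := orderOf_dvd_natCard u
    rwa [Nat.card_eq_fintype_card, Fintype.card_units, hq] at this
  obtain ⟨k, hk, hk'⟩ := (Nat.dvd_prime_pow hr.out).1 (orderOf_dvd_of_pow_eq_one hu)
  have hk1 : k ≤ 1 := by
    have h3 : r ^ k ∣ q - 1 := hk' ▸ hq2
    have h4 := (padicValNat_dvd_iff_le hq1).1 h3
    omega
  have h5 : u ^ r = 1 := by
    have h6 : orderOf u ∣ r := by
      rw [hk']
      exact (Nat.pow_dvd_pow r hk1).trans (by simp)
    obtain ⟨t, ht⟩ := h6
    rw [ht, pow_mul, pow_orderOf_eq_one, one_pow]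
  have h6 := congrArg Units.val h5
  simpa [u] using h6

/-- The scalar `x^r` is trivial. -/
theorem scalar_eq_one [Fintype F] {q r : ℕ} (hq : Fintype.card F = q) [hr : Fact r.Prime] (hodd : Odd r)
    (hval : padicValNat r (q - 1) = 1) (M : Matrix (Fin r) (Fin r) F) (hM : M.det = 1) (z : F)
    (hMz : M ^ r = z • 1) : z = 1 := by
  classical
  have hzr : z ^ r = 1 := by
    have h1 := congrArg Matrix.det hMz
    rw [Matrix.det_pow, hM, one_pow, Matrix.det_smul, Matrix.det_one] at h1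
    simpa using h1.symm
  by_contra hz1
  have hnot : ∀ b : F, b ^ r ≠ z := by
    intro b hb
    have hb0 : b ≠ 0 := by
      rintro rfl
      rw [zero_pow hr.out.ne_zero] at hb
      rw [← hb, zero_pow hr.out.ne_zero] at hzr
      exact zero_ne_one hzr
    apply hz1
    rw [← hb]
    apply pow_eq_one_of_val hq hval hb0
    rw [pow_mul, hb, hzr]
  have hirr := X_pow_sub_C_irreducible_of_prime hr.out hnot
  have hmonic : (X ^ r - C z : F[X]).Monic := monic_X_pow_sub_C z hr.out.ne_zero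
  have hroot : aeval M (X ^ r - C z : F[X]) = 0 := by
    rw [map_sub, map_pow, aeval_X, aeval_C, hMz, sub_eq_zero]
    exact (Algebra.algebraMap_eq_smul_one z).symm
  have hmin := minpoly.eq_of_irreducible_of_monic hirr hroot hmonic
  have hdvd : (X ^ r - C z : F[X]) ∣ M.charpoly := by
    rw [hmin]
    exact minpoly.dvd _ _ (Matrix.aeval_self_charpoly M)
  have hdeg : M.charpoly.natDegree ≤ (X ^ r - C z : F[X]).natDegree := by
    rw [Matrix.charpoly_natDegree_eq_dim, natDegree_X_pow_sub_C]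
    simp
  have heq := eq_of_monic_of_dvd_of_natDegree_le hmonic (Matrix.charpoly_monic M) hdvd hdeg
  have hdet := Matrix.det_eq_sign_charpoly_coeff M
  rw [heq, hM] at hdet
  simp only [Fintype.card_fin, hodd.neg_one_pow, coeff_sub, coeff_C_zero, coeff_X_pow] at hdet
  rw [if_neg (by exact hr.out.ne_zero.symm)] at hdet
  apply hz1
  linear_combination -hdet

/-- Existence of a primitive root of unity of order dividing `q - 1`. -/
theorem exists_primitive [Fintype F] {q r : ℕ} (hq : Fintype.card F = q) (hrq : r ∣ q - 1)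
    (hq1 : q - 1 ≠ 0) : ∃ ω : F, IsPrimitiveRoot ω r := by
  classical
  obtain ⟨γ, hγ⟩ := IsCyclic.exists_generator (α := Fˣ)
  have hγo : orderOf γ = q - 1 := by
    rw [orderOf_eq_card_of_forall_mem_zpowers hγ, Nat.card_eq_fintype_card, Fintype.card_units, hq]
  obtain ⟨k, hk⟩ := hrq
  have hk0 : k ≠ 0 := by
    rintro rfl
    exact hq1 (by simpa using hk)
  have hδ : orderOf (γ ^ k) = r := by
    have := orderOf_pow_of_dvd (x := γ) (n := k) hk0 (by rw [hγo, hk]; exact dvd_mul_left _ _)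
    rw [this, hγo, hk]
    exact Nat.mul_div_cancel _ (Nat.pos_of_ne_zero hk0)
  refine ⟨((γ ^ k : Fˣ) : F), ?_⟩
  have h1 : IsPrimitiveRoot (γ ^ k) r := by
    rw [← hδ]
    exact IsPrimitiveRoot.orderOf _
  exact h1.map_of_injective (f := Units.coeHom F) Units.val_injective

/-- The list of matchings. -/
def L5 : List (Fin 5 × Fin 5 × Fin 5 × Fin 5 × Fin 5) :=
  [(0,1,2,3,4),(0,1,3,2,4),(0,1,4,2,3),
   (1,0,2,3,4),(1,0,3,2,4),(1,0,4,2,3),
   (2,0,1,3,4),(2,0,3,1,4),(2,0,4,1,3),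
   (3,0,1,2,4),(3,0,2,1,4),(3,0,4,1,2),
   (4,0,1,2,3),(4,0,2,1,3),(4,0,3,1,2)]

set_option maxRecDepth 100000 in
theorem pairing5 : ∀ a0 a1 a2 a3 a4 : Fin 5, (a0.val+a1.val+a2.val+a3.val+a4.val)%5=0 →
    ∃ t ∈ L5, ((![a0,a1,a2,a3,a4] t.2.1).val + (![a0,a1,a2,a3,a4] t.2.2.1).val) % 5 =
        (2 * (![a0,a1,a2,a3,a4] t.1).val) % 5 ∧
      ((![a0,a1,a2,a3,a4] t.2.2.2.1).val + (![a0,a1,a2,a3,a4] t.2.2.2.2).val) % 5 =
        (2 * (![a0,a1,a2,a3,a4] t.1).val) % 5 := by
  decide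

/-- The map attached to a matching. -/
def ft (t : Fin 5 × Fin 5 × Fin 5 × Fin 5 × Fin 5) : Unit ⊕ (Fin 2 ⊕ Fin 2) → Fin 5 :=
  Sum.elim (fun _ => t.1) (Sum.elim (fun k => if k = 0 then t.2.1 else t.2.2.2.1)
    (fun k => if k = 0 then t.2.2.1 else t.2.2.2.2))

set_option maxRecDepth 100000 in
theorem ft_bij : ∀ t ∈ L5, Function.Bijective (ft t) := by
  decide

/-- Pairing the eigenvalues for `r = 5`. -/
theorem exists_pairing5 {ω : F} (hω : IsPrimitiveRoot ω 5) (d : Fin 5 → F) (hd : ∀ i, d i ^ 5 = 1)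
    (hprod : ∏ i, d i = 1) :
    ∃ ρ : Unit ⊕ (Fin 2 ⊕ Fin 2) ≃ Fin 5, ∀ k,
      d (ρ (.inr (.inl k))) * d (ρ (.inr (.inr k))) = d (ρ (.inl ())) * d (ρ (.inl ())) := by
  classical
  have hex : ∀ i, ∃ a : Fin 5, ω ^ a.val = d i := by
    intro i
    obtain ⟨k, hk, hk'⟩ := hω.eq_pow_of_pow_eq_one (hd i)
    exact ⟨⟨k, hk⟩, hk'⟩
  choose a ha using hex
  have hsum : ((a 0).val + (a 1).val + (a 2).val + (a 3).val + (a 4).val) % 5 = 0 := by
    have h1 : ω ^ ((a 0).val + (a 1).val + (a 2).val + (a 3).val + (a 4).val) = 1 := by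
      rw [Fin.prod_univ_five] at hprod
      rw [← hprod, ← ha, ← ha, ← ha, ← ha, ← ha]
      ring
    exact Nat.mod_eq_zero_of_dvd ((hω.pow_eq_one_iff_dvd _).1 h1)
  obtain ⟨t, ht, h1, h3⟩ := pairing5 _ _ _ _ _ hsum
  have hvec : ∀ i : Fin 5, ![a 0, a 1, a 2, a 3, a 4] i = a i := by
    intro i
    fin_cases i <;> rfl
  rw [hvec, hvec, hvec] at h1 h3
  refine ⟨Equiv.ofBijective _ (ft_bij t ht), fun k => ?_⟩
  have hpow : ∀ u v : ℕ, u % 5 = v % 5 → ω ^ u = ω ^ v := by
    intro u v huv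
    rw [pow_eq_pow_mod u hω.pow_eq_one, huv, ← pow_eq_pow_mod v hω.pow_eq_one]
  have hk : ∀ u v : Fin 5, (u.val + v.val) % 5 = (2 * (a t.1).val) % 5 → False ∨
      ω ^ (u.val + v.val) = ω ^ (2 * (a t.1).val) := fun u v h => Or.inr (hpow _ _ h)
  simp only [Equiv.ofBijective_apply, ft, Sum.elim_inl, Sum.elim_inr]
  fin_cases k
  · simp only [Fin.zero_eta, if_true]
    rw [← ha, ← ha, ← ha, ← pow_add, hpow _ _ h1, two_mul, pow_add]
  · simp only [Fin.mk_one, one_ne_zero, if_false]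
    rw [← ha, ← ha, ← ha, ← pow_add, hpow _ _ h3, two_mul, pow_add]

/-- The determinant in terms of an eigenbasis. -/
theorem prod_eq_det {κ : Type} [Fintype κ] [DecidableEq κ] {V : Type*} [AddCommGroup V] [Module F V]
    (b : Basis κ F V) (G : V →ₗ[F] V) (d : κ → F) (hb : ∀ i, G (b i) = d i • b i) :
    LinearMap.det G = ∏ i, d i := by
  have h3 : LinearMap.toMatrix b b G = Matrix.diagonal d := by
    ext i j
    rw [LinearMap.toMatrix_apply, hb]
    by_cases hij : i = j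
    · subst hij
      simp
    · simp [Matrix.diagonal_apply_ne _ hij, Finsupp.single_apply, Ne.symm hij]
  rw [← LinearMap.det_toMatrix b, h3, Matrix.det_diagonal]

/-- The case `n = r ∈ {3, 5}` with `(q - 1)_r = r`. -/
theorem exists_conj_prime [Fintype F] {q r : ℕ} (hq : Fintype.card F = q) [hr : Fact r.Prime]
    {Q : (Fin r → F) → F} (hQ : IsNondegenerateQuadraticForm Q) (h2 : (2 : F) ≠ 0)
    (hr35 : r = 3 ∨ r = 5) (hval : padicValNat r (q - 1) = 1) (x : GL (Fin r) F)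
    (hx : x ∈ specialLinear (Fin r) F)
    (hz : ∃ z : F, ((x ^ r : GL (Fin r) F) : Matrix (Fin r) (Fin r) F) = z • 1) :
    ∃ g ∈ specialLinear (Fin r) F, g⁻¹ * x * g ∈ quadSimilarityGroup Q := by
  classical
  obtain ⟨z, hz⟩ := hz
  have hdetx : (x : Matrix (Fin r) (Fin r) F).det = 1 := by
    have h1 : Matrix.GeneralLinearGroup.det x = 1 := hx
    have h3 := congrArg Units.val h1
    simpa using h3
  have hpow : (x : Matrix (Fin r) (Fin r) F) ^ r = z • 1 := by
    rw [← hz, Units.val_pow_eq_pow_val]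
  have hrodd : Odd r := by
    rcases hr35 with rfl | rfl <;> decide
  have hz1 : z = 1 := scalar_eq_one hq hrodd hval _ hdetx z hpow
  subst hz1
  rw [one_smul] at hpow
  have hq1 : q - 1 ≠ 0 := by
    intro h0
    rw [h0] at hval
    simp at hval
  have hrq : r ∣ q - 1 := by
    have := (padicValNat_dvd_iff_le (p := r) (n := 1) hq1).2 (by omega)
    simpa using this
  obtain ⟨ω, hω⟩ := exists_primitive hq hrq hq1
  let G : (Fin r → F) →ₗ[F] (Fin r → F) := Matrix.toLin' (x : Matrix (Fin r) (Fin r) F)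
  have hG : ∀ v, G v = (x : Matrix (Fin r) (Fin r) F) *ᵥ v := fun v => rfl
  have hGpow : G ^ r = 1 := by
    have h1 : (Matrix.toLin' (x : Matrix (Fin r) (Fin r) F) : Module.End F (Fin r → F)) ^ r =
        Matrix.toLin' ((x : Matrix (Fin r) (Fin r) F) ^ r) :=
      (map_pow (Matrix.toLinAlgEquiv' (R := F) (n := Fin r)) _ r).symm
    change (Matrix.toLin' (x : Matrix (Fin r) (Fin r) F) : Module.End F (Fin r → F)) ^ r = 1
    rw [h1, hpow]
    exact Matrix.toLin'_one
  have hann : aeval G (∏ α ∈ Polynomial.nthRootsFinset r (1 : F), (X - C α)) = 0 := by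
    rw [← X_pow_sub_one_eq_prod hr.out.pos hω]
    simp [hGpow]
  obtain ⟨d, b, hb, hd⟩ := EigenSplit.exists_eigen_basis G _ hann r (by simp)
  have hdr : ∀ i, d i ^ r = 1 := fun i =>
    (Polynomial.mem_nthRootsFinset hr.out.pos 1).1 (hd i)
  have hprod : ∏ i, d i = 1 := by
    rw [← prod_eq_det b G d hb]
    change LinearMap.det (Matrix.toLin' (x : Matrix (Fin r) (Fin r) F)) = 1
    rw [LinearMap.det_toLin']
    exact hdetx
  have hd0 : ∀ i, d i ≠ 0 := by
    intro i h0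
    have := hdr i
    rw [h0, zero_pow hr.out.ne_zero] at this
    exact zero_ne_one this
  rcases hr35 with rfl | rfl
  · -- `r = 3`
    have hcard : Fintype.card (Unit ⊕ (Fin 1 ⊕ Fin 1)) = 3 := by simp
    let ρ : Unit ⊕ (Fin 1 ⊕ Fin 1) ≃ Fin 3 := Fintype.equivFinOfCardEq hcard
    refine exists_conj_witt hQ h2 (m := 1) (by norm_num) x (b.reindex ρ.symm) (fun i => d (ρ i)) ?_
      (hd0 _) ?_
    · intro i
      rw [Basis.reindex_apply, ← hG, hb]
      simp
    · intro k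
      have hk : k = 0 := Subsingleton.elim _ _
      subst hk
      have h3 : ∏ i, d (ρ i) = 1 := by
        rw [Equiv.prod_comp ρ d, hprod]
      rw [Fintype.prod_sum_type, Fintype.prod_sum_type] at h3
      simp only [Fintype.prod_unique, Finset.univ_unique, Finset.prod_singleton] at h3
      have h4 := hdr (ρ (.inl ()))
      have hc : d (ρ (.inl ())) * (d (ρ (.inr (.inl 0))) * d (ρ (.inr (.inr 0)))) = 1 := by
        simpa using h3
      calc d (ρ (.inr (.inl 0))) * d (ρ (.inr (.inr 0)))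
          = d (ρ (.inl ())) ^ 3 * (d (ρ (.inr (.inl 0))) * d (ρ (.inr (.inr 0)))) := by rw [h4, one_mul]
        _ = d (ρ (.inl ())) * d (ρ (.inl ())) * (d (ρ (.inl ())) * (d (ρ (.inr (.inl 0))) * d (ρ (.inr (.inr 0))))) := by ring
        _ = _ := by rw [hc, mul_one]
  · -- `r = 5`
    obtain ⟨ρ, hρ⟩ := exists_pairing5 hω d hdr hprod
    refine exists_conj_witt hQ h2 (m := 2) (by norm_num) x (b.reindex ρ.symm) (fun i => d (ρ i)) ?_
      (hd0 _) hρ
    intro i
    rw [Basis.reindex_apply, ← hG, hb]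
    simp

end Cfsg.Agent.Lib.FGStruct.GoB
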