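import Mathlib
import Cfsg.Agent.Lib.FGStruct.GoB

/-!
# Derangements for the similarity group of a quadratic form: diagonal elements and transvections
-/

set_option autoImplicit false
set_option linter.style.haveILetI false
set_option linter.unusedSectionVars false

namespace Cfsg.Agent.Lib.FGStruct.GoC

open Module Matrix Polynomial Cfsg.Geo Cfsg.Agent.Lib.Geo.QForm
open Cfsg.Agent.Lib.Elusive Cfsg.Agent.Lib.FGStruct.GoA Cfsg.Agent.Lib.FGStruct.GoB
open scoped MatrixGroups

variable {F : Type*} [Field F] {n : ℕ} {Q : (Fin n → F) → F}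

/-- The existence of an element with no conjugate in the similarity group. -/
def Der (Q : (Fin n → F) → F) (r : ℕ) : Prop :=
  ∃ x : GL (Fin n) F, x ∈ specialLinear (Fin n) F ∧
    (∃ z : F, ((x ^ r : GL (Fin n) F) : Matrix (Fin n) (Fin n) F) = z • 1) ∧
    (∀ z : F, (x : Matrix (Fin n) (Fin n) F) ≠ z • 1) ∧
    ∀ g ∈ specialLinear (Fin n) F, g⁻¹ * x * g ∉ quadSimilarityGroup Q

/-- A matrix-level criterion. -/
theorem der_of_matrix (Q : (Fin n → F) → F) (r : ℕ) (M : Matrix (Fin n) (Fin n) F) (hdet : M.det = 1) (z : F)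
    (hz : M ^ r = z • 1) (hns : ∀ z : F, M ≠ z • 1)
    (h : ∀ (P' P₀ : Matrix (Fin n) (Fin n) F) (c : F), c ≠ 0 → P' * P₀ = 1 → P₀ * P' = 1 →
      (∀ v, Q ((P' * M * P₀) *ᵥ v) = c * Q v) → False) : Der Q r := by
  let x : GL (Fin n) F := Matrix.SpecialLinearGroup.toGL ⟨M, hdet⟩
  have hx : (x : Matrix (Fin n) (Fin n) F) = M := rfl
  refine ⟨x, ?_, ⟨z, ?_⟩, ?_, ?_⟩
  · change Matrix.GeneralLinearGroup.det x = 1
    ext
    simpa [hx] using hdet
  · rw [Units.val_pow_eq_pow_val, hx, hz]
  · rw [hx]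
    exact hns
  · rintro g - ⟨c, hc⟩
    refine h ((g⁻¹ : GL (Fin n) F) : Matrix (Fin n) (Fin n) F) (g : Matrix (Fin n) (Fin n) F) c c.ne_zero ?_ ?_ ?_
    · rw [← Units.val_mul, inv_mul_cancel, Units.val_one]
    · rw [← Units.val_mul, mul_inv_cancel, Units.val_one]
    · intro v
      have := hc v
      rwa [Units.val_mul, Units.val_mul, hx] at this

/-- Conjugates and powers of matrices. -/
theorem conj_pow_mat (P' P₀ A : Matrix (Fin n) (Fin n) F) (h1 : P' * P₀ = 1) (h2 : P₀ * P' = 1) (k : ℕ) :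
    (P' * A * P₀) ^ k = P' * A ^ k * P₀ := by
  induction k with
  | zero => simp [h1]
  | succ k ih =>
    rw [pow_succ, ih, pow_succ]
    calc P' * A ^ k * P₀ * (P' * A * P₀) = P' * A ^ k * (P₀ * P') * A * P₀ := by
          simp only [Matrix.mul_assoc]
      _ = _ := by rw [h2, Matrix.mul_one]; simp only [Matrix.mul_assoc]

/-- Existence of a non-singular vector. -/
theorem exists_Q_ne (hQ : IsNondegenerateQuadraticForm Q) (h2 : (2 : F) ≠ 0) (hn : 0 < n) :
    ∃ w, Q w ≠ 0 := by
  obtain ⟨u, -, hu⟩ := exists_orth_basis hQ h2 (κ := Fin n) (by simp)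
  exact ⟨u ⟨0, hn⟩, hu _⟩

/-- Multipliers of elements of order dividing `r`. -/
theorem mu_pow (hQ : IsNondegenerateQuadraticForm Q) (h2 : (2 : F) ≠ 0) (hn : 0 < n)
    (Y : Matrix (Fin n) (Fin n) F) (c : F) (h : ∀ v, Q (Y *ᵥ v) = c * Q v) {r : ℕ} (hY : Y ^ r = 1) :
    c ^ r = 1 := by
  obtain ⟨w, hw⟩ := exists_Q_ne hQ h2 hn
  have hpow : ∀ (k : ℕ) (v : Fin n → F), Q ((Y ^ k) *ᵥ v) = c ^ k * Q v := by
    intro k
    induction k with
    | zero => intro v; simp
    | succ k ih =>
      intro v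
      rw [pow_succ, ← Matrix.mulVec_mulVec, ih, h, pow_succ, mul_assoc]
  have h3 := hpow r w
  rw [hY, Matrix.one_mulVec] at h3
  apply mul_right_cancel₀ hw
  rw [one_mul]
  exact h3.symm

/-- The number of eigenvectors: comparison via non-degeneracy. -/
theorem card_le_of_sim [DecidableEq F] (hQ : IsNondegenerateQuadraticForm Q)
    (P' P₀ : Matrix (Fin n) (Fin n) F)
    (h1 : P' * P₀ = 1) (h2 : P₀ * P' = 1) (d : Fin n → F) (μ : F)
    (hμ : ∀ v, Q ((P' * Matrix.diagonal d * P₀) *ᵥ v) = μ * Q v)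
    (a b : F) (ha : a ≠ 0) (hab : a * b = μ) :
    (Finset.univ.filter fun i => d i = a).card ≤ (Finset.univ.filter fun i => d i = b).card := by
  classical
  let S := Finset.univ.filter fun i => d i = a
  let T := Finset.univ.filter fun i => d i = b
  let w : Fin n → (Fin n → F) := fun i => P' *ᵥ (Pi.single i 1)
  have hYw : ∀ i, (P' * Matrix.diagonal d * P₀) *ᵥ w i = d i • w i := by
    intro i
    simp only [w]
    rw [Matrix.mulVec_mulVec, Matrix.mul_assoc, Matrix.mul_assoc, h2, Matrix.mul_one,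
      ← Matrix.mulVec_mulVec, ← Matrix.mulVec_smul]
    congr 1
    ext j
    by_cases hj : j = i
    · subst hj
      simp [Matrix.mulVec_diagonal]
    · simp [Matrix.mulVec_diagonal, hj]
  let B : LinearMap.BilinForm F (Fin n → F) :=
    QuadraticMap.polarBilin (Cfsg.Agent.Lib.GeoOmega.Eichler.toQF hQ)
  have hB : ∀ u v, B u v = QuadraticMap.polar Q u v := fun u v => rfl
  have hf := hQ.polar_bilinear
  have hμ' := polar_of_sim _ μ hμ
  have hzero : ∀ i ∈ S, ∀ j, j ∉ T → B (w i) (w j) = 0 := by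
    intro i hi j hj
    have hi' : d i = a := (Finset.mem_filter.1 hi).2
    have hj' : d j ≠ b := fun h => hj (Finset.mem_filter.2 ⟨Finset.mem_univ _, h⟩)
    have h3 := hμ' (w i) (w j)
    rw [hYw, hYw, hf.smul_left, hf.smul_right, hi'] at h3
    have hne : a * d j - μ ≠ 0 := by
      rw [← hab, ← mul_sub]
      exact mul_ne_zero ha (sub_ne_zero.2 hj')
    have h4 : (a * d j - μ) * QuadraticMap.polar Q (w i) (w j) = 0 := by linear_combination h3
    rw [hB]
    exact (mul_eq_zero.1 h4).resolve_left hne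
  have hli : LinearIndependent F (fun i : S => (fun j : T => B (w i.1) (w j.1))) := by
    rw [Fintype.linearIndependent_iff]
    intro g hg i₀
    let v : Fin n → F := ∑ i : S, g i • w i.1
    have hvj : ∀ j, B v (w j) = 0 := by
      intro j
      by_cases hj : j ∈ T
      · have h3 := congrFun hg ⟨j, hj⟩
        simp only [Finset.sum_apply, Pi.smul_apply, smul_eq_mul, Pi.zero_apply] at h3
        simp only [v, map_sum, LinearMap.sum_apply, map_smul, LinearMap.smul_apply, smul_eq_mul]
        exact h3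
      · simp only [v, map_sum, LinearMap.sum_apply, map_smul, LinearMap.smul_apply, smul_eq_mul]
        refine Finset.sum_eq_zero fun i _ => ?_
        rw [hzero i.1 i.2 j hj, mul_zero]
    have hv0 : v = 0 := by
      by_contra hv
      obtain ⟨x, hx⟩ := (hQ.nondegenerate v hv).2
      apply hx
      rw [← hB]
      have hℓ : (B v) ∘ₗ P'.mulVecLin = 0 := by
        apply (Pi.basisFun F (Fin n)).ext
        intro j
        simp only [Pi.basisFun_apply, LinearMap.comp_apply, Matrix.mulVecLin_apply, LinearMap.zero_apply]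
        exact hvj j
      have h5 := LinearMap.congr_fun hℓ (P₀ *ᵥ x)
      simp only [LinearMap.comp_apply, Matrix.mulVecLin_apply, LinearMap.zero_apply, Matrix.mulVec_mulVec, h1,
        Matrix.one_mulVec] at h5
      exact h5
    have h6 := congrArg (fun t => (P₀ *ᵥ t) i₀.1) hv0
    simp only [v, w, Matrix.mulVec_zero, Pi.zero_apply] at h6
    rw [Matrix.mulVec_sum] at h6
    simp only [Matrix.mulVec_smul, Matrix.mulVec_mulVec, h2, Matrix.one_mulVec, Finset.sum_apply,
      Pi.smul_apply, smul_eq_mul] at h6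
    rw [Finset.sum_eq_single i₀] at h6
    · simpa using h6
    · intro i _ hne
      have : i₀.1 ≠ i.1 := fun h => hne (Subtype.ext h.symm)
      simp [this]
    · simp
  have h7 := hli.fintype_card_le_finrank
  simpa using h7

/-- The diagonal pattern. -/
def dPat (a b c : F) : ℕ → F := fun k => if k = 0 then a else if k = 1 then b else if k = 2 then c else 1

theorem count_dPat [DecidableEq F] (a b c t : F) (hn : 3 ≤ n) :
    (Finset.univ.filter fun i : Fin n => dPat a b c i.val = t).card =
      (if a = t then 1 else 0) + (if b = t then 1 else 0) + (if c = t then 1 else 0) +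
        (if (1 : F) = t then n - 3 else 0) := by
  classical
  obtain ⟨m, rfl⟩ : ∃ m, n = m + 3 := ⟨n - 3, by omega⟩
  rw [Finset.card_filter]
  rw [Fin.sum_univ_eq_sum_range (fun k => if dPat a b c k = t then 1 else 0) (m + 3)]
  rw [Finset.sum_range_succ', Finset.sum_range_succ', Finset.sum_range_succ']
  have h0 : dPat a b c 0 = a := rfl
  have h1 : dPat a b c (0 + 1) = b := rfl
  have h2 : dPat a b c (0 + 1 + 1) = c := rfl
  have h3 : ∀ k, dPat a b c (k + 1 + 1 + 1) = 1 := fun k => by
    simp [dPat]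
  simp only [h0, h1, h2, h3]
  by_cases h : (1 : F) = t <;> simp [h] <;> omega

theorem prod_dPat (a b c : F) (hn : 3 ≤ n) : ∏ i : Fin n, dPat a b c i.val = a * b * c := by
  classical
  obtain ⟨m, rfl⟩ : ∃ m, n = m + 3 := ⟨n - 3, by omega⟩
  rw [Fin.prod_univ_eq_prod_range (fun k => dPat a b c k) (m + 3)]
  rw [Finset.prod_range_succ', Finset.prod_range_succ', Finset.prod_range_succ']
  have h0 : dPat a b c 0 = a := rfl
  have h1 : dPat a b c (0 + 1) = b := rfl
  have h2 : dPat a b c (0 + 1 + 1) = c := rfl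
  have h3 : ∀ k, dPat a b c (k + 1 + 1 + 1) = 1 := fun k => by
    simp [dPat]
  simp only [h0, h1, h2, h3]
  simp
  ring

/-- A diagonal matrix with values of order dividing `r`. -/
theorem diag_pow (d : Fin n → F) (r : ℕ) (z : F) (hd : ∀ i, d i ^ r = z) :
    (Matrix.diagonal d) ^ r = z • 1 := by
  rw [Matrix.diagonal_pow, ← Matrix.diagonal_one, ← Matrix.diagonal_smul]
  congr 1
  funext i
  simp [hd]

theorem diag_ns (d : Fin n → F) (i j : Fin n) (hij : d i ≠ d j) (z : F) : Matrix.diagonal d ≠ z • 1 := by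
  intro h
  have h1 := congrFun (congrFun h i) i
  have h3 := congrFun (congrFun h j) j
  simp at h1 h3
  exact hij (h1.trans h3.symm)

/-- The case `r = 3`, `n ≠ 3, 6`. -/
theorem case_three (hQ : IsNondegenerateQuadraticForm Q) (hn : 4 ≤ n) (hn6 : n ≠ 6)
    (ζ : F) (hζ : ζ ^ 3 = 1) (hζ1 : ζ ≠ 1) : Der Q 3 := by
  classical
  have hζ0 : ζ ≠ 0 := by
    rintro rfl
    simp at hζ
  refine der_of_matrix Q 3 (Matrix.diagonal fun i : Fin n => dPat ζ ζ ζ i.val) ?_ 1 ?_ ?_ ?_
  · rw [Matrix.det_diagonal, prod_dPat ζ ζ ζ (by omega), ← hζ]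
    ring
  · apply diag_pow
    intro i
    simp only [dPat]
    split_ifs <;> simp [hζ]
  · exact diag_ns _ ⟨0, by omega⟩ ⟨3, by omega⟩ (by simpa [dPat] using hζ1)
  · intro P' P₀ μ hμ0 h3 h4 hμ
    have hcount := fun t : F => count_dPat (n := n) ζ ζ ζ t (by omega)
    have hle := fun (a b : F) (ha : a ≠ 0) (hab : a * b = μ) =>
      card_le_of_sim hQ P' P₀ h3 h4 _ μ hμ a b ha hab
    simp only [hcount] at hle
    set b := μ * ζ⁻¹ with hb
    have hb0 : b ≠ 0 := mul_ne_zero hμ0 (inv_ne_zero hζ0)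
    have h5 := hle ζ b hζ0 (by rw [hb]; field_simp)
    have h6 := hle b ζ hb0 (by rw [hb]; field_simp)
    have hne1 : (1 : F) ≠ ζ := Ne.symm hζ1
    by_cases hbζ : ζ = b
    · -- `μ = ζ²`
      have hμ2 : μ = ζ * ζ := by
        rw [hb] at hbζ
        field_simp at hbζ
        rw [← hbζ]
        ring
      have h7 := hle 1 (ζ * ζ) one_ne_zero (by rw [hμ2, one_mul])
      have h8 : ζ ≠ ζ * ζ := by
        intro h
        apply hζ1
        apply mul_left_cancel₀ hζ0
        rw [mul_one]
        exact h.symm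
      have h9 : (1 : F) ≠ ζ * ζ := by
        intro h
        apply hζ1
        calc ζ = ζ * 1 := (mul_one ζ).symm
          _ = ζ * (ζ * ζ) := by rw [← h]
          _ = ζ ^ 3 := by ring
          _ = 1 := hζ
      simp only [h8, h9, if_false, if_true] at h7
      omega
    · simp only [hbζ, hne1, if_false, if_true] at h5 h6
      by_cases h1b : (1 : F) = b
      · simp only [h1b, if_true] at h5 h6
        omega
      · simp only [h1b, if_false] at h5
        omega

/-- The case `r ≥ 5`, `(n, r) ≠ (5, 5)`. -/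
theorem case_five (hQ : IsNondegenerateQuadraticForm Q) (hn : 3 ≤ n)
    (r : ℕ) (ζ : F) (hζ : ζ ^ r = 1) (hr : ∀ k, ζ ^ k = 1 → r ∣ k) (hr5 : r.Prime) (hr6 : 5 ≤ r)
    (hgap : ¬ (n = 5 ∧ r = 5)) : Der Q r := by
  classical
  have hζ0 : ζ ≠ 0 := by
    rintro rfl
    rw [zero_pow hr5.ne_zero] at hζ
    exact zero_ne_one hζ
  have hnd : ∀ k, 0 < k → k < 5 → ζ ^ k ≠ 1 := by
    intro k hk0 hk5 h
    have := Nat.le_of_dvd hk0 (hr k h)
    omega
  have hnd6 : ζ ^ 6 ≠ 1 := by
    intro h
    have h1 := hr 6 h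
    have h2 : r ≤ 6 := Nat.le_of_dvd (by norm_num) h1
    interval_cases r
    · omega
    · exact absurd hr5 (by norm_num)
  have hζ1 : ζ ≠ 1 := by
    have := hnd 1 (by norm_num) (by norm_num)
    simpa using this
  let c : F := (ζ⁻¹) ^ 2
  have hc : c * ζ ^ 2 = 1 := by
    simp only [c]
    field_simp
  have hc0 : c ≠ 0 := by
    simp only [c]
    exact pow_ne_zero _ (inv_ne_zero hζ0)
  have hcr : c ^ r = 1 := by
    simp only [c]
    rw [← pow_mul, mul_comm, pow_mul, inv_pow, hζ, inv_one, one_pow]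
  have hcζ : c ≠ ζ := by
    intro h
    apply hnd 3 (by norm_num) (by norm_num)
    rw [← hc, h]
    ring
  have hc1 : c ≠ 1 := by
    intro h
    apply hnd 2 (by norm_num) (by norm_num)
    rw [h, one_mul] at hc
    exact hc
  refine der_of_matrix Q r (Matrix.diagonal fun i : Fin n => dPat ζ ζ c i.val) ?_ 1 ?_ ?_ ?_
  · rw [Matrix.det_diagonal, prod_dPat ζ ζ c hn, ← hc]
    ring
  · apply diag_pow
    intro i
    simp only [dPat]
    split_ifs <;> simp [hζ, hcr]
  · exact diag_ns _ ⟨0, by omega⟩ ⟨2, by omega⟩ (by simpa [dPat] using hcζ.symm)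
  · intro P' P₀ μ hμ0 h3 h4 hμ
    have hcount := fun t : F => count_dPat (n := n) ζ ζ c t hn
    have hle := fun (a b : F) (ha : a ≠ 0) (hab : a * b = μ) =>
      card_le_of_sim hQ P' P₀ h3 h4 _ μ hμ a b ha hab
    simp only [hcount] at hle
    set b := μ * ζ⁻¹ with hb
    have hb0 : b ≠ 0 := mul_ne_zero hμ0 (inv_ne_zero hζ0)
    have h5 := hle ζ b hζ0 (by rw [hb]; field_simp)
    have h6 := hle b ζ hb0 (by rw [hb]; field_simp)
    have hne1 : (1 : F) ≠ ζ := Ne.symm hζ1
    by_cases hbζ : ζ = b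
    · -- `μ = ζ²`
      have hμ2 : μ = ζ ^ 2 := by
        rw [hb] at hbζ
        field_simp at hbζ
        rw [← hbζ]
      have h7 := hle c (ζ ^ 4) hc0 (by rw [hμ2, show ζ ^ 4 = ζ ^ 2 * ζ ^ 2 by ring, ← mul_assoc, hc, one_mul])
      have h41 : ζ ≠ ζ ^ 4 := by
        intro h
        apply hnd 3 (by norm_num) (by norm_num)
        have h8 : ζ * (ζ ^ 3 - 1) = 0 := by linear_combination -h
        exact sub_eq_zero.1 ((mul_eq_zero.1 h8).resolve_left hζ0)
      have h42 : c ≠ ζ ^ 4 := by
        intro h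
        apply hnd6
        rw [← hc, h]
        ring
      have h43 : (1 : F) ≠ ζ ^ 4 := (hnd 4 (by norm_num) (by norm_num)).symm
      have hcζ' : ζ ≠ c := Ne.symm hcζ
      have h1c : (1 : F) ≠ c := Ne.symm hc1
      simp only [hcζ', h1c, h41, h42, h43, if_true, if_false] at h7
      omega
    · simp only [hbζ, hcζ, hne1, if_false, if_true] at h5 h6
      by_cases h1b : (1 : F) = b
      · -- `b = 1`, `n = 5`, `μ = ζ`
        have hcb : c ≠ b := fun h => hc1 (h.trans h1b.symm)
        simp only [h1b, hcb, if_true, if_false] at h5 h6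
        have hn5 : n = 5 := by omega
        have hμ1 : μ = ζ := by
          rw [hb] at h1b
          field_simp at h1b
          exact h1b.symm
        have hr5' : r ≠ 5 := fun h => hgap ⟨hn5, h⟩
        have hr7 : ζ ^ 5 ≠ 1 := by
          intro h
          have h8 := hr 5 h
          have h9 := (Nat.prime_dvd_prime_iff_eq hr5 (by norm_num)).1 h8
          exact hr5' h9
        have h7 := hle c (ζ ^ 3) hc0 (by
          rw [hμ1]
          calc c * ζ ^ 3 = (c * ζ ^ 2) * ζ := by ring
            _ = ζ := by rw [hc, one_mul])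
        have h41 : ζ ≠ ζ ^ 3 := by
          intro h
          apply hnd 2 (by norm_num) (by norm_num)
          have h8 : ζ * (ζ ^ 2 - 1) = 0 := by linear_combination -h
          exact sub_eq_zero.1 ((mul_eq_zero.1 h8).resolve_left hζ0)
        have h42 : c ≠ ζ ^ 3 := by
          intro h
          apply hr7
          rw [← hc, h]
          ring
        have h43 : (1 : F) ≠ ζ ^ 3 := (hnd 3 (by norm_num) (by norm_num)).symm
        have hcζ' : ζ ≠ c := Ne.symm hcζ
        have h1c : (1 : F) ≠ c := Ne.symm hc1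
        simp only [hcζ', h1c, h41, h42, h43, if_true, if_false] at h7
        omega
      · simp only [h1b, if_false] at h5
        by_cases h7 : c = b
        · simp only [h7, if_true] at h5
          omega
        · simp only [h7, if_false] at h5
          omega

/-- Counting for a diagonal with one exceptional entry. -/
theorem count_one [DecidableEq F] (i₀ : Fin n) (a e t : F) :
    (Finset.univ.filter fun i : Fin n => (if i = i₀ then e else a) = t).card =
      (if e = t then 1 else 0) + (if a = t then n - 1 else 0) := by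
  classical
  rw [Finset.card_filter, ← Finset.add_sum_erase _ _ (Finset.mem_univ i₀)]
  simp only [if_true]
  congr 1
  have h1 : ∀ i ∈ Finset.univ.erase i₀, (if (if i = i₀ then e else a) = t then 1 else 0) =
      (if a = t then 1 else 0) := by
    intro i hi
    rw [if_neg (Finset.ne_of_mem_erase hi)]
  rw [Finset.sum_congr rfl h1, Finset.sum_const, Finset.card_erase_of_mem (Finset.mem_univ _),
    Finset.card_univ, Fintype.card_fin, smul_eq_mul]
  by_cases h : a = t <;> simp [h]

theorem prod_one (i₀ : Fin n) (a e : F) :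
    ∏ i : Fin n, (if i = i₀ then e else a) = e * a ^ (n - 1) := by
  classical
  rw [← Finset.mul_prod_erase _ _ (Finset.mem_univ i₀)]
  simp only [if_true]
  congr 1
  have h1 : ∀ i ∈ Finset.univ.erase i₀, (if i = i₀ then e else a) = a := by
    intro i hi
    rw [if_neg (Finset.ne_of_mem_erase hi)]
  rw [Finset.prod_congr rfl h1, Finset.prod_const, Finset.card_erase_of_mem (Finset.mem_univ _),
    Finset.card_univ, Fintype.card_fin]

/-- The case `n = r` and `r² ∣ q - 1`. -/
theorem case_top [Fintype F] {q r : ℕ} (hq : Fintype.card F = q) {Q : (Fin r → F) → F}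
    (hQ : IsNondegenerateQuadraticForm Q) (hr : r.Prime) (hr2 : r ≠ 2) (hrq : r * r ∣ q - 1)
    (hq1 : q - 1 ≠ 0) : Der Q r := by
  classical
  obtain ⟨a, ha⟩ := exists_primitive hq hrq hq1
  have ha0 : a ≠ 0 := ha.ne_zero (mul_ne_zero hr.ne_zero hr.ne_zero)
  set ω := a ^ r with hω
  have hω0 : ω ≠ 0 := pow_ne_zero _ ha0
  have hωr : ω ^ r = 1 := by
    rw [hω, ← pow_mul, ha.pow_eq_one]
  have hω1 : ω ≠ 1 := by
    intro h
    have h3 := ha.dvd_of_pow_eq_one r h
    have h4 := Nat.le_of_dvd hr.pos h3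
    have h5 := hr.two_le
    nlinarith
  have hω2 : ω * ω ≠ 1 := by
    intro h
    have h3 : a ^ (r * 2) = 1 := by
      rw [pow_mul, ← hω, pow_two, h]
    have h4 := ha.dvd_of_pow_eq_one _ h3
    have h5 : r ∣ 2 := Nat.dvd_of_mul_dvd_mul_left hr.pos h4
    exact hr2 ((Nat.prime_dvd_prime_iff_eq hr Nat.prime_two).1 h5)
  let i₀ : Fin r := ⟨0, hr.pos⟩
  let i₁ : Fin r := ⟨1, hr.one_lt⟩
  let e : F := a * ω⁻¹
  have he0 : e ≠ 0 := mul_ne_zero ha0 (inv_ne_zero hω0)
  have hea : e ≠ a := by
    intro h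
    apply hω1
    have h3 : a * ω⁻¹ = a * 1 := by rw [mul_one]; exact h
    have h4 := mul_left_cancel₀ ha0 h3
    exact inv_eq_one.mp h4
  refine der_of_matrix Q r (Matrix.diagonal fun i : Fin r => if i = i₀ then e else a) ?_ ω ?_ ?_ ?_
  · rw [Matrix.det_diagonal, prod_one]
    have h3 : a * a ^ (r - 1) = ω := by
      rw [hω, ← pow_succ']
      congr 1
      have := hr.pos
      omega
    calc e * a ^ (r - 1) = ω⁻¹ * (a * a ^ (r - 1)) := by
          simp only [e]
          ring
      _ = 1 := by rw [h3, inv_mul_cancel₀ hω0]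
  · apply diag_pow
    intro i
    by_cases hi : i = i₀
    · simp only [hi, if_true, e]
      rw [mul_pow, inv_pow, hωr, inv_one, mul_one]
    · simp only [hi, if_false]
      rfl
  · refine diag_ns _ i₀ i₁ ?_
    have h : i₁ ≠ i₀ := by
      intro h
      have := congrArg Fin.val h
      simp [i₀, i₁] at this
    simpa [h] using hea
  · intro P' P₀ μ hμ0 h3 h4 hμ
    have hcount := fun t : F => count_one (n := r) i₀ a e t
    have hle := fun (s t : F) (hs : s ≠ 0) (hst : s * t = μ) =>
      card_le_of_sim hQ P' P₀ h3 h4 _ μ hμ s t hs hst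
    simp only [hcount] at hle
    have hr3 : 2 ≤ r - 1 := by
      have := hr.two_le
      omega
    -- the partner of `a`
    set b := μ * a⁻¹ with hb
    have h5 := hle a b ha0 (by rw [hb]; field_simp)
    have hab : a = b := by
      by_contra hne
      have h5' : r - 1 ≤ (if e = b then 1 else 0) := by
        simpa [hne, hea] using h5
      split_ifs at h5' <;> omega
    have hμ2 : μ = a * a := by
      rw [hb] at hab
      field_simp at hab
      rw [← hab]
      ring
    have h6 := hle e (a * ω) he0 (by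
      rw [hμ2]
      simp only [e]
      field_simp)
    have h7 : e ≠ a * ω := by
      intro h
      apply hω2
      simp only [e] at h
      have h8 : ω⁻¹ = ω := mul_left_cancel₀ ha0 h
      calc ω * ω = ω * ω⁻¹ := by rw [h8]
        _ = 1 := mul_inv_cancel₀ hω0
    have h8 : a ≠ a * ω := by
      intro h
      apply hω1
      have : a * 1 = a * ω := by rw [mul_one]; exact h
      exact (mul_left_cancel₀ ha0 this).symm
    simp only [h7, h8, if_true, if_false] at h6
    omega

/-- The case `r = p`. -/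
theorem case_p [Fintype F] {p : ℕ} [hp : Fact p.Prime] [CharP F p] (hQ : IsNondegenerateQuadraticForm Q)
    (h2 : (2 : F) ≠ 0) (hn : 2 ≤ n) : Der Q p := by
  classical
  have hp' := hp.out
  let i0 : Fin n := ⟨0, by omega⟩
  let i1 : Fin n := ⟨1, by omega⟩
  have h01 : i0 ≠ i1 := fun h => by simpa [i0, i1] using congrArg Fin.val h
  let N₀ : Matrix (Fin n) (Fin n) F := Matrix.single i0 i1 1
  have hN2 : N₀ * N₀ = 0 := by
    simp only [N₀]
    rw [Matrix.single_mul_single_of_ne _ _ _ _ (Ne.symm h01) _]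
  have hxp : (1 + N₀) ^ p = 1 := by
    haveI : CharP (Matrix (Fin n) (Fin n) F) p := by
      haveI : Nonempty (Fin n) := ⟨i0⟩
      exact Matrix.charP p
    rw [add_pow_char_of_commute p (Commute.one_left N₀), one_pow]
    obtain ⟨k, hk⟩ : ∃ k, p = 2 + k := ⟨p - 2, by have := hp'.two_le; omega⟩
    rw [hk, pow_add, pow_two, hN2, zero_mul, add_zero]
  have hdet : (1 + N₀).det = 1 := by
    have htri : (1 + N₀).BlockTriangular id := by
      intro a b hab
      have hab' : b < a := hab
      simp only [N₀, Matrix.add_apply]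
      have h1 : (1 : Matrix (Fin n) (Fin n) F) a b = 0 := Matrix.one_apply_ne (ne_of_gt hab')
      have h3 : (Matrix.single i0 i1 (1 : F) : Matrix (Fin n) (Fin n) F) a b = 0 := by
        rw [Matrix.single_apply_of_ne]
        rintro ⟨rfl, rfl⟩
        simp [i0, i1, Fin.lt_def] at hab'
      rw [h1, h3]
      simp
    rw [Matrix.det_of_isUpperTriangular htri]
    refine Finset.prod_eq_one fun a _ => ?_
    simp only [N₀, Matrix.add_apply, Matrix.one_apply_eq]
    have h3 : (Matrix.single i0 i1 (1 : F) : Matrix (Fin n) (Fin n) F) a a = 0 := by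
      rw [Matrix.single_apply_of_ne]
      rintro ⟨rfl, h⟩
      exact h01 h.symm
    rw [h3]
    simp
  refine der_of_matrix Q p (1 + N₀) hdet 1 (by rw [one_smul]; exact hxp) ?_ ?_
  · intro z hz
    have h1 : (1 + N₀) i0 i1 = (z • (1 : Matrix (Fin n) (Fin n) F)) i0 i1 := congrFun (congrFun hz i0) i1
    have h3 : (1 + N₀) i0 i1 = 1 := by
      simp [N₀, Matrix.add_apply, Matrix.one_apply_ne h01]
    rw [h3] at h1
    simp [Matrix.one_apply_ne h01] at h1
  · intro P' P₀ c hc0 h3 h4 hc
    set Y := P' * (1 + N₀) * P₀ with hY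
    set N := P' * N₀ * P₀ with hN
    have hYN : ∀ u, Y *ᵥ u = u + N *ᵥ u := by
      intro u
      have : Y = 1 + N := by
        rw [hY, hN, Matrix.mul_add, Matrix.add_mul, Matrix.mul_one, h3]
      rw [this, Matrix.add_mulVec, Matrix.one_mulVec]
    have hYp : Y ^ p = 1 := by
      rw [hY, conj_pow_mat P' P₀ _ h3 h4, hxp, Matrix.mul_one, h3]
    have hc1 : c = 1 := by
      have h5 := mu_pow hQ h2 (by omega) Y c hc hYp
      have h6 : (c - 1) ^ p = 0 := by
        rw [sub_pow_char, h5, one_pow, sub_self]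
      exact sub_eq_zero.1 (pow_eq_zero_iff hp'.ne_zero |>.1 h6)
    subst hc1
    have hb := hQ.polar_bilinear
    let e : Fin n → F := P' *ᵥ Pi.single i0 1
    let φ : (Fin n → F) → F := fun u => (P₀ *ᵥ u) i1
    have hNu : ∀ u, N *ᵥ u = φ u • e := by
      intro u
      simp only [hN, φ, e]
      rw [← Matrix.mulVec_mulVec, ← Matrix.mulVec_mulVec, ← Matrix.mulVec_smul]
      congr 1
      generalize P₀ *ᵥ u = y
      simp only [N₀]
      rw [Matrix.single_mulVec]
      ext j
      by_cases hj : j = i0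
      · subst hj
        simp
      · simp [hj]
    have he0 : e ≠ 0 := by
      intro h0
      have h5 : P₀ *ᵥ e = P₀ *ᵥ 0 := by rw [h0]
      simp only [e] at h5
      rw [Matrix.mulVec_mulVec, h4, Matrix.one_mulVec, Matrix.mulVec_zero] at h5
      have h6 := congrFun h5 i0
      simp at h6
    have hφe : φ e = 0 := by
      simp only [φ, e]
      rw [Matrix.mulVec_mulVec, h4, Matrix.one_mulVec]
      simp [Ne.symm h01]
    -- the polar identity
    have hp1 := polar_of_sim Y 1 hc
    have hkey : ∀ u v, φ u * QuadraticMap.polar Q e v + φ v * QuadraticMap.polar Q u e +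
        φ u * φ v * QuadraticMap.polar Q e e = 0 := by
      intro u v
      have h5 := hp1 u v
      rw [hYN, hYN, hNu, hNu, hb.add_left, hb.add_right, hb.add_right, hb.smul_left, hb.smul_left,
        hb.smul_right, hb.smul_right] at h5
      linear_combination h5
    obtain ⟨u₀, hu₀⟩ : ∃ u, φ u ≠ 0 := by
      refine ⟨P' *ᵥ Pi.single i1 1, ?_⟩
      simp only [φ]
      rw [Matrix.mulVec_mulVec, h4, Matrix.one_mulVec]
      simp
    have hee : QuadraticMap.polar Q e e = 0 := by
      have h5 := hkey u₀ e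
      rw [hφe] at h5
      simp only [zero_mul, add_zero, mul_zero] at h5
      exact (mul_eq_zero.1 h5).resolve_left hu₀
    obtain ⟨-, v₀, hv₀⟩ := hQ.nondegenerate e he0
    have h5 : φ v₀ * QuadraticMap.polar Q e v₀ = 0 := by
      have h6 := hkey v₀ v₀
      rw [hee, QuadraticMap.polar_comm Q v₀ e] at h6
      have h7 : 2 * (φ v₀ * QuadraticMap.polar Q e v₀) = 0 := by
        linear_combination h6
      exact (mul_eq_zero.1 h7).resolve_left h2
    have h6 : φ v₀ = 0 := (mul_eq_zero.1 h5).resolve_right hv₀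
    have h7 := hkey u₀ v₀
    rw [h6, hee] at h7
    simp only [zero_mul, add_zero, mul_zero] at h7
    exact (mul_ne_zero hu₀ hv₀) h7

end Cfsg.Agent.Lib.FGStruct.GoC
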