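import Mathlib
import Cfsg.Agent.Lib.FGStruct.GoC
import Cfsg.Agent.Lib.ElusQ.Pos
import Cfsg.Agent.Lib.ElusQ.Syl
import Cfsg.Agent.Lib.ElusT.QType
import Cfsg.Agent.Lib.Elusive.OrderRank

/-!
# Derangements for the similarity group of a quadratic form: elements of prime order `r ∤ q - 1`
-/

set_option autoImplicit false
set_option linter.style.haveILetI false
set_option linter.unusedSectionVars false

namespace Cfsg.Agent.Lib.FGStruct.GoD

open Module Matrix Polynomial Cfsg.Geo QuadraticMap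
open Cfsg.Agent.Lib.Elusive Cfsg.Agent.Lib.FGStruct.GoA Cfsg.Agent.Lib.FGStruct.GoB
  Cfsg.Agent.Lib.FGStruct.GoC
open Cfsg.Agent.Lib.ElusL.Basic Cfsg.Agent.Lib.ElusL.Cyc Cfsg.Agent.Lib.ElusF.Form
  Cfsg.Agent.Lib.ElusF.Split Cfsg.Agent.Lib.ElusF.SpModel
  Cfsg.Agent.Lib.ElusQ.Disc Cfsg.Agent.Lib.ElusQ.Oz Cfsg.Agent.Lib.ElusQ.Pos
  Cfsg.Agent.Lib.ElusT.QType
open Cfsg.Agent.Lib.GeoOmega.Eichler (toQF toQF_nd)
open scoped MatrixGroups

variable {F : Type*} [Field F] [Fintype F] {n : ℕ} {Q : (Fin n → F) → F}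

/-- An element of order `r` without fixed vectors. -/
theorem exists_fpf_elt {p : ℕ} [hp : Fact p.Prime] [CharP F p] {q : ℕ} (hq : Fintype.card F = q) {r : ℕ}
    [hr : Fact r.Prime] (hrp : r ≠ p) (hr1 : ¬ r ∣ q - 1)
    (hn : orderOf ((q : ℕ) : ZMod r) ∣ n) :
    ∃ M : Matrix (Fin n) (Fin n) F, M.det = 1 ∧ M ^ r = 1 ∧ ∀ v, M *ᵥ v = v → v = 0 := by
  classical
  have hcop : p.Coprime r := (Nat.coprime_primes hp.out hr.out).mpr (Ne.symm hrp)
  have hΦdeg : 0 < (cyclotomic r F).natDegree := by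
    rw [natDegree_cyclotomic]
    exact Nat.totient_pos.mpr hr.out.pos
  obtain ⟨g, hgirr, hgdvd⟩ := Polynomial.exists_irreducible_of_natDegree_pos hΦdeg
  have hdeg := CycConj.natDegree_factor hq hcop hgdvd hgirr
  have hfact : Fact (Irreducible g) := ⟨hgirr⟩
  have hg0 : g ≠ 0 := hgirr.ne_zero
  let E₁ := AdjoinRoot g
  have hfin : FiniteDimensional F E₁ := (AdjoinRoot.powerBasis hg0).finite
  have hdimE : finrank F E₁ = g.natDegree := (AdjoinRoot.powerBasis hg0).finrank
  obtain ⟨m, hm⟩ := hn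
  let W := Fin m → E₁
  have hW : finrank F W = finrank F (Fin n → F) := by
    simp only [W, Module.finrank_pi_fintype, Finset.sum_const, Finset.card_univ,
      Fintype.card_fin, smul_eq_mul, hdimE, hdeg, hm, Module.finrank_self, mul_one]
    ring
  let L : W ≃ₗ[F] (Fin n → F) := LinearEquiv.ofFinrankEq W (Fin n → F) hW
  let t : E₁ := AdjoinRoot.root g
  have hgdvd2 : g ∣ X ^ r - 1 := by
    rw [← cyclotomic_prime_mul_X_sub_one F r]
    exact hgdvd.trans (dvd_mul_right _ _)
  have ht : t ^ r = 1 := by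
    have h1 : AdjoinRoot.mk g (X ^ r - 1) = 0 := AdjoinRoot.mk_eq_zero.mpr hgdvd2
    rw [map_sub, map_pow, AdjoinRoot.mk_X, map_one, sub_eq_zero] at h1
    exact h1
  have ht1 : t ≠ 1 := by
    intro h
    have h1 : g ∣ X - 1 := by
      rw [← AdjoinRoot.mk_eq_zero, map_sub, AdjoinRoot.mk_X, map_one, sub_eq_zero]
      exact h
    have hroot : IsRoot g 1 := by
      have h3 : (X - 1 : F[X]).natDegree = 1 := by
        have := natDegree_X_sub_C (1 : F)
        simpa using this
      have hdeg1 : g.natDegree = 1 := by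
        have h2 := Polynomial.natDegree_le_of_dvd h1 (X_sub_C_ne_zero (1 : F) |> (by simpa using ·))
        have := hgirr.natDegree_pos
        omega
      obtain ⟨u, hu⟩ := h1
      have hu0 : u ≠ 0 := by
        rintro rfl
        rw [mul_zero] at hu
        exact X_sub_C_ne_zero (1 : F) (by simpa using hu)
      have h4 := congrArg (fun f => eval 1 f) hu
      simp only [eval_sub, eval_X, eval_one, sub_self, eval_mul] at h4
      have hu00 : u.natDegree = 0 := by
        have h5 := congrArg natDegree hu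
        rw [natDegree_mul hg0 hu0, h3, hdeg1] at h5
        omega
      rw [natDegree_eq_zero] at hu00
      obtain ⟨c, rfl⟩ := hu00
      have hc : c ≠ 0 := by
        rintro rfl
        exact hu0 (by simp)
      simp only [eval_C] at h4
      exact (mul_eq_zero.mp h4.symm).resolve_right hc
    have hroot2 : IsRoot (cyclotomic r F) 1 := hroot.dvd hgdvd
    have h5 := hroot2
    rw [IsRoot, eval_one_cyclotomic_prime] at h5
    have h6 : p ∣ r := (CharP.cast_eq_zero_iff F p r).1 h5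
    exact hrp ((Nat.prime_dvd_prime_iff_eq hp.out hr.out).1 h6).symm
  let Tw : W →ₗ[F] W :=
    { toFun := fun w => t • w
      map_add' := fun a b => smul_add _ _ _
      map_smul' := fun c w => by
        ext i
        simp only [RingHom.id_apply]
        exact Algebra.mul_smul_comm c t (w i) }
  have hTw : ∀ w, Tw w = t • w := fun _ => rfl
  have hTwk : ∀ (k : ℕ) (w : W), (Tw ^ k) w = t ^ k • w := by
    intro k
    induction k with
    | zero => intro w; simp
    | succ k ih =>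
      intro w
      rw [pow_succ', Module.End.mul_apply, ih, hTw, pow_succ', mul_smul]
  let T : (Fin n → F) →ₗ[F] (Fin n → F) := L.toLinearMap ∘ₗ Tw ∘ₗ L.symm.toLinearMap
  have hTpow : ∀ k : ℕ, T ^ k = L.toLinearMap ∘ₗ (Tw ^ k) ∘ₗ L.symm.toLinearMap := by
    intro k
    induction k with
    | zero =>
      refine LinearMap.ext fun v => ?_
      simp
    | succ k ih =>
      rw [pow_succ', ih, pow_succ']
      refine LinearMap.ext fun v => ?_
      simp [T, Module.End.mul_apply]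
  have hTn : T ^ r = 1 := by
    refine LinearMap.ext fun v => ?_
    rw [hTpow]
    simp only [LinearMap.comp_apply, LinearEquiv.coe_coe, Module.End.one_apply]
    rw [hTwk, ht, one_smul, LinearEquiv.apply_symm_apply]
  let x₀ : Matrix (Fin n) (Fin n) F := LinearMap.toMatrix' T
  have hx₀ : ∀ v, x₀ *ᵥ v = T v := fun v => LinearMap.toMatrix'_mulVec T v
  have hx₀n : x₀ ^ r = 1 := by
    have hpow : ∀ (k : ℕ) (v : Fin n → F), (x₀ ^ k) *ᵥ v = (T ^ k) v := by
      intro k
      induction k with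
      | zero => intro v; simp
      | succ k ih =>
        intro v
        rw [pow_succ', ← Matrix.mulVec_mulVec, ih, hx₀, pow_succ', Module.End.mul_apply]
    apply Matrix.ext_of_mulVec_single
    intro j
    rw [hpow, hTn, Matrix.one_mulVec]
    rfl
  have hdet1 : x₀.det = 1 := by
    apply CycConj.eq_one_of_pow_eq_one hq hr.out hr1
    rw [← Matrix.det_pow, hx₀n, Matrix.det_one]
  refine ⟨x₀, hdet1, hx₀n, ?_⟩
  intro v hv
  rw [hx₀] at hv
  have h1 : Tw (L.symm v) = L.symm v := by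
    have h3 : L (Tw (L.symm v)) = v := hv
    apply L.injective
    rw [h3, LinearEquiv.apply_symm_apply]
  rw [hTw] at h1
  have h3 : (t - 1) • L.symm v = 0 := by
    rw [sub_smul, h1, one_smul, sub_self]
  have h4 := (smul_eq_zero.mp h3).resolve_left (sub_ne_zero.mpr ht1)
  have h5 := congrArg L h4
  rw [LinearEquiv.apply_symm_apply, map_zero] at h5
  exact h5

/-- The bilinear form. -/
noncomputable abbrev BB (hQ : IsNondegenerateQuadraticForm Q) : LinearMap.BilinForm F (Fin n → F) :=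
  polarBilin (toQF hQ)

theorem toLin_pow (Y : Matrix (Fin n) (Fin n) F) (k : ℕ) :
    (Matrix.toLin' Y : End F (Fin n → F)) ^ k = Matrix.toLin' (Y ^ k) :=
  (map_pow (Matrix.toLinAlgEquiv' (R := F) (n := Fin n)) Y k).symm

/-- An isometry of order dividing `r`. -/
theorem oz_of_iso (hQ : IsNondegenerateQuadraticForm Q) (Y : Matrix (Fin n) (Fin n) F)
    (hY : ∀ v, Q (Y *ᵥ v) = Q v) {r : ℕ} (hr : Y ^ r = 1) :
    Oz (BB hQ) (Matrix.toLin' Y) r where
  symm := Cfsg.Agent.Lib.ElusQ.Syl.polar_symm _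
  nondeg := toQF_nd hQ
  iso u v := by
    change polar Q (Y *ᵥ u) (Y *ᵥ v) = polar Q u v
    have := polar_of_sim (Q := Q) Y 1 (fun v => by rw [hY, one_mul]) u v
    rwa [one_mul] at this
  pow := by
    rw [toLin_pow, hr]
    exact Matrix.toLin'_one

theorem finrank_K0 (Y : Matrix (Fin n) (Fin n) F) :
    finrank F (K0 (Matrix.toLin' Y)) + (Y - 1).rank = n := by
  have h1 := LinearMap.finrank_range_add_finrank_ker (Y - 1).mulVecLin
  have h3 : K0 (Matrix.toLin' Y) = LinearMap.ker (Y - 1).mulVecLin := by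
    ext v
    rw [Cfsg.Agent.Lib.ElusF.Split.mem_fix, LinearMap.mem_ker, Matrix.mulVecLin_apply, Matrix.sub_mulVec,
      Matrix.one_mulVec, sub_eq_zero, Matrix.toLin'_apply]
  rw [Matrix.rank, h3]
  simp only [Module.finrank_fin_fun] at h1
  omega

theorem rank_conj (P' P₀ M : Matrix (Fin n) (Fin n) F) (h1 : P' * P₀ = 1) (h2 : P₀ * P' = 1) :
    (P' * M * P₀ - 1).rank = (M - 1).rank := by
  have hE : P' * M * P₀ - 1 = P' * (M - 1) * P₀ := by
    rw [Matrix.mul_sub, Matrix.sub_mul, Matrix.mul_one, h1]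
  have hP' : IsUnit P'.det := Matrix.isUnit_det_of_right_inverse h1
  have hP₀ : IsUnit P₀.det := Matrix.isUnit_det_of_left_inverse h1
  rw [hE, Matrix.rank_mul_eq_left_of_isUnit_det _ _ hP₀, Matrix.rank_mul_eq_right_of_isUnit_det _ _ hP']

theorem rF_ne {p : ℕ} [hp : Fact p.Prime] [CharP F p] {r : ℕ} (hr : r.Prime) (hrp : r ≠ p) : (r : F) ≠ 0 := by
  intro h
  have h3 := (CharP.cast_eq_zero_iff F p r).1 h
  exact hrp ((Nat.prime_dvd_prime_iff_eq hp.out hr).1 h3).symm

/-- The case of odd order. -/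
theorem case_odd {p : ℕ} [hp : Fact p.Prime] [CharP F p] {q : ℕ} (hq : Fintype.card F = q)
    (hQ : IsNondegenerateQuadraticForm Q) (h2 : (2 : F) ≠ 0) (hn : 0 < n) {r : ℕ}
    [hr : Fact r.Prime] (hr2 : r ≠ 2) (hrp : r ≠ p) (hr1 : ¬ r ∣ q - 1)
    (hodd : Odd (orderOf ((q : ℕ) : ZMod r))) (hle : orderOf ((q : ℕ) : ZMod r) ≤ n) : Der Q r := by
  classical
  obtain ⟨x, hxr, hrank⟩ := OrderRank.exists_block_elt hq hrp hr1 (n := n) hle
  have hrF := rF_ne (F := F) hr.out hrp
  have hrq : ¬ r ∣ q := OrderRank.not_dvd_card hq hr.out hrp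
  have hipos : 0 < orderOf ((q : ℕ) : ZMod r) := hodd.pos
  refine der_of_matrix Q r (x : Matrix (Fin n) (Fin n) F) x.2 1 (by rw [one_smul]; exact hxr) ?_ ?_
  · intro z hz0
    rw [hz0] at hxr hrank
    have hz : z ^ r = 1 := by
      have h3 := congrFun (congrFun hxr ⟨0, hn⟩) ⟨0, hn⟩
      rw [_root_.smul_pow, one_pow, Matrix.smul_apply, Matrix.one_apply_eq, smul_eq_mul, mul_one] at h3
      exact h3
    have hz1 := CycConj.eq_one_of_pow_eq_one hq hr.out hr1 z hz
    rw [hz1, one_smul, sub_self, Matrix.rank_zero] at hrank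
    omega
  · intro P' P₀ c hc0 h3 h4 hc
    set Y := P' * (x : Matrix (Fin n) (Fin n) F) * P₀ with hY
    have hYr : Y ^ r = 1 := by
      rw [hY, conj_pow_mat P' P₀ _ h3 h4, hxr, Matrix.mul_one, h3]
    have hc1 : c = 1 := CycConj.eq_one_of_pow_eq_one hq hr.out hr1 c (mu_pow hQ h2 hn Y c hc hYr)
    subst hc1
    have hoz := oz_of_iso hQ Y (fun v => by rw [hc, one_mul]) hYr
    have h5 := finrank_K hoz hrF
    have h6 := finrank_K0 Y
    rw [hY, rank_conj _ _ _ h3 h4, hrank, ← hY] at h6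
    simp only [Module.finrank_fin_fun] at h5
    have h7 := c_dvd hoz h2 hq hr.out (hr.out.odd_of_ne_two hr2) hrF hrq (nd_K1 hoz hrF) (inv_ker _ _) le_rfl
    have h8 : cOf (orderOf ((q : ℕ) : ZMod r)) = 2 * orderOf ((q : ℕ) : ZMod r) := by
      unfold cOf
      rw [if_neg (Nat.not_even_iff_odd.mpr hodd)]
    rw [h8] at h7
    have h9 : finrank F (K1 (Matrix.toLin' Y) r) = orderOf ((q : ℕ) : ZMod r) := by omega
    change 2 * orderOf ((q : ℕ) : ZMod r) ∣ finrank F (K1 (Matrix.toLin' Y) r) at h7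
    rw [h9] at h7
    have := Nat.le_of_dvd hipos h7
    omega

/-- The type via polar forms. -/
theorem hy_top_iff (h2 : (2 : F) ≠ 0) (R : QuadraticForm F (Fin n → F)) :
    Hy (polarBilin R) ⊤ ↔ HyQ R := by
  constructor
  · rintro ⟨X, -, hX, hd⟩
    refine ⟨X, fun x hx => ?_, by simpa using hd⟩
    have h3 := hX x hx x hx
    rw [Cfsg.Agent.Lib.ElusQ.Syl.polar_self'] at h3
    exact (mul_eq_zero.mp h3).resolve_left h2
  · rintro ⟨U, hU, hd⟩
    refine ⟨U, le_top, ?_, by simpa using hd⟩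
    intro x hx y hy
    change polar (⇑R) x y = 0
    unfold polar
    rw [hU x hx, hU y hy, hU (x + y) (U.add_mem hx hy)]
    simp

/-- The case of even order, given the type. -/
theorem case_even {p : ℕ} [hp : Fact p.Prime] [CharP F p] {q : ℕ} (hq : Fintype.card F = q)
    (hQ : IsNondegenerateQuadraticForm Q) (h2 : (2 : F) ≠ 0) (hn : 0 < n) {r : ℕ}
    [hr : Fact r.Prime] (hr2 : r ≠ 2) (hrp : r ≠ p) (hr1 : ¬ r ∣ q - 1)
    {j s : ℕ} (hi : orderOf ((q : ℕ) : ZMod r) = 2 * j) (hj : 0 < j) (hns : n = 2 * j * s)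
    (hty : HyQ (toQF hQ) ↔ Odd s) : Der Q r := by
  classical
  obtain ⟨M, hdet, hMr, hfix⟩ := exists_fpf_elt hq hrp hr1 (n := n) (by rw [hi, hns]; exact dvd_mul_right _ _)
  have hrF := rF_ne (F := F) hr.out hrp
  have hrq : ¬ r ∣ q := OrderRank.not_dvd_card hq hr.out hrp
  refine der_of_matrix Q r M hdet 1 (by rw [one_smul]; exact hMr) ?_ ?_
  · rintro z rfl
    have hz : z ^ r = 1 := by
      have h3 := congrFun (congrFun hMr ⟨0, hn⟩) ⟨0, hn⟩
      rw [_root_.smul_pow, one_pow, Matrix.smul_apply, Matrix.one_apply_eq, smul_eq_mul, mul_one] at h3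
      exact h3
    have hz1 := CycConj.eq_one_of_pow_eq_one hq hr.out hr1 z hz
    have h3 := hfix (Pi.single ⟨0, hn⟩ 1) (by rw [hz1, one_smul, Matrix.one_mulVec])
    have h4 := congrFun h3 ⟨0, hn⟩
    simp at h4
  · intro P' P₀ c hc0 h3 h4 hc
    set Y := P' * M * P₀ with hY
    have hYr : Y ^ r = 1 := by
      rw [hY, conj_pow_mat P' P₀ _ h3 h4, hMr, Matrix.mul_one, h3]
    have hc1 : c = 1 := CycConj.eq_one_of_pow_eq_one hq hr.out hr1 c (mu_pow hQ h2 hn Y c hc hYr)
    subst hc1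
    have hoz := oz_of_iso hQ Y (fun v => by rw [hc, one_mul]) hYr
    have h5 := finrank_K hoz hrF
    have hK0 : K0 (Matrix.toLin' Y) = ⊥ := by
      rw [eq_bot_iff]
      intro v hv
      have h6 : Y *ᵥ v = v := by
        have := Cfsg.Agent.Lib.ElusF.Split.mem_fix.mp hv
        rwa [Matrix.toLin'_apply] at this
      have h7 : M *ᵥ (P₀ *ᵥ v) = P₀ *ᵥ v := by
        have h8 := congrArg (fun w => P₀ *ᵥ w) h6
        simp only [hY, Matrix.mulVec_mulVec] at h8 ⊢
        rw [← h8]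
        congr 1
        calc M * P₀ = (P₀ * P') * M * P₀ := by rw [h4, Matrix.one_mul]
          _ = _ := by simp only [Matrix.mul_assoc]
      have h8 := hfix _ h7
      have h9 := congrArg (fun w => P' *ᵥ w) h8
      simp only [Matrix.mulVec_mulVec, h3, Matrix.one_mulVec, Matrix.mulVec_zero] at h9
      rw [h9]
      exact Submodule.zero_mem _
    rw [hK0, finrank_bot, zero_add] at h5
    have hK1 : K1 (Matrix.toLin' Y) r = ⊤ := Submodule.eq_top_of_finrank_eq h5.symm
    have hy := hy_even hoz h2 hq hr.out hr2 hrF hrq hi hj (U := ⊤) (by rw [← hK1])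
      hoz.fm.nd_top (fun v _ => trivial) (s := s) (by simp [hns])
    have h6 := (hy_top_iff h2 (toQF hQ))
    have h7 : HyQ (toQF hQ) ↔ Even s := h6.symm.trans hy
    rw [hty] at h7
    by_cases h8 : Even s
    · exact (Nat.not_even_iff_odd.mpr (h7.mpr h8)) h8
    · exact h8 (h7.mp (Nat.not_even_iff_odd.mp h8))

end Cfsg.Agent.Lib.FGStruct.GoD
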