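import Mathlib
import Cfsg.Agent.Lib.FGStruct.GoD
import Cfsg.Agent.Lib.Witt.SOIndex
import Cfsg.Agent.Lib.Classical.QuadOrders
import Cfsg.Agent.Lib.Classical.OmegaDesc
import Cfsg.Agent.Lib.Classical.SLBasic
import Cfsg.Agent.Lib.Elusive.SpIndex
import Cfsg.Agent.Lib.ElusQ.Bridge
import Cfsg.Agent.Lib.Orth.HypBasis

/-!
# The index of the similarity group of a quadratic form in `SL_n`
-/

set_option autoImplicit false
set_option linter.style.haveILetI false
set_option linter.unusedSectionVars false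

namespace Cfsg.Agent.Lib.FGStruct.GoE

open Module Matrix Polynomial Cfsg Cfsg.Geo QuadraticMap
open Cfsg.Agent.Lib.Classical.MatrixBridge
open Cfsg.Agent.Lib.Elusive Cfsg.Agent.Lib.FGStruct.GoA Cfsg.Agent.Lib.FGStruct.GoB
  Cfsg.Agent.Lib.FGStruct.GoC Cfsg.Agent.Lib.FGStruct.GoD
open Cfsg.Agent.Lib.ElusT.QType
open Cfsg.Agent.Lib.GeoOmega.Eichler (toQF toQF_nd)
open scoped MatrixGroups

variable {F : Type*} [Field F] [Fintype F] {n : ℕ} {Q : (Fin n → F) → F}

theorem mem_iso_iff {κ : Type} [Fintype κ] [DecidableEq κ] (Q : (κ → F) → F) (g : GL κ F) :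
    g ∈ isometryGroup F Q ↔ ∀ v, Q ((g : Matrix κ κ F) *ᵥ v) = Q v :=
  ⟨fun h v => h v v, fun h u _ => h u⟩

/-- Isometry groups of similar forms have the same order. -/
theorem card_isometry_congr {κ₁ κ₂ : Type} [Fintype κ₁] [DecidableEq κ₁] [Fintype κ₂] [DecidableEq κ₂]
    (Q₁ : (κ₁ → F) → F) (Q₂ : (κ₂ → F) → F) (Θ : (κ₁ → F) ≃ₗ[F] (κ₂ → F)) (c : F) (hc : c ≠ 0)
    (h : ∀ y, Q₂ (Θ y) = c * Q₁ y) :
    Nat.card (isometryGroup F Q₁) = Nat.card (isometryGroup F Q₂) := by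
  refine Nat.card_congr ⟨fun g => ⟨glToLin.symm (Θ.symm.trans ((glToLin g.1).trans Θ)), ?_⟩,
    fun g => ⟨glToLin.symm (Θ.trans ((glToLin g.1).trans Θ.symm)), ?_⟩, ?_, ?_⟩
  · rw [mem_iso_iff]
    intro v
    rw [glToLin_symm_mulVec]
    simp only [LinearEquiv.trans_apply, glToLin_apply]
    rw [h, (mem_iso_iff _ _).mp g.2, ← h, LinearEquiv.apply_symm_apply]
  · rw [mem_iso_iff]
    intro v
    rw [glToLin_symm_mulVec]
    simp only [LinearEquiv.trans_apply, glToLin_apply]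
    apply mul_left_cancel₀ hc
    rw [← h, ← h, LinearEquiv.apply_symm_apply, (mem_iso_iff _ _).mp g.2]
  · intro g
    apply Subtype.ext
    apply glToLin.injective
    ext v
    simp
  · intro g
    apply Subtype.ext
    apply glToLin.injective
    ext v
    simp

/-- The index gives a divisibility of orders. -/
theorem card_mul_dvd (hQ : IsNondegenerateQuadraticForm Q) (h2 : (2 : F) ≠ 0) {r : ℕ}
    (hr : r ∣ (quadSimilarityGroup Q).relIndex (specialLinear (Fin n) F)) :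
    r * Nat.card (isometryGroup F Q) ∣ 2 * Nat.card (specialLinear (Fin n) F) := by
  classical
  set S := specialLinear (Fin n) F with hS
  set O := isometryGroup F Q with hO
  have hle : O ≤ quadSimilarityGroup Q := by
    intro g hg
    refine ⟨1, fun v => ?_⟩
    rw [Units.val_one, one_mul]
    exact (mem_iso_iff _ _).mp hg v
  have h1 : (quadSimilarityGroup Q).relIndex S ∣ O.relIndex S := Subgroup.relIndex_dvd_of_le_left S hle
  let A : Subgroup S := O.subgroupOf S
  let B : Subgroup O := specialIsometryGroup F Q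
  have hA : Nat.card A * A.index = Nat.card S := Subgroup.card_mul_index A
  have hB : Nat.card B * B.index = Nat.card O := Subgroup.card_mul_index B
  have hAB : Nat.card A = Nat.card B := by
    refine Nat.card_congr ⟨fun x => ⟨⟨x.1.1, x.2⟩, ?_⟩, fun x => ⟨⟨x.1.1, ?_⟩, x.1.2⟩, ?_, ?_⟩
    · have h3 : Matrix.GeneralLinearGroup.det x.1.1 = 1 := x.1.2
      exact h3
    · have h3 : Matrix.GeneralLinearGroup.det x.1.1 = 1 := x.2
      exact h3
    · intro x
      rfl
    · intro x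
      rfl
  have hcard2 : Fintype.card F ≠ 2 := by
    intro h3
    apply h2
    have hodd := FiniteField.odd_card_of_char_ne_two (F := F) (by
      intro hch
      apply h2
      have : CharP F 2 := hch ▸ ringChar.charP F
      exact CharTwo.two_eq_zero)
    omega
  have hB2 : B.index ∣ 2 := by
    let f : O →* Fˣ := Matrix.GeneralLinearGroup.det.comp O.subtype
    have hf : B = f.ker := rfl
    have hrange : (f.range : Set Fˣ) ⊆ {1, -1} := by
      rintro _ ⟨g, rfl⟩
      have h3 := Cfsg.Agent.Lib.Witt.SOIndex.det_val_eq (toQF hQ) (toQF_nd hQ) (Or.inl hcard2) g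
      rcases h3 with h3 | h3
      · left
        ext
        exact h3
      · right
        ext
        exact h3
    have hidx : B.index = Nat.card f.range := by
      rw [hf, Subgroup.index_ker]
    have hle2 : B.index ≤ 2 := by
      rw [hidx]
      have h4 := Set.ncard_le_ncard hrange (Set.toFinite _)
      have h5 : ({1, -1} : Set Fˣ).ncard ≤ 2 := Set.ncard_insert_le _ _ |>.trans (by simp)
      exact h4.trans h5
    have hpos : B.index ≠ 0 := Subgroup.index_ne_zero_of_finite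
    interval_cases h : B.index
    · exact absurd rfl hpos
    · exact one_dvd _
    · exact dvd_rfl
  obtain ⟨t, ht⟩ := hB2
  obtain ⟨k, hk⟩ := hr.trans h1
  have hAidx : A.index = O.relIndex S := rfl
  refine ⟨t * k, ?_⟩
  rw [← hA, ← hB, hAB, hAidx, hk]
  calc 2 * (Nat.card B * (r * k)) = (B.index * t) * (Nat.card B * (r * k)) := by rw [← ht]
    _ = _ := by ring

/-- The order of `SL`. -/
theorem card_sl {q : ℕ} (hq : Fintype.card F = q) (hn : 0 < n) :
    (q - 1) * Nat.card (specialLinear (Fin n) F) =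
      q ^ (n * (n - 1) / 2) * ∏ j ∈ Finset.range n, (q ^ (j + 1) - 1) := by
  classical
  haveI : Nonempty (Fin n) := ⟨⟨0, hn⟩⟩
  have hq2 : 2 ≤ q := hq ▸ Fintype.one_lt_card
  have h1 := Cfsg.Agent.Lib.Classical.SLBasic.card_gl_eq_mul_card_sl (ι := Fin n) (F := F)
  have h3 := Matrix.card_GL_field (𝔽 := F) n
  rw [hq] at h3 h1
  rw [h3, SpIndex.prod_gl_eq q n (by omega)] at h1
  have h4 : Nat.card (specialLinear (Fin n) F) = Nat.card (Matrix.SpecialLinearGroup (Fin n) F) :=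
    (Nat.card_congr (Cfsg.Agent.Lib.Classical.SLBasic.slEquivKerDet (ι := Fin n) (F := F)).toEquiv).symm
  rw [h4]
  exact h1.symm

/-- Cancellation of the common factors. -/
theorem num_cancel {q r S N a O E X Y : ℕ} (hq : 1 ≤ q) (hE : 0 < E) (hX : 0 < X)
    (hdiv : r * (2 * q ^ a * X * E) ∣ 2 * S) (hS : (q - 1) * S = q ^ N * (O * (E * (X * Y)))) :
    r ∣ q ^ N * (O * Y) := by
  obtain ⟨w, hw⟩ := hdiv
  have hS' : S = r * (q ^ a * X * E) * w := by
    have h3 : 2 * S = 2 * (r * (q ^ a * X * E) * w) := by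
      rw [hw]
      ring
    omega
  refine ⟨(q - 1) * q ^ a * w, ?_⟩
  apply Nat.eq_of_mul_eq_mul_right (Nat.mul_pos hE hX)
  calc q ^ N * (O * Y) * (E * X) = q ^ N * (O * (E * (X * Y))) := by ring
    _ = (q - 1) * S := hS.symm
    _ = _ := by
      rw [hS']
      ring

theorem pow_sub_pos {q k : ℕ} (hq : 2 ≤ q) (hk : 0 < k) : 0 < q ^ k - 1 := by
  have : 1 < q ^ k := Nat.one_lt_pow (by omega) (by omega)
  omega

section arith

variable {q r j : ℕ} [hr : Fact r.Prime]

/-- Odd powers for `q` of even order. -/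
theorem not_dvd_odd (hi : orderOf ((q : ℕ) : ZMod r) = 2 * j) (hq : 1 ≤ q) {k : ℕ} (hk : Odd k) :
    ¬ r ∣ q ^ k - 1 := by
  intro hd
  have hq1 : 1 ≤ q ^ k := Nat.one_le_pow _ _ (by omega)
  have h1 : ((q : ℕ) : ZMod r) ^ k = 1 := by
    have h2 : ((q ^ k - 1 : ℕ) : ZMod r) = 0 := (ZMod.natCast_eq_zero_iff _ _).2 hd
    rw [Nat.cast_sub hq1, sub_eq_zero] at h2
    simpa using h2
  have h3 := orderOf_dvd_of_pow_eq_one h1
  rw [hi] at h3
  have h4 : 2 ∣ k := (dvd_mul_right 2 j).trans h3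
  rw [← even_iff_two_dvd] at h4
  exact (Nat.not_even_iff_odd.mpr hk) h4

theorem not_dvd_prod (hi : orderOf ((q : ℕ) : ZMod r) = 2 * j) (hq : 1 ≤ q) (m : ℕ) :
    ¬ r ∣ ∏ i ∈ Finset.range m, (q ^ (2 * i + 1) - 1) := by
  intro h
  obtain ⟨i, -, hd⟩ := (Prime.dvd_finsetProd_iff hr.out.prime _).1 h
  exact not_dvd_odd hi hq ⟨i, rfl⟩ hd

/-- The plus case. -/
theorem plus_arith (hr2 : r ≠ 2) (hi : orderOf ((q : ℕ) : ZMod r) = 2 * j) (hj : 0 < j) {l : ℕ}
    (hd : r ∣ q ^ l + 1) : ∃ s, l = j * s ∧ Odd s := by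
  have hQj : ((q : ℕ) : ZMod r) ^ j = -1 := by
    have h1 : ((q ^ j + 1 : ℕ) : ZMod r) = 0 :=
      (ZMod.natCast_eq_zero_iff _ _).mpr (Cfsg.Agent.Lib.ElusF.SpModel.dvd_pow_add_one hr.out hi hj)
    push_cast at h1
    linear_combination h1
  have hQl : ((q : ℕ) : ZMod r) ^ l = -1 := by
    have h1 : ((q ^ l + 1 : ℕ) : ZMod r) = 0 := (ZMod.natCast_eq_zero_iff _ _).mpr hd
    push_cast at h1
    linear_combination h1
  have h3 : ((q : ℕ) : ZMod r) ^ (2 * l) = 1 := by
    rw [mul_comm, pow_mul, hQl]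
    ring
  have h4 := orderOf_dvd_of_pow_eq_one h3
  rw [hi] at h4
  obtain ⟨s, hs⟩ := Nat.dvd_of_mul_dvd_mul_left (by norm_num) h4
  refine ⟨s, hs, ?_⟩
  rw [← Nat.not_even_iff_odd]
  intro hev
  rw [hs, pow_mul, hQj, hev.neg_one_pow] at hQl
  have h5 : (2 : ZMod r) = 0 := by linear_combination hQl
  have h6 : ((2 : ℕ) : ZMod r) = 0 := by exact_mod_cast h5
  rw [ZMod.natCast_eq_zero_iff] at h6
  exact hr2 ((Nat.prime_dvd_prime_iff_eq hr.out Nat.prime_two).1 h6)

/-- The minus case. -/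
theorem minus_arith (hq : 1 ≤ q) (hi : orderOf ((q : ℕ) : ZMod r) = 2 * j) {l : ℕ}
    (hd : r ∣ q ^ l - 1) : ∃ s, l = j * s ∧ ¬ Odd s := by
  have hq1 : 1 ≤ q ^ l := Nat.one_le_pow _ _ (by omega)
  have h1 : ((q : ℕ) : ZMod r) ^ l = 1 := by
    have h2 : ((q ^ l - 1 : ℕ) : ZMod r) = 0 := (ZMod.natCast_eq_zero_iff _ _).2 hd
    rw [Nat.cast_sub hq1, sub_eq_zero] at h2
    simpa using h2
  have h3 := orderOf_dvd_of_pow_eq_one h1
  rw [hi] at h3
  obtain ⟨t, ht⟩ := h3
  refine ⟨2 * t, by rw [ht]; ring, ?_⟩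
  rw [Nat.not_odd_iff_even]
  exact even_two_mul t

end arith

/-- The odd-dimensional case: no prime of even order divides the index. -/
theorem odd_false {q r j m : ℕ} [hr : Fact r.Prime] (hq : Fintype.card F = q) (hQ : IsNondegenerateQuadraticForm Q)
    (h2 : (2 : F) ≠ 0) (hm : n = 2 * m + 1) (hrq : ¬ r ∣ q)
    (hi : orderOf ((q : ℕ) : ZMod r) = 2 * j)
    (hdiv : r * Nat.card (isometryGroup F Q) ∣ 2 * Nat.card (specialLinear (Fin n) F)) : False := by
  classical
  have hq2 : 2 ≤ q := hq ▸ Fintype.one_lt_card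
  have hq' : Nat.card F = q := by rw [Nat.card_eq_fintype_card, hq]
  obtain ⟨Θ, c, hc, hΘ⟩ := Cfsg.Agent.Lib.Classical.OmegaDesc.exists_equiv_odd (toQF_nd hQ) (m := m)
    (by simp [hm])
  have hcard := card_isometry_congr (quadFormOdd m F) Q Θ c hc hΘ
  rw [Cfsg.Agent.Lib.Classical.QuadOrders.card_isometry_odd hq' h2 m] at hcard
  rw [← hcard] at hdiv
  have hS := card_sl hq (n := n) (by omega)
  have hprod : ∏ j ∈ Finset.range n, (q ^ (j + 1) - 1) =
      (∏ i ∈ Finset.range m, (q ^ (2 * i + 1) - 1)) * (∏ i ∈ Finset.range m, (q ^ (2 * (i + 1)) - 1)) *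
        (q ^ (2 * m + 1) - 1) := by
    rw [hm, Finset.prod_range_succ, SpIndex.prod_split]
  rw [hprod] at hS
  set O₁ := ∏ i ∈ Finset.range m, (q ^ (2 * i + 1) - 1) with hO₁
  set E₁ := ∏ i ∈ Finset.range m, (q ^ (2 * (i + 1)) - 1) with hE₁
  have hEpos : 0 < E₁ := Finset.prod_pos fun i _ => pow_sub_pos hq2 (by omega)
  have h5 := num_cancel (q := q) (r := r) (a := m ^ 2) (X := 1) (Y := 1) (E := E₁)
    (O := O₁ * (q ^ (2 * m + 1) - 1)) (N := n * (n - 1) / 2) (by omega) hEpos one_pos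
    (by
      have : r * (2 * q ^ m ^ 2 * 1 * E₁) = r * (2 * q ^ m ^ 2 * E₁) := by ring
      rw [this]
      exact hdiv)
    (by
      rw [hS]
      ring)
  rw [mul_one] at h5
  rcases (Nat.Prime.dvd_mul hr.out).1 h5 with h | h
  · exact hrq (hr.out.dvd_of_dvd_pow h)
  · rcases (Nat.Prime.dvd_mul hr.out).1 h with h | h
    · exact not_dvd_prod hi (by omega) m h
    · exact not_dvd_odd hi (by omega) ⟨m, rfl⟩ h

/-- The even-dimensional case: the type is determined. -/
theorem even_type {q r j : ℕ} [hr : Fact r.Prime] (hq : Fintype.card F = q)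
    (hQ : IsNondegenerateQuadraticForm Q) (h2 : (2 : F) ≠ 0) (k : ℕ) (hk : n = 2 * (k + 1)) (hrq : ¬ r ∣ q)
    (hr2 : r ≠ 2) (hi : orderOf ((q : ℕ) : ZMod r) = 2 * j) (hj : 0 < j)
    (hdiv : r * Nat.card (isometryGroup F Q) ∣ 2 * Nat.card (specialLinear (Fin n) F)) :
    ∃ s, n = 2 * j * s ∧ (HyQ (toQF hQ) ↔ Odd s) := by
  classical
  have hq2 : 2 ≤ q := hq ▸ Fintype.one_lt_card
  have hq' : Nat.card F = q := by rw [Nat.card_eq_fintype_card, hq]
  have hS := card_sl hq (n := n) (by omega)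
  have hV : finrank F (Fin n → F) = 2 * (k + 1) := by simp [hk]
  set l := k + 1 with hl
  have hlpos : 0 < l := by omega
  have hprod : ∏ j ∈ Finset.range n, (q ^ (j + 1) - 1) =
      (∏ i ∈ Finset.range l, (q ^ (2 * i + 1) - 1)) *
        ((∏ i ∈ Finset.range k, (q ^ (2 * (i + 1)) - 1)) * ((q ^ l - 1) * (q ^ l + 1))) := by
    rw [hk, SpIndex.prod_split, hl, Finset.prod_range_succ (fun i => q ^ (2 * (i + 1)) - 1) k]
    congr 2
    have h1 : 1 ≤ q ^ (k + 1) := Nat.one_le_pow _ _ (by omega)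
    have h3 : q ^ (2 * (k + 1)) = q ^ (k + 1) * q ^ (k + 1) := by ring
    rw [h3]
    obtain ⟨t, ht⟩ : ∃ t, q ^ (k + 1) = t + 1 := ⟨q ^ (k + 1) - 1, by omega⟩
    rw [ht]
    simp only [Nat.add_sub_cancel]
    have : (t + 1) * (t + 1) - 1 = t * (t + 1 + 1) := by
      have : (t + 1) * (t + 1) = t * (t + 1 + 1) + 1 := by ring
      omega
    exact this
  rw [hprod] at hS
  set O₁ := ∏ i ∈ Finset.range l, (q ^ (2 * i + 1) - 1) with hO₁
  set E₁ := ∏ i ∈ Finset.range k, (q ^ (2 * (i + 1)) - 1) with hE₁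
  have hEpos : 0 < E₁ := Finset.prod_pos fun i _ => pow_sub_pos hq2 (by omega)
  have hsplit : ∀ Y : ℕ, r ∣ q ^ (n * (n - 1) / 2) * (O₁ * Y) → r ∣ Y := by
    intro Y hY
    rcases (Nat.Prime.dvd_mul hr.out).1 hY with h | h
    · exact absurd (hr.out.dvd_of_dvd_pow h) hrq
    · rcases (Nat.Prime.dvd_mul hr.out).1 h with h | h
      · exact absurd h (not_dvd_prod hi (by omega) l)
      · exact h
  by_cases hty : HyQ (toQF hQ)
  · obtain ⟨U, hU, hd⟩ := hty
    obtain ⟨Θ, hΘ⟩ := Cfsg.Agent.Lib.Orth.HypBasis.exists_equiv_plus_of_ts (toQF_nd hQ) hV (U := U) hU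
      (by rw [hV] at hd; omega)
    have hcard := card_isometry_congr (quadFormPlus l F) Q Θ 1 one_ne_zero (fun y => by rw [one_mul]; exact hΘ y)
    have hcard' := hcard.symm.trans (Cfsg.Agent.Lib.Classical.QuadOrders.card_isometry_plus hq' k)
    rw [hcard'] at hdiv
    have h5 := num_cancel (q := q) (r := r) (a := (k + 1) * k) (X := q ^ l - 1) (Y := q ^ l + 1) (E := E₁)
      (O := O₁) (N := n * (n - 1) / 2) (by omega) hEpos (pow_sub_pos hq2 hlpos) hdiv hS
    obtain ⟨s, hs, hodd⟩ := plus_arith hr2 hi hj (hsplit _ h5)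
    refine ⟨s, ?_, ?_⟩
    · rw [hk, hs]
      ring
    · exact ⟨fun _ => hodd, fun _ => ⟨U, hU, hd⟩⟩
  · have hL : ¬ ∃ U : Submodule F (Fin n → F), Cfsg.Agent.Lib.QuadFn.MaxSingular.TS (⇑(toQF hQ)) U ∧ finrank F U = k + 1 := by
      rintro ⟨U, hU, hd⟩
      exact hty ⟨U, hU, by rw [hV, hd]⟩
    obtain ⟨a, b, hab, hΘ⟩ := Cfsg.Agent.Lib.Classical.OmegaDesc.exists_equiv_minus (toQF_nd hQ) hV hL
    obtain ⟨Θ, hΘ⟩ := hΘ a b hab
    have hcard := card_isometry_congr (quadFormMinus k F a b) Q Θ 1 one_ne_zero (fun y => by rw [one_mul]; exact hΘ y)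
    have hcard' := hcard.symm.trans (Cfsg.Agent.Lib.Classical.QuadOrders.card_isometry_minus hq' hab k)
    rw [hcard'] at hdiv
    have h5 := num_cancel (q := q) (r := r) (a := (k + 1) * k) (X := q ^ l + 1) (Y := q ^ l - 1) (E := E₁)
      (O := O₁) (N := n * (n - 1) / 2) (by omega) hEpos (by omega) hdiv (by rw [hS]; ring)
    obtain ⟨s, hs, hodd⟩ := minus_arith (q := q) (by omega) hi (hsplit _ h5)
    refine ⟨s, ?_, ?_⟩
    · rw [hk, hs]
      ring
    · exact ⟨fun h => absurd h hty, fun h => absurd h hodd⟩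

/-- The main result on derangements. -/
theorem der_main {p : ℕ} [hp : Fact p.Prime] [CharP F p] {q : ℕ} (hq : Fintype.card F = q)
    (hodd : Odd q) (hn : 3 ≤ n) (hQ : IsNondegenerateQuadraticForm Q) (r : ℕ) [hr : Fact r.Prime]
    (hgap : ¬ (n = 6 ∧ r = 3)) (hΩ : r ∣ (quadSimilarityGroup Q).relIndex (specialLinear (Fin n) F))
    (hr2 : r ≠ 2) (hcon : ¬ ((r = 3 ∨ r = 5) ∧ n = r ∧ padicValNat r (q - 1) = 1)) : Der Q r := by
  classical
  have h2 : (2 : F) ≠ 0 := Cfsg.Agent.Lib.ElusQ.Bridge.two_ne_zero_of_odd hq hodd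
  have hq3 : 3 ≤ q := by
    have : 2 ≤ q := hq ▸ Fintype.one_lt_card
    obtain ⟨k, hk⟩ := hodd
    omega
  have hq1 : q - 1 ≠ 0 := by omega
  by_cases hrp : r = p
  · subst hrp
    exact case_p hQ h2 (by omega)
  have hrq : ¬ r ∣ q := OrderRank.not_dvd_card hq hr.out hrp
  by_cases h1 : r ∣ q - 1
  · -- diagonal elements
    have hcardU : Nat.card Fˣ = q - 1 := by
      rw [Nat.card_eq_fintype_card, Fintype.card_units, hq]
    obtain ⟨ζ₀, hζ₀⟩ := exists_prime_orderOf_dvd_card' (G := Fˣ) r (by rw [hcardU]; exact h1)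
    have hpow : ((ζ₀ : Fˣ) : F) ^ r = 1 := by
      rw [← Units.val_pow_eq_pow_val, ← hζ₀, pow_orderOf_eq_one, Units.val_one]
    have hdvd : ∀ k, ((ζ₀ : Fˣ) : F) ^ k = 1 → r ∣ k := by
      intro k hk
      rw [← hζ₀]
      apply orderOf_dvd_of_pow_eq_one
      ext
      rw [Units.val_pow_eq_pow_val, hk, Units.val_one]
    have htop : n = r → (r = 3 ∨ r = 5) → r * r ∣ q - 1 := by
      intro hnr h35
      have hval : padicValNat r (q - 1) ≠ 1 := fun h => hcon ⟨h35, hnr, h⟩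
      have h3 : 1 ≤ padicValNat r (q - 1) := one_le_padicValNat_of_dvd hq1 h1
      have h4 : 2 ≤ padicValNat r (q - 1) := by omega
      have h5 := (padicValNat_dvd_iff_le hq1).2 h4
      rwa [pow_two] at h5
    by_cases hr3 : r = 3
    · subst hr3
      by_cases hn3 : n = 3
      · subst hn3
        exact case_top hq hQ hr.out hr2 (htop rfl (Or.inl rfl)) hq1
      · refine case_three hQ (by omega) (fun h => hgap ⟨h, rfl⟩) _ hpow ?_
        intro h
        have := hdvd 1 (by rw [pow_one, h])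
        omega
    · have hr5 : 5 ≤ r := by
        have h3 := hr.out.two_le
        have h4 : r ≠ 4 := by
          rintro rfl
          exact absurd hr.out (by norm_num)
        omega
      by_cases h55 : n = 5 ∧ r = 5
      · obtain ⟨h55, rfl⟩ := h55
        subst h55
        exact case_top hq hQ hr.out hr2 (htop rfl (Or.inr rfl)) hq1
      · exact case_five hQ hn r _ hpow hdvd hr.out hr5 h55
  · -- elements of higher degree
    have hdiv := card_mul_dvd hQ h2 hΩ
    have hipos : 0 < orderOf ((q : ℕ) : ZMod r) := Cfsg.Agent.Lib.ElusL.Cyc.ord_pos hr.out hrq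
    by_cases hev : Even (orderOf ((q : ℕ) : ZMod r))
    · obtain ⟨j, hj⟩ := hev
      have hj' : orderOf ((q : ℕ) : ZMod r) = 2 * j := by omega
      have hj0 : 0 < j := by omega
      rcases Nat.even_or_odd n with hne | hno
      · obtain ⟨t, ht⟩ := hne
        obtain ⟨k, hk⟩ : ∃ k, t = k + 1 := ⟨t - 1, by omega⟩
        obtain ⟨s, hs, hty⟩ := even_type hq hQ h2 k (by omega) hrq hr2 hj' hj0 hdiv
        exact case_even hq hQ h2 (by omega) hr2 hrp h1 hj' hj0 hs hty
      · obtain ⟨m, hm⟩ := hno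
        exact (odd_false hq hQ h2 hm hrq hj' hdiv).elim
    · rw [Nat.not_even_iff_odd] at hev
      refine case_odd hq hQ h2 (by omega) hr2 hrp h1 hev ?_
      -- the order is at most `n`
      have hr1 : r ∣ 2 * Nat.card (specialLinear (Fin n) F) := (dvd_mul_right _ _).trans hdiv
      have hr3 : r ∣ Nat.card (specialLinear (Fin n) F) := by
        rcases (Nat.Prime.dvd_mul hr.out).1 hr1 with h | h
        · exact absurd ((Nat.prime_dvd_prime_iff_eq hr.out Nat.prime_two).1 h) hr2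
        · exact h
      have hS := card_sl hq (n := n) (by omega)
      have hr4 : r ∣ q ^ (n * (n - 1) / 2) * ∏ j ∈ Finset.range n, (q ^ (j + 1) - 1) := by
        rw [← hS]
        exact hr3.trans (dvd_mul_left _ _)
      rcases (Nat.Prime.dvd_mul hr.out).1 hr4 with h | h
      · exact absurd (hr.out.dvd_of_dvd_pow h) hrq
      · obtain ⟨i, hi, hd⟩ := (Prime.dvd_finsetProd_iff hr.out.prime _).1 h
        have hi' := Finset.mem_range.1 hi
        have hq5 : 1 ≤ q ^ (i + 1) := Nat.one_le_pow _ _ (by omega)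
        have h6 : ((q : ℕ) : ZMod r) ^ (i + 1) = 1 := by
          have h7 : ((q ^ (i + 1) - 1 : ℕ) : ZMod r) = 0 := (ZMod.natCast_eq_zero_iff _ _).2 hd
          rw [Nat.cast_sub hq5, sub_eq_zero] at h7
          simpa using h7
        have h8 := Nat.le_of_dvd (by omega) (orderOf_dvd_of_pow_eq_one h6)
        omega

end Cfsg.Agent.Lib.FGStruct.GoE
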