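import Mathlib

/-!
# Extraspecial groups of order 32 of minus type: five pairwise anticommuting involutions
-/

set_option autoImplicit false
set_option linter.unusedSectionVars false
set_option linter.style.haveILetI false
set_option linter.unusedVariables false

namespace Cfsg.Agent.Lib.FGStruct.Cliff5

open Subgroup

variable {E : Type*} [Group E]

/-- The extraspecial calculus. -/
structure Xs (E : Type*) [Group E] (z : E) : Prop where
  zc : ∀ x : E, x * z = z * x
  z1 : z ≠ 1
  zz : z * z = 1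
  sq : ∀ x : E, x * x = 1 ∨ x * x = z
  cm : ∀ x y : E, x * y = y * x ∨ x * y = z * (y * x)

variable {z : E}

/-- The centraliser of an element. -/
abbrev Cn (p : E) : Subgroup E := centralizer ({p} : Set E)

theorem mem_Cn {p x : E} : x ∈ Cn p ↔ x * p = p * x := by
  rw [mem_centralizer_singleton_iff]

namespace Xs

variable (X : Xs E z)
include X

theorem z_inv : z⁻¹ = z := inv_eq_of_mul_eq_one_left X.zz

theorem anti_symm {x y : E} (h : x * y = z * (y * x)) : y * x = z * (x * y) := by
  rw [h, ← mul_assoc, X.zz, one_mul]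

theorem not_comm_of_anti {x y : E} (h : x * y = z * (y * x)) : x * y ≠ y * x := by
  intro h2
  rw [h2] at h
  have : z = 1 := by
    have h3 : y * x * 1 = z * (y * x) := by rw [mul_one]; exact h
    have h4 : z * (y * x) = (y * x) * z := (X.zc _).symm
    rw [h4] at h3
    exact (mul_left_cancel h3).symm
  exact X.z1 this

/-- Signs multiply. -/
theorem anti_mul_right {a b c : E} (h1 : a * b = z * (b * a)) (h2 : a * c = c * a) :
    a * (b * c) = z * ((b * c) * a) := by
  calc a * (b * c) = (a * b) * c := by group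
    _ = z * (b * a) * c := by rw [h1]
    _ = z * (b * (a * c)) := by group
    _ = z * (b * (c * a)) := by rw [h2]
    _ = z * ((b * c) * a) := by group

theorem anti_mul_right' {a b c : E} (h1 : a * b = b * a) (h2 : a * c = z * (c * a)) :
    a * (b * c) = z * ((b * c) * a) := by
  calc a * (b * c) = (a * b) * c := by group
    _ = (b * a) * c := by rw [h1]
    _ = b * (a * c) := by group
    _ = b * (z * (c * a)) := by rw [h2]
    _ = (b * z) * (c * a) := by group
    _ = (z * b) * (c * a) := by rw [X.zc]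
    _ = z * ((b * c) * a) := by group

theorem comm_mul_right {a b c : E} (h1 : a * b = b * a) (h2 : a * c = c * a) :
    a * (b * c) = (b * c) * a := by
  calc a * (b * c) = (a * b) * c := by group
    _ = (b * a) * c := by rw [h1]
    _ = b * (a * c) := by group
    _ = b * (c * a) := by rw [h2]
    _ = (b * c) * a := by group

theorem comm_mul_anti {a b c : E} (h1 : a * b = z * (b * a)) (h2 : a * c = z * (c * a)) :
    a * (b * c) = (b * c) * a := by
  calc a * (b * c) = (a * b) * c := by group
    _ = z * (b * a) * c := by rw [h1]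
    _ = z * b * (a * c) := by group
    _ = z * b * (z * (c * a)) := by rw [h2]
    _ = z * (b * z) * (c * a) := by group
    _ = z * (z * b) * (c * a) := by rw [X.zc]
    _ = (z * z) * b * (c * a) := by group
    _ = (b * c) * a := by rw [X.zz]; group

/-- A sign character halves the order. -/
theorem card_inf_cen [Finite E] (L : Subgroup E) {p q : E} (hq : q ∈ L) (h : q * p = z * (p * q)) :
    Nat.card ↥(L ⊓ Cn p) * 2 = Nat.card L := by
  classical
  have hanti : ∀ b : E, b * p = p * b ∨ b * p = z * (p * b) := fun b => X.cm b p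
  have hidx : ((Cn p).subgroupOf L).index = 2 := by
    rw [Subgroup.index_eq_two_iff]
    refine ⟨⟨q, hq⟩, fun b => ?_⟩
    simp only [Subgroup.mem_subgroupOf, Subgroup.coe_mul, mem_Cn]
    have hqn : q * p ≠ p * q := X.not_comm_of_anti h
    rcases hanti (b : E) with hb | hb
    · have h1 : (b : E) * q * p = z * (p * ((b : E) * q)) := by
        calc (b : E) * q * p = b * (q * p) := by group
          _ = b * (z * (p * q)) := by rw [h]
          _ = (b * z) * (p * q) := by group
          _ = (z * b) * (p * q) := by rw [X.zc]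
          _ = z * ((b * p) * q) := by group
          _ = z * ((p * b) * q) := by rw [hb]
          _ = z * (p * ((b : E) * q)) := by group
      right
      refine ⟨hb, fun h2 => ?_⟩
      rw [h1] at h2
      have h4 : z * (p * ((b : E) * q)) = (p * ((b : E) * q)) * z := (X.zc _).symm
      rw [h4] at h2
      exact X.z1 (mul_left_cancel (a := p * ((b : E) * q)) (by rw [h2, mul_one]))
    · have h1 : (b : E) * q * p = p * ((b : E) * q) := by
        calc (b : E) * q * p = b * (q * p) := by group
          _ = b * (z * (p * q)) := by rw [h]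
          _ = (b * z) * (p * q) := by group
          _ = (z * b) * (p * q) := by rw [X.zc]
          _ = z * ((b * p) * q) := by group
          _ = z * ((z * (p * b)) * q) := by rw [hb]
          _ = (z * z) * (p * b * q) := by group
          _ = p * ((b : E) * q) := by rw [X.zz]; group
      left
      exact ⟨h1, X.not_comm_of_anti hb⟩
  have h1 := Subgroup.card_mul_index ((Cn p).subgroupOf L)
  rw [hidx] at h1
  have h2 : (Cn p).subgroupOf L = (L ⊓ Cn p).subgroupOf L := by
    rw [Subgroup.inf_subgroupOf_left]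
  have h3 : Nat.card ↥((Cn p).subgroupOf L) = Nat.card ↥(L ⊓ Cn p) := by
    rw [h2]
    exact Nat.card_congr (Subgroup.subgroupOfEquivOfLe inf_le_left).toEquiv
  rw [h3] at h1
  exact h1

theorem ne_one_of_anti {x y : E} (h : x * y = z * (y * x)) : x ≠ 1 := by
  rintro rfl
  simp only [one_mul, mul_one] at h
  have : (1 : E) * y = z * y := by rw [one_mul]; exact h
  exact X.z1 (mul_right_cancel this).symm

theorem ne_z_of_anti {x y : E} (h : x * y = z * (y * x)) : x ≠ z := by
  rintro rfl
  have h2 : x * y * x = x * y * 1 ∨ True := Or.inr trivial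
  have h3 : x * y = x * (y * x) := h
  have h4 : y = y * x := mul_left_cancel h3
  have : y * 1 = y * x := by rw [mul_one]; exact h4
  exact X.z1 (mul_left_cancel this).symm

theorem sq_comm {a b : E} (h : a * b = b * a) : (a * b) * (a * b) = (a * a) * (b * b) := by
  calc (a * b) * (a * b) = a * (b * a) * b := by group
    _ = a * (a * b) * b := by rw [h]
    _ = _ := by group

theorem sq_anti {a b : E} (h : a * b = z * (b * a)) :
    (a * b) * (a * b) = z * ((a * a) * (b * b)) := by
  have h' := X.anti_symm h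
  calc (a * b) * (a * b) = a * (b * a) * b := by group
    _ = a * (z * (a * b)) * b := by rw [h']
    _ = (a * z) * (a * b * b) := by group
    _ = (z * a) * (a * b * b) := by rw [X.zc]
    _ = _ := by group

theorem mul_z_ne_one {u : E} (h : u ≠ z) : z * u ≠ 1 := by
  intro h2
  apply h
  have : z * u = z * z := by rw [h2, X.zz]
  exact mul_left_cancel this

end Xs

theorem comm_of_mul {u x y : E} (h : u * (x * y) = (x * y) * u) (h2 : u * y = y * u) :
    u * x = x * u := by
  have : (u * x) * y = (x * u) * y := by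
    calc (u * x) * y = u * (x * y) := by group
      _ = (x * y) * u := h
      _ = x * (y * u) := by group
      _ = x * (u * y) := by rw [h2]
      _ = _ := by group
  exact mul_right_cancel this

theorem exists_not_mem [Finite E] (K : Subgroup E) (s : Finset E) (h : s.card < Nat.card K) :
    ∃ t, t ∈ K ∧ t ∉ s := by
  by_contra hne
  push Not at hne
  have h1 : Nat.card K ≤ s.card := by
    rw [← Set.ncard_coe_finset s]
    show Nat.card (K : Set E) ≤ _
    rw [Nat.card_coe_set_eq]
    exact Set.ncard_le_ncard (fun x hx => hne x hx) (Finset.finite_toSet s)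
  omega

theorem card_le_of_sub [Finite E] (K : Subgroup E) (s : Finset E) (h : ∀ x ∈ s, x ∈ K) :
    s.card ≤ Nat.card K := by
  rw [← Set.ncard_coe_finset s]
  show _ ≤ Nat.card (K : Set E)
  rw [Nat.card_coe_set_eq]
  exact Set.ncard_le_ncard (fun x hx => h x hx) (Set.toFinite _)

namespace Xs

variable (X : Xs E z)
include X

/-- Commuting non-central involutions are equal up to `z`. -/
theorem comm_inv [Finite E] (hcard : Nat.card E = 32)
    (hE8 : ∀ A : Subgroup E, (∀ x ∈ A, ∀ y ∈ A, x * y = y * x) → (∀ x ∈ A, x * x = 1) →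
      Nat.card A < 8)
    {u v : E} (hu : u * u = 1) (hv : v * v = 1) (huv : u * v = v * u) (hu1 : u ≠ 1) (huz : u ≠ z)
    (hv1 : v ≠ 1) (hvz : v ≠ z) : v = u ∨ v = z * u := by
  classical
  by_contra hne
  push Not at hne
  obtain ⟨hne1, hne2⟩ := hne
  let S : Set E := {z, u, v}
  have hS : ∀ x ∈ S, ∀ y ∈ S, x * y = y * x := by
    intro x hx y hy
    rcases hx with rfl | rfl | rfl <;> rcases hy with rfl | rfl | rfl
    · rfl
    · exact (X.zc _).symm
    · exact (X.zc _).symm
    · exact X.zc _
    · rfl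
    · exact huv
    · exact X.zc _
    · exact huv.symm
    · rfl
  have hcomm : ∀ x ∈ closure S, ∀ y ∈ closure S, x * y = y * x := by
    intro x hx y hy
    have h2 := (Subgroup.isMulCommutative_closure (k := S) hS).is_comm.comm ⟨x, hx⟩ ⟨y, hy⟩
    exact congrArg Subtype.val h2
  have hinv : ∀ x ∈ closure S, x * x = 1 := by
    intro x hx
    induction hx using Subgroup.closure_induction with
    | mem x hx =>
      rcases hx with rfl | rfl | rfl
      · exact X.zz
      · exact hu
      · exact hv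
    | one => simp
    | mul a b ha hb h1 h2 =>
      rw [X.sq_comm (hcomm a ha b hb), h1, h2, one_mul]
    | inv a ha h1 =>
      rw [← mul_inv_rev, h1, inv_one]
  have hz : z ∈ closure S := subset_closure (by simp [S])
  have hu' : u ∈ closure S := subset_closure (by simp [S])
  have hv' : v ∈ closure S := subset_closure (by simp [S])
  have h5 : ({1, z, u, z * u, v} : Finset E).card = 5 := by
    have a1 : (1 : E) ≠ z := X.z1.symm
    have a2 : (1 : E) ≠ u := hu1.symm
    have a3 : (1 : E) ≠ z * u := (X.mul_z_ne_one huz).symm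
    have a4 : (1 : E) ≠ v := hv1.symm
    have a5 : z ≠ u := huz.symm
    have a6 : z ≠ z * u := by
      intro h
      apply hu1
      have : z * 1 = z * u := by rw [mul_one]; exact h
      exact (mul_left_cancel this).symm
    have a7 : z ≠ v := hvz.symm
    have a8 : u ≠ z * u := by
      intro h
      apply X.z1
      have : 1 * u = z * u := by rw [one_mul]; exact h
      exact (mul_right_cancel this).symm
    have a9 : u ≠ v := fun h => hne1 h.symm
    have a10 : z * u ≠ v := fun h => hne2 h.symm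
    rw [Finset.card_insert_of_notMem, Finset.card_insert_of_notMem, Finset.card_insert_of_notMem,
      Finset.card_insert_of_notMem, Finset.card_singleton] <;> simp [*]
  have hle := card_le_of_sub (closure S) {1, z, u, z * u, v} (by
    intro x hx
    simp only [Finset.mem_insert, Finset.mem_singleton] at hx
    rcases hx with rfl | rfl | rfl | rfl | rfl
    · exact one_mem _
    · exact hz
    · exact hu'
    · exact mul_mem hz hu'
    · exact hv')
  rw [h5] at hle
  have hlt := hE8 _ hcomm hinv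
  have hdvd : Nat.card (closure S) ∣ 2 ^ 5 := by
    have := Subgroup.card_subgroup_dvd_card (closure S)
    rw [hcard] at this
    simpa using this
  obtain ⟨k, hk, hk2⟩ := (Nat.dvd_prime_pow Nat.prime_two).1 hdvd
  rw [hk2] at hle hlt
  have : k = 0 ∨ k = 1 ∨ k = 2 ∨ k = 3 ∨ k = 4 ∨ k = 5 := by omega
  rcases this with rfl | rfl | rfl | rfl | rfl | rfl <;> omega

theorem exists_inv [Finite E] (hcard : Nat.card E = 32)
    (hZ : ∀ x : E, (∀ y, x * y = y * x) → x = 1 ∨ x = z) : ∃ c : E, c * c = 1 ∧ c ≠ 1 ∧ c ≠ z := by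
  classical
  obtain ⟨a, -, ha⟩ := exists_not_mem (⊤ : Subgroup E) {1, z} (by
    have : Nat.card (⊤ : Subgroup E) = 32 := by rw [Subgroup.card_top, hcard]
    rw [this]
    exact lt_of_le_of_lt (Finset.card_le_two) (by norm_num))
  simp only [Finset.mem_insert, Finset.mem_singleton, not_or] at ha
  have hnc : ¬ ∀ y, a * y = y * a := fun h => (hZ a h).elim ha.1 ha.2
  push Not at hnc
  obtain ⟨b, hb⟩ := hnc
  have hab : a * b = z * (b * a) := (X.cm a b).resolve_left hb
  have hba := X.anti_symm hab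
  rcases X.sq a with ha2 | ha2
  · exact ⟨a, ha2, ha.1, ha.2⟩
  rcases X.sq b with hb2 | hb2
  · exact ⟨b, hb2, X.ne_one_of_anti hba, X.ne_z_of_anti hba⟩
  have h1 := X.card_inf_cen (⊤ : Subgroup E) (Subgroup.mem_top a) hab
  have h2 := X.card_inf_cen (⊤ ⊓ Cn b : Subgroup E) (q := b) (p := a)
    ⟨Subgroup.mem_top b, mem_Cn.2 rfl⟩ hba
  rw [Subgroup.card_top, hcard] at h1
  have hK8 : Nat.card ↥(⊤ ⊓ Cn b ⊓ Cn a : Subgroup E) = 8 := by omega
  obtain ⟨d, hd, hd2⟩ := exists_not_mem (⊤ ⊓ Cn b ⊓ Cn a : Subgroup E) {1, z} (by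
    rw [hK8]
    exact lt_of_le_of_lt (Finset.card_le_two) (by norm_num))
  simp only [Finset.mem_insert, Finset.mem_singleton, not_or] at hd2
  have hdb : d * b = b * d := mem_Cn.1 hd.1.2
  have hda : d * a = a * d := mem_Cn.1 hd.2
  rcases X.sq d with hdd | hdd
  · exact ⟨d, hdd, hd2.1, hd2.2⟩
  have h3 : b * (a * d) = z * ((a * d) * b) := X.anti_mul_right hba hdb.symm
  have h4 := X.anti_symm h3
  refine ⟨a * d, ?_, X.ne_one_of_anti h4, X.ne_z_of_anti h4⟩
  rw [X.sq_comm hda.symm, ha2, hdd, X.zz]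

theorem exists_adjust {p q : E} (h : q * p = z * (p * q)) (t : E) :
    ∃ s, (s = 1 ∨ s = q) ∧ (t * s) * p = p * (t * s) := by
  rcases X.cm t p with h1 | h1
  · exact ⟨1, Or.inl rfl, by simpa using h1⟩
  · refine ⟨q, Or.inr rfl, ?_⟩
    exact (X.comm_mul_anti (X.anti_symm h1) (X.anti_symm h)).symm

end Xs

open Xs in
/-- Five pairwise anticommuting involutions generate. -/
theorem exists_five (X : Xs E z) [Finite E] (hcard : Nat.card E = 32)
    (hZ : ∀ x : E, (∀ y, x * y = y * x) → x = 1 ∨ x = z)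
    (hE8 : ∀ A : Subgroup E, (∀ x ∈ A, ∀ y ∈ A, x * y = y * x) → (∀ x ∈ A, x * x = 1) →
      Nat.card A < 8) :
    ∃ c : Fin 5 → E, (∀ i, c i * c i = 1) ∧ (∀ i j, i ≠ j → c i * c j = z * (c j * c i)) ∧
      closure (Set.range c) = ⊤ ∧
      (∀ t, t * t = 1 → t ≠ 1 → t ≠ z → ∃ i, t = c i ∨ t = z * c i) := by
  classical
  obtain ⟨c0, h00, h0a, h0b⟩ := X.exists_inv hcard hZ
  obtain ⟨c1, h11, h01⟩ : ∃ c1, c1 * c1 = 1 ∧ c0 * c1 = z * (c1 * c0) := by
    have hnc : ¬ ∀ y, c0 * y = y * c0 := fun h => (hZ c0 h).elim h0a h0b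
    push Not at hnc
    obtain ⟨d, hd⟩ := hnc
    have h1 : c0 * d = z * (d * c0) := (X.cm c0 d).resolve_left hd
    rcases X.sq d with h2 | h2
    · exact ⟨d, h2, h1⟩
    · refine ⟨c0 * d, ?_, X.anti_mul_right' rfl h1⟩
      rw [X.sq_anti h1, h00, h2, one_mul, X.zz]
  have h10 := X.anti_symm h01
  have hcomm0 : ∀ x : E, x * x = 1 → x ≠ 1 → x ≠ z → ∀ t : E, t * t = 1 → t * x = x * t →
      t ≠ 1 → t ≠ z → t = x ∨ t = z * x := fun x hx h1 h2 t ht htx ht1 htz =>
    X.comm_inv hcard hE8 hx ht htx.symm h1 h2 ht1 htz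
  -- the centraliser of c0, c1
  let K : Subgroup E := ⊤ ⊓ Cn c1 ⊓ Cn c0
  have hKm : ∀ t, t ∈ K ↔ t * c1 = c1 * t ∧ t * c0 = c0 * t := by
    intro t
    simp only [K, Subgroup.mem_inf, Subgroup.mem_top, true_and, mem_Cn]
  have hK8 : Nat.card K = 8 := by
    have h1 := X.card_inf_cen (⊤ : Subgroup E) (Subgroup.mem_top c0) h01
    have h2 := X.card_inf_cen (⊤ ⊓ Cn c1 : Subgroup E) (q := c1) (p := c0)
      ⟨Subgroup.mem_top c1, mem_Cn.2 rfl⟩ h10
    rw [Subgroup.card_top, hcard] at h1
    show Nat.card ↥(⊤ ⊓ Cn c1 ⊓ Cn c0 : Subgroup E) = 8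
    omega
  have hK : ∀ t ∈ K, t ≠ 1 → t ≠ z → t * t = z := by
    intro t ht ht1 htz
    rcases X.sq t with h | h
    · exfalso
      have h2 := (hKm t).1 ht
      rcases hcomm0 c0 h00 h0a h0b t h h2.2 ht1 htz with rfl | rfl
      · exact X.not_comm_of_anti h01 h2.1
      · have h3 : c1 * (z * c0) = z * ((z * c0) * c1) := X.anti_mul_right' (X.zc _) h10
        exact X.not_comm_of_anti h3 h2.1.symm
    · exact h
  have h1K : (1 : E) ∈ K := one_mem _
  have hzK : z ∈ K := (hKm z).2 ⟨(X.zc _).symm, (X.zc _).symm⟩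
  obtain ⟨a, ha, ha2⟩ := exists_not_mem K {1, z} (by
    rw [hK8]
    exact lt_of_le_of_lt (Finset.card_le_two) (by norm_num))
  simp only [Finset.mem_insert, Finset.mem_singleton, not_or] at ha2
  have haa := hK a ha ha2.1 ha2.2
  obtain ⟨b, hb, hb2⟩ := exists_not_mem K {1, z, a, z * a} (by
    rw [hK8]
    exact lt_of_le_of_lt (Finset.card_le_four) (by norm_num))
  simp only [Finset.mem_insert, Finset.mem_singleton, not_or] at hb2
  obtain ⟨hb1, hbz, hba', hbza⟩ := hb2
  have hbb := hK b hb hb1 hbz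
  have hab : a * b = z * (b * a) := by
    rcases X.cm a b with h | h
    · exfalso
      have h1 : (a * b) * (a * b) = 1 := by rw [X.sq_comm h, haa, hbb, X.zz]
      have h2 : a * b ≠ 1 := by
        intro h3
        apply hbza
        have : a * b = a * (z * a) := by
          rw [h3]
          calc (1 : E) = z * z := X.zz.symm
            _ = z * (a * a) := by rw [haa]
            _ = (z * a) * a := by group
            _ = (a * z) * a := by rw [X.zc]
            _ = a * (z * a) := by group
        exact mul_left_cancel this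
      have h3 : a * b ≠ z := by
        intro h3
        apply hba'
        rw [← haa] at h3
        exact mul_left_cancel h3
      have h4 := hK (a * b) (mul_mem ha hb) h2 h3
      rw [h1] at h4
      exact X.z1 h4.symm
    · exact h
  have hba := X.anti_symm hab
  -- the second centraliser
  let K₂ : Subgroup E := K ⊓ Cn b ⊓ Cn a
  have hK₂m : ∀ t, t ∈ K₂ ↔ (t * c1 = c1 * t ∧ t * c0 = c0 * t) ∧ t * b = b * t ∧ t * a = a * t := by
    intro t
    simp only [K₂, Subgroup.mem_inf, hKm, mem_Cn, and_assoc]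
  have hK₂2 : Nat.card K₂ = 2 := by
    have h1 := X.card_inf_cen K ha hab
    have h2 := X.card_inf_cen (K ⊓ Cn b : Subgroup E) (q := b) (p := a) ⟨hb, mem_Cn.2 rfl⟩ hba
    show Nat.card ↥(K ⊓ Cn b ⊓ Cn a : Subgroup E) = 2
    omega
  have hK₂ : ∀ t ∈ K₂, t = 1 ∨ t = z := by
    intro t ht
    by_contra hne
    push Not at hne
    have h3 : ({1, z, t} : Finset E).card = 3 := by
      have a1 : (1 : E) ≠ z := X.z1.symm
      have a2 : (1 : E) ≠ t := hne.1.symm
      have a3 : z ≠ t := hne.2.symm
      rw [Finset.card_insert_of_notMem, Finset.card_insert_of_notMem, Finset.card_singleton] <;>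
        simp [*]
    have hle := card_le_of_sub K₂ {1, z, t} (by
      intro x hx
      simp only [Finset.mem_insert, Finset.mem_singleton] at hx
      rcases hx with h | h | h
      · rw [h]; exact one_mem _
      · rw [h]; exact (hK₂m z).2 ⟨⟨(X.zc _).symm, (X.zc _).symm⟩, (X.zc _).symm, (X.zc _).symm⟩
      · rw [h]; exact ht)
    rw [h3, hK₂2] at hle
    omega
  obtain ⟨ha1, ha0⟩ := (hKm a).1 ha
  obtain ⟨hb1', hb0⟩ := (hKm b).1 hb
  -- e = c0 c1
  set e := c0 * c1 with he
  have hee : e * e = z := by rw [he, X.sq_anti h01, h00, h11, one_mul, mul_one]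
  have hae : a * e = e * a := X.comm_mul_right ha0 ha1
  have hbe : b * e = e * b := X.comm_mul_right hb0 hb1'
  have h0e : c0 * e = z * (e * c0) := X.anti_mul_right' rfl h01
  have h1e : c1 * e = z * (e * c1) := X.anti_mul_right h10 rfl
  set c2 := a * e with hc2
  set c3 := b * e with hc3
  set c4 := (a * b) * e with hc4
  have h02 : c0 * c2 = z * (c2 * c0) := X.anti_mul_right' ha0.symm h0e
  have h12 : c1 * c2 = z * (c2 * c1) := X.anti_mul_right' ha1.symm h1e
  have h03 : c0 * c3 = z * (c3 * c0) := X.anti_mul_right' hb0.symm h0e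
  have h13 : c1 * c3 = z * (c3 * c1) := X.anti_mul_right' hb1'.symm h1e
  have habc0 : c0 * (a * b) = (a * b) * c0 := X.comm_mul_right ha0.symm hb0.symm
  have habc1 : c1 * (a * b) = (a * b) * c1 := X.comm_mul_right ha1.symm hb1'.symm
  have h04 : c0 * c4 = z * (c4 * c0) := X.anti_mul_right' habc0 h0e
  have h14 : c1 * c4 = z * (c4 * c1) := X.anti_mul_right' habc1 h1e
  have hc2e : c2 * e = e * c2 := (X.comm_mul_right hae.symm rfl).symm
  have hc3e : c3 * e = e * c3 := (X.comm_mul_right hbe.symm rfl).symm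
  have hc2a : c2 * a = a * c2 := (X.comm_mul_right rfl hae).symm
  have hc2b : c2 * b = z * (b * c2) := X.anti_symm (X.anti_mul_right hba hbe)
  have hc3a : c3 * a = z * (a * c3) := X.anti_symm (X.anti_mul_right hab hae)
  have hc3b : c3 * b = b * c3 := (X.comm_mul_right rfl hbe).symm
  have h23 : c2 * c3 = z * (c3 * c2) := X.anti_mul_right hc2b hc2e
  have h24 : c2 * c4 = z * (c4 * c2) := X.anti_mul_right (X.anti_mul_right' hc2a hc2b) hc2e
  have h34 : c3 * c4 = z * (c4 * c3) := X.anti_mul_right (X.anti_mul_right hc3a hc3b) hc3e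
  have habe : (a * b) * e = e * (a * b) := (X.comm_mul_right hae.symm hbe.symm).symm
  have h22 : c2 * c2 = 1 := by rw [hc2, X.sq_comm hae, haa, hee, X.zz]
  have h33 : c3 * c3 = 1 := by rw [hc3, X.sq_comm hbe, hbb, hee, X.zz]
  have hab2 : (a * b) * (a * b) = z := by rw [X.sq_anti hab, haa, hbb, X.zz, mul_one]
  have h44 : c4 * c4 = 1 := by rw [hc4, X.sq_comm habe, hab2, hee, X.zz]
  have hsym : ∀ {x y : E}, x * y = z * (y * x) → y * x = z * (x * y) := fun h => X.anti_symm h
  refine ⟨![c0, c1, c2, c3, c4], ?_, ?_, ?_, ?_⟩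
  · intro i
    fin_cases i <;> simp [h00, h11, h22, h33, h44]
  · intro i j hij
    fin_cases i <;> fin_cases j <;> first
      | exact absurd rfl hij
      | (simp only [Fin.zero_eta, Fin.isValue, Fin.mk_one, Fin.reduceFinMk, Matrix.cons_val]; first
          | exact h01 | exact h02 | exact h03 | exact h04
          | exact h12 | exact h13 | exact h14 | exact h23 | exact h24 | exact h34
          | exact hsym h01 | exact hsym h02 | exact hsym h03 | exact hsym h04
          | exact hsym h12 | exact hsym h13 | exact hsym h14 | exact hsym h23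
          | exact hsym h24 | exact hsym h34)
  · set S := closure (Set.range ![c0, c1, c2, c3, c4]) with hSdef
    have hc0S : c0 ∈ S := subset_closure ⟨0, rfl⟩
    have hc1S : c1 ∈ S := subset_closure ⟨1, rfl⟩
    have hc2S : c2 ∈ S := subset_closure ⟨2, rfl⟩
    have hc3S : c3 ∈ S := subset_closure ⟨3, rfl⟩
    have heS : e ∈ S := mul_mem hc0S hc1S
    have hzS : z ∈ S := by
      have : z = e * (c1 * c0)⁻¹ := by rw [h01]; group
      rw [this]
      exact mul_mem heS (inv_mem (mul_mem hc1S hc0S))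
    have hcan : ∀ x s : E, x * s ∈ S → s ∈ S → x ∈ S := by
      intro x s h1 h2
      have : x = (x * s) * s⁻¹ := by group
      rw [this]
      exact mul_mem h1 (inv_mem h2)
    have haS : a ∈ S := hcan a e hc2S heS
    have hbS : b ∈ S := hcan b e hc3S heS
    rw [eq_top_iff]
    intro t _
    obtain ⟨s1, hs1, ht1⟩ := X.exists_adjust h10 t
    set t1 := t * s1 with ht1def
    obtain ⟨s2, hs2, ht2⟩ := X.exists_adjust h01 t1
    set t2 := t1 * s2 with ht2def
    obtain ⟨s3, hs3, ht3⟩ := X.exists_adjust hba t2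
    set t3 := t2 * s3 with ht3def
    obtain ⟨s4, hs4, ht4⟩ := X.exists_adjust hab t3
    set t4 := t3 * s4 with ht4def
    have hs2c0 : s2 * c0 = c0 * s2 := by
      rcases hs2 with rfl | rfl <;> simp
    have hs3c0 : s3 * c0 = c0 * s3 := by
      rcases hs3 with rfl | rfl
      · simp
      · exact hb0
    have hs3c1 : s3 * c1 = c1 * s3 := by
      rcases hs3 with rfl | rfl
      · simp
      · exact hb1'
    have hs4c0 : s4 * c0 = c0 * s4 := by
      rcases hs4 with rfl | rfl
      · simp
      · exact ha0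
    have hs4c1 : s4 * c1 = c1 * s4 := by
      rcases hs4 with rfl | rfl
      · simp
      · exact ha1
    have hs4a : s4 * a = a * s4 := by
      rcases hs4 with rfl | rfl <;> simp
    have hmc : ∀ {x y w : E}, x * w = w * x → y * w = w * y → (x * y) * w = w * (x * y) := by
      intro x y w h1 h2
      exact (X.comm_mul_right h1.symm h2.symm).symm
    have t2c0 : t2 * c0 = c0 * t2 := hmc ht1 hs2c0
    have t3c0 : t3 * c0 = c0 * t3 := hmc t2c0 hs3c0
    have t3c1 : t3 * c1 = c1 * t3 := hmc ht2 hs3c1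
    have t4c0 : t4 * c0 = c0 * t4 := hmc t3c0 hs4c0
    have t4c1 : t4 * c1 = c1 * t4 := hmc t3c1 hs4c1
    have t4a : t4 * a = a * t4 := hmc ht3 hs4a
    have h4S : t4 ∈ S := by
      rcases hK₂ t4 ((hK₂m t4).2 ⟨⟨t4c1, t4c0⟩, ht4, t4a⟩) with h | h
      · rw [h]; exact one_mem _
      · rw [h]; exact hzS
    have hmemS : ∀ {s : E} {q : E}, q ∈ S → (s = 1 ∨ s = q) → s ∈ S := by
      intro s q hq hs
      rcases hs with rfl | rfl
      · exact one_mem _
      · exact hq
    have h3S : t3 ∈ S := hcan t3 s4 h4S (hmemS haS hs4)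
    have h2S : t2 ∈ S := hcan t2 s3 h3S (hmemS hbS hs3)
    have h1S : t1 ∈ S := hcan t1 s2 h2S (hmemS hc0S hs2)
    exact hcan t s1 h1S (hmemS hc1S hs1)
  · intro t htt ht1 htz
    have hne : ∀ x y : E, x * y = z * (y * x) → x * x = 1 → t * x = x * t → t = x ∨ t = z * x := by
      intro x y hxy hx htx
      exact hcomm0 x hx (X.ne_one_of_anti hxy) (X.ne_z_of_anti hxy) t htt htx ht1 htz
    by_cases h0 : t * c0 = c0 * t
    · rcases hne c0 c1 h01 h00 h0 with h | h
      · exact ⟨0, Or.inl h⟩
      · exact ⟨0, Or.inr h⟩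
    by_cases h1 : t * c1 = c1 * t
    · rcases hne c1 c0 h10 h11 h1 with h | h
      · exact ⟨1, Or.inl h⟩
      · exact ⟨1, Or.inr h⟩
    by_cases h2 : t * c2 = c2 * t
    · rcases hne c2 c0 (hsym h02) h22 h2 with h | h
      · exact ⟨2, Or.inl h⟩
      · exact ⟨2, Or.inr h⟩
    by_cases h3 : t * c3 = c3 * t
    · rcases hne c3 c0 (hsym h03) h33 h3 with h | h
      · exact ⟨3, Or.inl h⟩
      · exact ⟨3, Or.inr h⟩
    have a0 : t * c0 = z * (c0 * t) := (X.cm t c0).resolve_left h0
    have a1 : t * c1 = z * (c1 * t) := (X.cm t c1).resolve_left h1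
    have a2 : t * c2 = z * (c2 * t) := (X.cm t c2).resolve_left h2
    have a3 : t * c3 = z * (c3 * t) := (X.cm t c3).resolve_left h3
    -- either t commutes with c4 or u = t c4 commutes with everything
    by_cases h4 : t * c4 = c4 * t
    · rcases hne c4 c0 (hsym h04) h44 h4 with h | h
      · exact ⟨4, Or.inl h⟩
      · exact ⟨4, Or.inr h⟩
    have a4 : t * c4 = z * (c4 * t) := (X.cm t c4).resolve_left h4
    have u0 : c0 * (t * c4) = (t * c4) * c0 := X.comm_mul_anti (hsym a0) h04
    have u1 : c1 * (t * c4) = (t * c4) * c1 := X.comm_mul_anti (hsym a1) h14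
    have u2 : c2 * (t * c4) = (t * c4) * c2 := X.comm_mul_anti (hsym a2) h24
    have u3 : c3 * (t * c4) = (t * c4) * c3 := X.comm_mul_anti (hsym a3) h34
    have ue : (t * c4) * e = e * (t * c4) := X.comm_mul_right u0.symm u1.symm
    have ua : (t * c4) * a = a * (t * c4) := comm_of_mul u2.symm ue
    have ub : (t * c4) * b = b * (t * c4) := comm_of_mul u3.symm ue
    have hm : t * c4 ∈ K₂ := (hK₂m _).2 ⟨⟨u1.symm, u0.symm⟩, ub, ua⟩
    rcases hK₂ _ hm with h | h
    · refine ⟨4, Or.inl ?_⟩
      have : t * c4 = c4 * c4 := by rw [h, h44]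
      exact mul_right_cancel this
    · refine ⟨4, Or.inr ?_⟩
      have : t * c4 = (z * c4) * c4 := by rw [h, mul_assoc, h44, mul_one]
      exact mul_right_cancel this

/-- The package of five pairwise anticommuting involutions. -/
structure Five (z : E) (c : Fin 5 → E) : Prop where
  X : Xs E z
  hZ : ∀ x : E, (∀ y, x * y = y * x) → x = 1 ∨ x = z
  sq : ∀ i, c i * c i = 1
  anti : ∀ i j, i ≠ j → c i * c j = z * (c j * c i)
  gen : closure (Set.range c) = ⊤
  inv : ∀ t, t * t = 1 → t ≠ 1 → t ≠ z → ∃ i, t = c i ∨ t = z * c i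

namespace Five

variable {c : Fin 5 → E} (H : Five z c)
include H

theorem ne_one (i : Fin 5) : c i ≠ 1 := by
  obtain ⟨j, hj⟩ := exists_ne i
  exact H.X.ne_one_of_anti (H.anti i j hj.symm)

theorem ne_z (i : Fin 5) : c i ≠ z := by
  obtain ⟨j, hj⟩ := exists_ne i
  exact H.X.ne_z_of_anti (H.anti i j hj.symm)

theorem aut_z (φ : MulAut E) : φ z = z := by
  have hc : ∀ y, φ z * y = y * φ z := by
    intro y
    obtain ⟨w, rfl⟩ := φ.surjective y
    rw [← map_mul, ← map_mul, H.X.zc]
  rcases H.hZ _ hc with h | h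
  · exact absurd (by simpa using h) H.X.z1
  · exact h

theorem eq_of_sign {i j : Fin 5} (h : c i = c j ∨ c i = z * c j) : i = j := by
  by_contra hij
  have h1 := H.anti i j hij
  apply H.X.not_comm_of_anti h1
  rcases h with h | h
  · rw [h]
  · rw [h, mul_assoc, ← mul_assoc (c j), H.X.zc, mul_assoc]

theorem exists_perm (φ : MulAut E) :
    ∃ π : Equiv.Perm (Fin 5), ∀ i, φ (c i) = c (π i) ∨ φ (c i) = z * c (π i) := by
  have h1 : ∀ i, ∃ j, φ (c i) = c j ∨ φ (c i) = z * c j := fun i =>
    H.inv _ (by rw [← map_mul, H.sq, map_one]) (by simpa using H.ne_one i)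
      (fun h => H.ne_z i (φ.injective (by rw [h, H.aut_z φ])))
  choose f hf using h1
  have hinj : Function.Injective f := by
    intro i j hij
    by_contra hne
    have h2 := H.anti i j hne
    have h3 : φ (c i) * φ (c j) = z * (φ (c j) * φ (c i)) := by
      rw [← map_mul, h2, map_mul, map_mul, H.aut_z φ]
    apply H.X.not_comm_of_anti h3
    rcases hf i with a | a <;> rcases hf j with b | b <;> rw [a, b, hij]
    · rw [← mul_assoc, H.X.zc]
    · rw [mul_assoc, ← H.X.zc, mul_assoc, H.X.zc]
  exact ⟨Equiv.ofBijective f (Finite.injective_iff_bijective.1 hinj), hf⟩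

theorem pow_perm {φ : MulAut E} {π : Equiv.Perm (Fin 5)}
    (h : ∀ i, φ (c i) = c (π i) ∨ φ (c i) = z * c (π i)) (k : ℕ) (i : Fin 5) :
    (φ ^ k) (c i) = c ((π ^ k) i) ∨ (φ ^ k) (c i) = z * c ((π ^ k) i) := by
  induction k with
  | zero => left; simp
  | succ k ih =>
    rw [pow_succ', pow_succ']
    simp only [MulAut.mul_apply, Equiv.Perm.mul_apply]
    rcases ih with a | a <;> rw [a]
    · exact h _
    · rw [map_mul, H.aut_z φ]
      rcases h ((π ^ k) i) with b | b
      · right; rw [b]
      · left; rw [b, ← mul_assoc, H.X.zz, one_mul]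

theorem perm_pow_eq_one {φ : MulAut E} {π : Equiv.Perm (Fin 5)}
    (h : ∀ i, φ (c i) = c (π i) ∨ φ (c i) = z * c (π i)) {r : ℕ} (hφ : φ ^ r = 1) : π ^ r = 1 := by
  ext i
  have h2 := H.pow_perm h r i
  rw [hφ] at h2
  simp only [MulAut.one_apply] at h2
  simp [← H.eq_of_sign h2]

theorem fix_of_perm {φ : MulAut E} {π : Equiv.Perm (Fin 5)}
    (h : ∀ i, φ (c i) = c (π i) ∨ φ (c i) = z * c (π i)) {r : ℕ} (hodd : Odd r) (hφ : φ ^ r = 1)
    {i : Fin 5} (hi : π i = i) : φ (c i) = c i := by
  rcases h i with a | a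
  · rw [a, hi]
  · exfalso
    rw [hi] at a
    have hk : ∀ k : ℕ, (φ ^ k) (c i) = z ^ k * c i := by
      intro k
      induction k with
      | zero => simp
      | succ k ih =>
        rw [pow_succ', MulAut.mul_apply, ih, map_mul, a, map_pow, H.aut_z φ, pow_succ, mul_assoc]
    have h1 := hk r
    rw [hφ] at h1
    simp only [MulAut.one_apply] at h1
    obtain ⟨m, rfl⟩ := hodd
    rw [pow_succ, pow_mul, pow_two, H.X.zz, one_pow, one_mul] at h1
    have h2 : (1 : E) * c i = z * c i := by rw [one_mul]; exact h1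
    exact H.X.z1 (mul_right_cancel h2).symm

theorem eq_one_of_fix {φ : MulAut E} (h : ∀ i, φ (c i) = c i) : φ = 1 := by
  ext x
  have hx : x ∈ closure (Set.range c) := by rw [H.gen]; exact Subgroup.mem_top x
  induction hx using Subgroup.closure_induction with
  | mem x hx =>
    obtain ⟨i, rfl⟩ := hx
    simpa using h i
  | one => simp
  | mul a b _ _ h1 h2 =>
    rw [map_mul, h1, h2]
    simp
  | inv a _ h1 =>
    rw [map_inv, h1]
    simp

theorem card_fix {π : Equiv.Perm (Fin 5)} {r : ℕ} [Fact r.Prime] (hπ : π ^ r = 1) :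
    π.supportᶜ.card ≡ 5 [MOD r] := by
  have h2 : π ^ r ^ 1 = 1 := by rwa [pow_one]
  simpa using Equiv.Perm.card_compl_support_modEq (p := r) (n := 1) h2

omit H in
theorem mem_compl_support {π : Equiv.Perm (Fin 5)} {i : Fin 5} : i ∈ π.supportᶜ ↔ π i = i := by
  simp [Equiv.Perm.mem_support]

/-- An automorphism of large prime order is trivial. -/
theorem aut_large {r : ℕ} [Fact r.Prime] (h7 : 7 ≤ r) {φ : MulAut E} (hφ : φ ^ r = 1) : φ = 1 := by
  have hr : r.Prime := Fact.out
  have hodd : Odd r := hr.odd_of_ne_two (by omega)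
  obtain ⟨π, hπ⟩ := H.exists_perm φ
  have h1 := H.perm_pow_eq_one hπ hφ
  have h2 := H.card_fix h1
  have h3 : π.supportᶜ.card ≤ 5 := by
    simpa using Finset.card_le_univ π.supportᶜ
  have h4 : π.supportᶜ.card = 5 := by
    have h5 : π.supportᶜ.card % r = 5 % r := h2
    rw [Nat.mod_eq_of_lt (by omega), Nat.mod_eq_of_lt (by omega)] at h5
    exact h5
  have h6 : π.supportᶜ = Finset.univ := by
    apply Finset.eq_univ_of_card
    simpa using h4
  apply H.eq_one_of_fix
  intro i
  apply H.fix_of_perm hπ hodd hφ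
  apply mem_compl_support.1
  rw [h6]
  exact Finset.mem_univ i

/-- An automorphism of order dividing three fixes two of the involutions. -/
theorem aut_three {φ : MulAut E} (hφ : φ ^ 3 = 1) :
    ∃ i j : Fin 5, i ≠ j ∧ φ (c i) = c i ∧ φ (c j) = c j := by
  haveI : Fact (Nat.Prime 3) := ⟨Nat.prime_three⟩
  obtain ⟨π, hπ⟩ := H.exists_perm φ
  have h1 := H.perm_pow_eq_one hπ hφ
  have h2 := H.card_fix h1
  have h3 : π.supportᶜ.card ≤ 5 := by
    simpa using Finset.card_le_univ π.supportᶜ
  have h4 : 1 < π.supportᶜ.card := by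
    have h5 : π.supportᶜ.card % 3 = 5 % 3 := h2
    omega
  obtain ⟨i, hi, j, hj, hij⟩ := Finset.one_lt_card.1 h4
  have hodd : Odd 3 := by decide
  exact ⟨i, j, hij, H.fix_of_perm hπ hodd hφ (mem_compl_support.1 hi),
    H.fix_of_perm hπ hodd hφ (mem_compl_support.1 hj)⟩

/-- A non-trivial automorphism of order five moves the involutions cyclically. -/
theorem aut_five {φ : MulAut E} (hφ : φ ^ 5 = 1) (hne : φ ≠ 1) (i : Fin 5) (m : ℕ) (hm : 0 < m)
    (hm5 : m < 5) : (φ ^ m) (c i) * c i = z * (c i * (φ ^ m) (c i)) := by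
  haveI : Fact (Nat.Prime 5) := ⟨by norm_num⟩
  obtain ⟨π, hπ⟩ := H.exists_perm φ
  have h1 := H.perm_pow_eq_one hπ hφ
  have h2 := H.card_fix h1
  have h3 : π.supportᶜ.card ≤ 5 := by
    simpa using Finset.card_le_univ π.supportᶜ
  have hodd : Odd 5 := by decide
  have hnf : ∀ k, π k ≠ k := by
    intro k hk
    apply hne
    have h4 : π.supportᶜ.card ≠ 0 := by
      apply Finset.card_ne_zero_of_mem (a := k)
      exact mem_compl_support.2 hk
    have h5 : π.supportᶜ.card % 5 = 5 % 5 := h2
    have h6 : π.supportᶜ.card = 5 := by omega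
    have h7 : π.supportᶜ = Finset.univ := by
      apply Finset.eq_univ_of_card
      simpa using h6
    apply H.eq_one_of_fix
    intro l
    apply H.fix_of_perm hπ hodd hφ
    apply mem_compl_support.1
    rw [h7]
    exact Finset.mem_univ l
  have hnm : (π ^ m) i ≠ i := by
    intro hk
    have hpow : ∀ n : ℕ, ((π ^ m) ^ n) i = i := by
      intro n
      induction n with
      | zero => simp
      | succ n ih => rw [pow_succ, Equiv.Perm.mul_apply, hk, ih]
    obtain ⟨n, hn⟩ : ∃ n, (π ^ m) ^ n = π := by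
      have : m = 1 ∨ m = 2 ∨ m = 3 ∨ m = 4 := by omega
      rcases this with rfl | rfl | rfl | rfl
      · exact ⟨1, by simp⟩
      · refine ⟨3, ?_⟩
        rw [← pow_mul, show 2 * 3 = 5 + 1 by norm_num, pow_add, h1, one_mul, pow_one]
      · refine ⟨2, ?_⟩
        rw [← pow_mul, show 3 * 2 = 5 + 1 by norm_num, pow_add, h1, one_mul, pow_one]
      · refine ⟨4, ?_⟩
        rw [← pow_mul, show 4 * 4 = 5 * 3 + 1 by norm_num, pow_add, pow_mul, h1, one_pow, one_mul,
          pow_one]
    have := hpow n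
    rw [hn] at this
    exact hnf i this
  have hanti := H.anti _ _ hnm
  rcases H.pow_perm hπ m i with a | a
  · rw [a]; exact hanti
  · rw [a]
    exact H.X.anti_symm (H.X.anti_mul_right' (H.X.zc _) (H.X.anti_symm hanti))

end Five

open Xs in
theorem exists_five' (X : Xs E z) [Finite E] (hcard : Nat.card E = 32)
    (hZ : ∀ x : E, (∀ y, x * y = y * x) → x = 1 ∨ x = z)
    (hE8 : ∀ A : Subgroup E, (∀ x ∈ A, ∀ y ∈ A, x * y = y * x) → (∀ x ∈ A, x * x = 1) →
      Nat.card A < 8) :
    ∃ c : Fin 5 → E, Five z c := by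
  obtain ⟨c, h1, h2, h3, h4⟩ := exists_five X hcard hZ hE8
  exact ⟨c, X, hZ, h1, h2, h3, h4⟩

end Cfsg.Agent.Lib.FGStruct.Cliff5
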