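import Cfsg.Agent.Lib.FGStruct.Cliff5

/-!
# 2-groups of symplectic type of order 64 with centre of order 4
-/

set_option autoImplicit false
set_option linter.unusedSectionVars false
set_option linter.style.haveILetI false
set_option linter.unusedVariables false

namespace Cfsg.Agent.Lib.FGStruct.Cliff6

open Subgroup Cfsg.Agent.Lib.FGStruct.Cliff5

variable {E : Type*} [Group E] {z : E}

section sign

open Classical in
/-- The commutator sign. -/
noncomputable def Sg (x y : E) : ZMod 2 := if x * y = y * x then 0 else 1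

theorem sg_eq_zero {x y : E} : Sg x y = 0 ↔ x * y = y * x := by
  unfold Sg
  split_ifs with h <;> simp [h]

variable (X : Xs E z)
include X

theorem sg_eq_one {x y : E} : Sg x y = 1 ↔ x * y = z * (y * x) := by
  unfold Sg
  split_ifs with h
  · simp only [zero_ne_one, false_iff]
    exact fun h2 => X.not_comm_of_anti h2 h
  · simp only [true_iff]
    exact (X.cm x y).resolve_left h

omit X in
theorem sg_comm (x y : E) : Sg x y = Sg y x := by
  unfold Sg
  by_cases h : x * y = y * x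
  · rw [if_pos h, if_pos h.symm]
  · rw [if_neg h, if_neg (fun h2 => h h2.symm)]

theorem sg_cases (x y : E) : Sg x y = 0 ∨ Sg x y = 1 := by
  unfold Sg
  split_ifs <;> simp

theorem sg_mul_right (x y w : E) : Sg x (y * w) = Sg x y + Sg x w := by
  rcases sg_cases X x y with h1 | h1 <;> rcases sg_cases X x w with h2 | h2
  · rw [h1, h2, add_zero, sg_eq_zero]
    exact X.comm_mul_right (sg_eq_zero.1 h1) (sg_eq_zero.1 h2)
  · rw [h1, h2, zero_add, sg_eq_one X]
    exact X.anti_mul_right' (sg_eq_zero.1 h1) ((sg_eq_one X).1 h2)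
  · rw [h1, h2, add_zero, sg_eq_one X]
    exact X.anti_mul_right ((sg_eq_one X).1 h1) (sg_eq_zero.1 h2)
  · rw [h1, h2, show (1 : ZMod 2) + 1 = 0 from rfl, sg_eq_zero]
    exact X.comm_mul_anti ((sg_eq_one X).1 h1) ((sg_eq_one X).1 h2)

theorem sg_mul_left (x y w : E) : Sg (x * y) w = Sg x w + Sg y w := by
  rw [sg_comm, sg_mul_right X, sg_comm w x, sg_comm w y]

theorem sg_one_right (x : E) : Sg x 1 = 0 := by
  rw [sg_eq_zero]; simp

theorem sg_inv_right (x y : E) : Sg x y⁻¹ = Sg x y := by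
  have h := sg_mul_right X x y y⁻¹
  rw [mul_inv_cancel, sg_one_right X] at h
  rcases sg_cases X x y with h1 | h1 <;> rcases sg_cases X x y⁻¹ with h2 | h2 <;> rw [h1, h2] at h ⊢
  · revert h; decide
  · revert h; decide

theorem sg_aut {φ : MulAut E} (hφz : φ z = z) (x y : E) : Sg (φ x) (φ y) = Sg x y := by
  rcases sg_cases X x y with h1 | h1
  · rw [h1, sg_eq_zero, ← map_mul, sg_eq_zero.1 h1, map_mul]
  · rw [h1, sg_eq_one X, ← map_mul, (sg_eq_one X).1 h1, map_mul, map_mul, hφz]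

theorem sg_z_right (x : E) : Sg x z = 0 := by
  rw [sg_eq_zero]; exact X.zc x

end sign

/-- The package for order 64. -/
structure Six (z ι : E) : Prop where
  X : Xs E z
  hι : ∀ x : E, x * ι = ι * x
  ιι : ι * ι = z
  hZ : ∀ x : E, (∀ y, x * y = y * x) → x = 1 ∨ x = z ∨ x = ι ∨ x = z * ι

namespace Six

variable {ι : E} (H : Six z ι)
include H

theorem ι_ne_one : ι ≠ 1 := by
  rintro rfl
  have := H.ιι
  rw [one_mul] at this
  exact H.X.z1 this.symm

theorem ι_ne_z : ι ≠ z := by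
  rintro rfl
  have h1 := H.ιι
  have h2 := H.X.zz
  rw [h2] at h1
  exact H.X.z1 h1.symm

open Classical in
theorem card_four : ({1, z, ι, z * ι} : Finset E).card = 4 := by
  have a1 : (1 : E) ≠ z := H.X.z1.symm
  have a2 : (1 : E) ≠ ι := H.ι_ne_one.symm
  have a3 : (1 : E) ≠ z * ι := by
    intro h
    apply H.ι_ne_z
    have : z * ι = z * z := by rw [← h, H.X.zz]
    exact mul_left_cancel this
  have a4 : z ≠ ι := H.ι_ne_z.symm
  have a5 : z ≠ z * ι := by
    intro h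
    apply H.ι_ne_one
    have : z * ι = z * 1 := by rw [← h, mul_one]
    exact mul_left_cancel this
  have a6 : ι ≠ z * ι := by
    intro h
    apply H.X.z1
    have : z * ι = 1 * ι := by rw [← h, one_mul]
    exact mul_right_cancel this
  rw [Finset.card_insert_of_notMem, Finset.card_insert_of_notMem, Finset.card_insert_of_notMem,
    Finset.card_singleton] <;> simp [*]

theorem central_iff {x : E} : (∀ y, x * y = y * x) ↔ x = 1 ∨ x = z ∨ x = ι ∨ x = z * ι := by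
  refine ⟨H.hZ x, ?_⟩
  rintro (rfl | rfl | rfl | rfl) y
  · simp
  · exact (H.X.zc y).symm
  · exact (H.hι y).symm
  · have h1 := H.X.zc y
    have h2 := H.hι y
    calc z * ι * y = z * (ι * y) := by group
      _ = z * (y * ι) := by rw [h2]
      _ = (z * y) * ι := by group
      _ = (y * z) * ι := by rw [h1]
      _ = y * (z * ι) := by group

theorem phi_z {φ : MulAut E} (hφ : φ ι = ι) : φ z = z := by
  rw [← H.ιι, map_mul, hφ]

theorem zι_sq : (z * ι) * (z * ι) = z := by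
  have := Xs.sq_comm H.X (a := z) (b := ι) (H.hι z)
  rw [H.ιι, H.X.zz, one_mul] at this
  exact this

theorem pow4_central {ζ : E} (hζ : ∀ y, ζ * y = y * ζ) : ζ ^ 4 = 1 := by
  have e4 : ∀ x : E, x ^ 4 = (x * x) * (x * x) := fun x => by
    simp only [pow_succ, pow_zero, one_mul, mul_assoc]
  have hιι : ι * ι * (ι * ι) = 1 := by rw [H.ιι, H.X.zz]
  rcases H.hZ ζ hζ with rfl | rfl | rfl | rfl
  · simp
  · rw [e4, H.X.zz, mul_one]
  · rw [e4, hιι]
  · rw [e4, H.zι_sq, H.X.zz]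

/-- Elements that are fixed up to the centre are fixed, for odd-order automorphisms. -/
theorem fix_elt {φ : MulAut E} (hφ : φ ι = ι) {r : ℕ} (hodd : Odd r) (hr : φ ^ r = 1) {a : E}
    (hc : ∃ ζ : E, (∀ y, ζ * y = y * ζ) ∧ φ a = ζ * a) : φ a = a := by
  obtain ⟨ζ, hζ, ha⟩ := hc
  have hζφ : φ ζ = ζ := by
    rcases H.hZ ζ hζ with rfl | rfl | rfl | rfl
    · simp
    · exact H.phi_z hφ
    · exact hφ
    · rw [map_mul, H.phi_z hφ, hφ]
  have hk : ∀ k : ℕ, (φ ^ k) a = ζ ^ k * a := by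
    intro k
    induction k with
    | zero => simp
    | succ k ih =>
      rw [pow_succ', MulAut.mul_apply, ih, map_mul, ha, map_pow, hζφ, pow_succ, mul_assoc]
  have h1 := hk r
  rw [hr] at h1
  simp only [MulAut.one_apply] at h1
  have hζr : ζ ^ r = 1 := by
    have : (1 : E) * a = ζ ^ r * a := by rw [one_mul]; exact h1
    exact (mul_right_cancel this).symm
  have hζ4 : ζ ^ 4 = 1 := H.pow4_central hζ
  have hcop : Nat.Coprime r 4 := by
    have : Nat.Coprime r (2 ^ 2) := Nat.Coprime.pow_right 2 hodd.coprime_two_right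
    simpa using this
  have h1' : ζ = 1 := by
    have h2 : ζ ^ Nat.gcd r 4 = 1 := pow_gcd_eq_one.2 ⟨hζr, hζ4⟩
    rwa [hcop.gcd_eq_one, pow_one] at h2
  rw [ha, h1', one_mul]

/-- A self-adjoint automorphism of odd order is trivial. -/
theorem aut_of_selfadj {φ : MulAut E} (hφ : φ ι = ι) {r : ℕ} (hodd : Odd r) (hr : φ ^ r = 1)
    (hs : ∀ a, Sg a (φ a) = 0) : φ = 1 := by
  have X := H.X
  have hinv : ∀ x y, Sg (φ x) (φ y) = Sg x y := sg_aut X (H.phi_z hφ)
  have pol : ∀ a b, Sg a (φ b) = Sg b (φ a) := by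
    intro a b
    have h := hs (a * b)
    rw [map_mul, sg_mul_left X, sg_mul_right X, sg_mul_right X, hs a, hs b, zero_add, add_zero] at h
    exact CharTwo.add_eq_zero.1 h
  have two : ∀ a c, Sg a (φ (φ c)) = Sg a c := by
    intro a c
    rw [pol a (φ c), hinv, sg_comm]
  have h2 : ∀ c : E, ∃ ζ : E, (∀ y, ζ * y = y * ζ) ∧ (φ ^ 2) c = ζ * c := by
    intro c
    refine ⟨φ (φ c) * c⁻¹, fun y => ?_, ?_⟩
    · apply sg_eq_zero.1
      rw [sg_mul_left X, sg_comm c⁻¹, sg_inv_right X, sg_comm y c, sg_comm _ y, two, sg_comm y c]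
      exact CharTwo.add_self_eq_zero _
    · rw [pow_two, MulAut.mul_apply]
      group
  have h3 : φ ^ 2 = 1 := by
    ext c
    have := H.fix_elt (φ := φ ^ 2) (by rw [pow_two, MulAut.mul_apply, hφ, hφ]) hodd
      (by rw [← pow_mul, mul_comm, pow_mul, hr, one_pow]) (h2 c)
    simpa using this
  obtain ⟨m, rfl⟩ := hodd
  rw [pow_succ, pow_mul, h3, one_pow, one_mul] at hr
  exact hr

theorem sg_self (x : E) : Sg x x = 0 := sg_eq_zero.2 rfl

omit H in
theorem sg_central_left {x : E} (hx : ∀ y, x * y = y * x) (y : E) : Sg x y = 0 := sg_eq_zero.2 (hx y)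

theorem sg_ι_left (y : E) : Sg ι y = 0 := sg_eq_zero.2 (H.hι y).symm

theorem sg_ι_right (y : E) : Sg y ι = 0 := sg_eq_zero.2 (H.hι y)

theorem sg_ιmul_left (x y : E) : Sg (ι * x) y = Sg x y := by
  rw [sg_mul_left H.X, H.sg_ι_left, zero_add]

theorem sg_ιmul_right (x y : E) : Sg x (ι * y) = Sg x y := by
  rw [sg_mul_right H.X, H.sg_ι_right, zero_add]

/-- Every element or its product with `ι` squares to `z`. -/
theorem to_sq (x : E) : ∃ x' : E, (x' = x ∨ x' = ι * x) ∧ x' * x' = z := by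
  rcases H.X.sq x with h | h
  · refine ⟨ι * x, Or.inr rfl, ?_⟩
    rw [Xs.sq_comm H.X (H.hι x).symm, H.ιι, h, mul_one]
  · exact ⟨x, Or.inl rfl, h⟩

theorem sg_to_sq {x x' : E} (h : x' = x ∨ x' = ι * x) (y : E) : Sg x' y = Sg x y := by
  rcases h with rfl | rfl
  · rfl
  · exact H.sg_ιmul_left _ _

/-- An order-five automorphism has an involution with a pairwise anticommuting orbit. -/
theorem exists_orbit5 {φ : MulAut E} (hφ : φ ι = ι) (h5 : φ ^ 5 = 1) (hne : φ ≠ 1) :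
    ∃ b : E, b * b = 1 ∧ Sg b (φ b) = 1 ∧ Sg b (φ (φ b)) = 1 := by
  have X := H.X
  have hinv : ∀ x y, Sg (φ x) (φ y) = Sg x y := sg_aut X (H.phi_z hφ)
  have hodd : Odd 5 := by decide
  obtain ⟨a, ha⟩ : ∃ a, Sg a (φ a) = 1 := by
    by_contra h
    push Not at h
    exact hne (H.aut_of_selfadj hφ hodd h5 (fun a => (sg_cases X _ _).resolve_right (h a)))
  have e5 : ∀ x : E, φ (φ (φ (φ (φ x)))) = x := by
    intro x
    have : (φ ^ 5) x = x := by rw [h5]; rfl
    simpa [pow_succ, MulAut.mul_apply] using this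
  -- the case split
  obtain ⟨b₀, h1, h2⟩ : ∃ b₀, Sg b₀ (φ b₀) = 1 ∧ Sg b₀ (φ (φ b₀)) = 1 := by
    rcases sg_cases X a (φ (φ a)) with h | h
    · refine ⟨a * φ (φ a), ?_, ?_⟩
      · simp only [map_mul, sg_mul_left X, sg_mul_right X]
        have t1 : Sg a (φ (φ (φ (φ a)))) = 1 := by
          rw [← hinv a, e5, sg_comm, ha]
        have t2 : Sg a (φ (φ (φ a))) = 0 := by
          rw [← hinv a, ← hinv (φ a), e5, sg_comm, h]
        have t3 : Sg (φ (φ a)) (φ a) = 1 := by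
          rw [sg_comm, hinv, ha]
        have t4 : Sg (φ (φ a)) (φ (φ (φ (φ (φ a))))) = 0 := by
          rw [e5, sg_comm, h]
        have t5 : Sg (φ (φ a)) (φ (φ (φ a))) = 1 := by
          rw [hinv, hinv, ha]
        rw [ha, t2, t3, t5]
        decide
      · simp only [map_mul, sg_mul_left X, sg_mul_right X]
        have t1 : Sg a (φ (φ (φ (φ a)))) = 1 := by
          rw [← hinv a, e5, sg_comm, ha]
        have t5 : Sg (φ (φ a)) (φ (φ a)) = 0 := H.sg_self _
        have t6 : Sg (φ (φ a)) (φ (φ (φ (φ a)))) = 0 := by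
          rw [hinv, hinv, h]
        rw [h, t1, t5, t6]
        decide
    · exact ⟨a, ha, h⟩
  obtain ⟨b, hb, hbb⟩ : ∃ b, (b = b₀ ∨ b = ι * b₀) ∧ b * b = 1 := by
    rcases X.sq b₀ with h | h
    · exact ⟨b₀, Or.inl rfl, h⟩
    · refine ⟨ι * b₀, Or.inr rfl, ?_⟩
      rw [Xs.sq_comm X (H.hι b₀).symm, H.ιι, h, X.zz]
  refine ⟨b, hbb, ?_, ?_⟩
  · rcases hb with rfl | rfl
    · exact h1
    · rw [map_mul, hφ, H.sg_ιmul_left, H.sg_ιmul_right]
      exact h1
  · rcases hb with rfl | rfl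
    · exact h2
    · rw [map_mul, map_mul, hφ, hφ, H.sg_ιmul_left, H.sg_ιmul_right]
      exact h2

/-- The orbit is pairwise anticommuting. -/
theorem orbit_anti {φ : MulAut E} (hφ : φ ι = ι) (h5 : φ ^ 5 = 1) {b : E}
    (h1 : Sg b (φ b) = 1) (h2 : Sg b (φ (φ b)) = 1) (j m : ℕ) (hm0 : 0 < m) (hm5 : m < 5) :
    Sg ((φ ^ j) b) ((φ ^ (j + m)) b) = 1 := by
  have X := H.X
  have hinv : ∀ x y, Sg (φ x) (φ y) = Sg x y := sg_aut X (H.phi_z hφ)
  have hzj : ∀ k : ℕ, (φ ^ k) z = z := by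
    intro k
    induction k with
    | zero => rfl
    | succ k ih => rw [pow_succ', MulAut.mul_apply, ih, H.phi_z hφ]
  rw [pow_add, MulAut.mul_apply, sg_aut X (hzj j)]
  have e5 : ∀ x : E, φ (φ (φ (φ (φ x)))) = x := by
    intro x
    have : (φ ^ 5) x = x := by rw [h5]; rfl
    simpa [pow_succ, MulAut.mul_apply] using this
  have hm : m = 1 ∨ m = 2 ∨ m = 3 ∨ m = 4 := by omega
  rcases hm with rfl | rfl | rfl | rfl
  · simpa using h1
  · simpa [pow_succ, MulAut.mul_apply] using h2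
  · have : (φ ^ 3) b = φ (φ (φ b)) := by simp [pow_succ, MulAut.mul_apply]
    rw [this, ← hinv b, ← hinv (φ b), e5, sg_comm, h2]
  · have : (φ ^ 4) b = φ (φ (φ (φ b))) := by simp [pow_succ, MulAut.mul_apply]
    rw [this, ← hinv b, e5, sg_comm, h1]

/-- The orbit product. -/
def orb (φ : MulAut E) (h : E) : ℕ → E
  | 0 => 1
  | k + 1 => orb φ h k * (φ ^ k) h

omit H in
theorem orb_aut (φ : MulAut E) (h : E) (k : ℕ) : φ (orb φ h k) = h⁻¹ * orb φ h k * (φ ^ k) h := by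
  induction k with
  | zero => simp [orb]
  | succ k ih =>
    simp only [orb]
    rw [map_mul, ih, pow_succ' φ k, MulAut.mul_apply]
    group

/-- An automorphism of large prime order is trivial. -/
theorem aut_large' [Finite E] (hcard : Nat.card E = 64) {r : ℕ} [hrf : Fact r.Prime] (h7 : 7 ≤ r)
    {φ : MulAut E} (hφ : φ ι = ι) (hr : φ ^ r = 1) : φ = 1 := by
  classical
  have X := H.X
  have hrp : r.Prime := hrf.out
  have hodd : Odd r := hrp.odd_of_ne_two (by omega)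
  haveI : Fintype E := Fintype.ofFinite E
  let Fx : Subgroup E :=
    { carrier := {x | φ x = x}
      mul_mem' := fun {a b} ha hb => by
        simp only [Set.mem_ofPred_eq] at ha hb ⊢
        rw [map_mul, ha, hb]
      one_mem' := by simp
      inv_mem' := fun {a} ha => by
        simp only [Set.mem_ofPred_eq] at ha ⊢
        rw [map_inv, ha] }
  have hFx : ∀ x, x ∈ Fx ↔ φ x = x := fun x => Iff.rfl
  let π : Equiv.Perm E := φ.toEquiv
  have hπ : ∀ k : ℕ, ∀ x, (π ^ k) x = (φ ^ k) x := by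
    intro k x
    induction k generalizing x with
    | zero => rfl
    | succ k ih =>
      rw [pow_succ, Equiv.Perm.mul_apply, ih, pow_succ, MulAut.mul_apply]
      rfl
  have hπr : π ^ r ^ 1 = 1 := by
    rw [pow_one]
    ext x
    rw [hπ, hr]
    rfl
  have hm := Equiv.Perm.card_compl_support_modEq (p := r) (n := 1) hπr
  have hcs : π.supportᶜ.card = Nat.card Fx := by
    rw [Nat.card_eq_fintype_card]
    symm
    rw [Fintype.card_subtype]
    congr 1
    ext x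
    simp [Equiv.Perm.mem_support, π]
    rfl
  rw [hcs, Fintype.card_eq_nat_card, hcard] at hm
  have hdvd : Nat.card Fx ∣ 2 ^ 6 := by
    have := Subgroup.card_subgroup_dvd_card Fx
    rw [hcard] at this
    simpa using this
  obtain ⟨k, hk, hk2⟩ := (Nat.dvd_prime_pow Nat.prime_two).1 hdvd
  have hFxι : ι ∈ Fx := hφ
  have hFxz : z ∈ Fx := H.phi_z hφ
  have hge4 : 4 ≤ Nat.card Fx := by
    have h := card_le_of_sub Fx {1, z, ι, z * ι} (by
      intro x hx
      simp only [Finset.mem_insert, Finset.mem_singleton] at hx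
      rcases hx with rfl | rfl | rfl | rfl
      · exact one_mem _
      · exact hFxz
      · exact hFxι
      · exact mul_mem hFxz hFxι)
    rwa [H.card_four] at h
  rw [hk2] at hm hge4
  have hd : r ∣ 64 - 2 ^ k := by
    have hle : 2 ^ k ≤ 64 := by
      have : 2 ^ k ≤ 2 ^ 6 := Nat.pow_le_pow_right (by norm_num) hk
      simpa using this
    exact (Nat.modEq_iff_dvd' hle).1 hm
  have hk' : k = 2 ∨ k = 3 ∨ k = 4 ∨ k = 5 ∨ k = 6 := by
    have h0 : k ≠ 0 := by rintro rfl; norm_num at hge4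
    have h1 : k ≠ 1 := by rintro rfl; norm_num at hge4
    omega
  have small : ∀ n : ℕ, r ∣ 2 ^ n * 3 * 5 → False := by
    intro n h
    rcases (Nat.Prime.dvd_mul hrp).1 h with h | h
    · rcases (Nat.Prime.dvd_mul hrp).1 h with h | h
      · have := Nat.le_of_dvd (by norm_num) (hrp.dvd_of_dvd_pow h)
        omega
      · have := Nat.le_of_dvd (by norm_num) h
        omega
    · have := Nat.le_of_dvd (by norm_num) h
      omega
  rcases hk' with rfl | rfl | rfl | rfl | rfl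
  · exact (small 2 (by simpa using hd)).elim
  · -- the case r = 7
    exfalso
    have hr7 : r = 7 := by
      have h56 : r ∣ 2 ^ 3 * 7 := by simpa using hd
      rcases (Nat.Prime.dvd_mul hrp).1 h56 with h | h
      · have := Nat.le_of_dvd (by norm_num) (hrp.dvd_of_dvd_pow h)
        omega
      · have := Nat.le_of_dvd (by norm_num) h
        omega
    subst hr7
    obtain ⟨g, hg, hg2⟩ := exists_not_mem Fx {1, z, ι, z * ι} (by
      rw [H.card_four, hk2]; norm_num)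
    simp only [Finset.mem_insert, Finset.mem_singleton, not_or] at hg2
    have hnc : ¬ ∀ y, g * y = y * g := fun h => by
      rcases H.hZ g h with h | h | h | h
      · exact hg2.1 h
      · exact hg2.2.1 h
      · exact hg2.2.2.1 h
      · exact hg2.2.2.2 h
    push Not at hnc
    obtain ⟨h₀, hh₀⟩ := hnc
    have hsg : Sg g h₀ = 1 := (sg_cases X _ _).resolve_left (fun h => hh₀ (sg_eq_zero.1 h))
    set t := orb φ h₀ 7 with ht
    have hφt : φ t = t := by
      apply H.fix_elt hφ hodd hr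
      have h1 : φ t = h₀⁻¹ * t * h₀ := by
        have := orb_aut φ h₀ 7
        rw [hr] at this
        exact this
      rcases X.cm t h₀ with h2 | h2
      · refine ⟨1, fun y => by simp, ?_⟩
        rw [h1, mul_assoc, h2]
        group
      · refine ⟨z, fun y => (X.zc y).symm, ?_⟩
        rw [h1, mul_assoc, h2, ← mul_assoc]
        have hzc : h₀⁻¹ * z = z * h₀⁻¹ := X.zc _
        rw [hzc]
        group
    have hz7 : ∀ k : ℕ, (φ ^ k) z = z := by
      intro k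
      induction k with
      | zero => rfl
      | succ k ih => rw [pow_succ', MulAut.mul_apply, ih, H.phi_z hφ]
    have hgk : ∀ k : ℕ, (φ ^ k) g = g := by
      intro k
      induction k with
      | zero => rfl
      | succ k ih => rw [pow_succ', MulAut.mul_apply, ih]; exact hg
    have hsum : ∀ k : ℕ, Sg g (orb φ h₀ k) = (k : ZMod 2) := by
      intro k
      induction k with
      | zero => simp [orb, sg_one_right X]
      | succ k ih =>
        simp only [orb]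
        rw [sg_mul_right X, ih]
        have : Sg g ((φ ^ k) h₀) = 1 := by
          rw [← hsg]
          conv_lhs => rw [← hgk k]
          exact sg_aut X (hz7 k) _ _
        rw [this]
        push_cast
        rfl
    have hgt : Sg g t = 1 := by
      rw [ht, hsum]
      rfl
    have hc := X.card_inf_cen Fx (p := g) (q := t) hφt (by
      have := (sg_eq_one X).1 ((sg_comm g t) ▸ hgt)
      exact this)
    rw [hk2] at hc
    have hc4 : Nat.card ↥(Fx ⊓ Cn g) = 4 := by omega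
    have h5 : ({1, z, ι, z * ι, g} : Finset E).card = 5 := by
      have hnot : g ∉ ({1, z, ι, z * ι} : Finset E) := by
        simp only [Finset.mem_insert, Finset.mem_singleton, not_or]
        exact hg2
      have e : ({1, z, ι, z * ι, g} : Finset E) = insert g ({1, z, ι, z * ι} : Finset E) := by
        ext x
        simp only [Finset.mem_insert, Finset.mem_singleton]
        tauto
      rw [e, Finset.card_insert_of_notMem hnot, H.card_four]
    have hle := card_le_of_sub (Fx ⊓ Cn g) {1, z, ι, z * ι, g} (by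
      intro x hx
      simp only [Finset.mem_insert, Finset.mem_singleton] at hx
      rcases hx with rfl | rfl | rfl | rfl | rfl
      · exact one_mem _
      · exact ⟨hFxz, mem_Cn.2 (X.zc _).symm⟩
      · exact ⟨hFxι, mem_Cn.2 (H.hι _).symm⟩
      · exact ⟨mul_mem hFxz hFxι, mem_Cn.2 ((H.central_iff.2 (Or.inr (Or.inr (Or.inr rfl)))) _)⟩
      · exact ⟨hg, mem_Cn.2 rfl⟩)
    rw [h5, hc4] at hle
    omega
  · exact (small 4 (by simpa using (hd.trans (by norm_num : (48 : ℕ) ∣ 2 ^ 4 * 3 * 5)))).elim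
  · exact (small 5 (by simpa using (hd.trans (by norm_num : (32 : ℕ) ∣ 2 ^ 5 * 3 * 5)))).elim
  · ext x
    have hx : x ∈ Fx := by
      by_contra hx
      have h1 : Nat.card Fx = Nat.card E := by rw [hk2, hcard]; norm_num
      have h2 := (Subgroup.card_eq_iff_eq_top Fx).1 h1
      rw [h2] at hx
      exact hx (Subgroup.mem_top x)
    exact hx

/-- A hyperbolic frame. -/
theorem exists_hyp [Finite E] (hcard : Nat.card E = 64) :
    ∃ a₁ a₂ b₁ b₂ : E, a₁ * a₁ = z ∧ a₂ * a₂ = z ∧ b₁ * b₁ = z ∧ b₂ * b₂ = z ∧ Sg a₁ a₂ = 1 ∧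
      Sg b₁ b₂ = 1 ∧ Sg a₁ b₁ = 0 ∧ Sg a₁ b₂ = 0 ∧ Sg a₂ b₁ = 0 ∧ Sg a₂ b₂ = 0 ∧
      (∀ t, Sg t a₁ = 0 → Sg t a₂ = 0 → Sg t b₁ = 0 → Sg t b₂ = 0 → ∀ y, t * y = y * t) := by
  classical
  have X := H.X
  have noncentral : ∀ K : Subgroup E, 4 < Nat.card K → ∃ u ∈ K, ∃ v, Sg u v = 1 := by
    intro K hK
    obtain ⟨u, hu, hu2⟩ := exists_not_mem K {1, z, ι, z * ι} (by rw [H.card_four]; exact hK)
    simp only [Finset.mem_insert, Finset.mem_singleton, not_or] at hu2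
    have hnc : ¬ ∀ y, u * y = y * u := fun h => by
      rcases H.hZ u h with h | h | h | h
      · exact hu2.1 h
      · exact hu2.2.1 h
      · exact hu2.2.2.1 h
      · exact hu2.2.2.2 h
    push Not at hnc
    obtain ⟨v, hv⟩ := hnc
    exact ⟨u, hu, v, (sg_cases X _ _).resolve_left (fun h => hv (sg_eq_zero.1 h))⟩
  obtain ⟨u, -, v, huv⟩ := noncentral ⊤ (by rw [Subgroup.card_top, hcard]; norm_num)
  obtain ⟨a₁, ha₁, ha₁₁⟩ := H.to_sq u
  obtain ⟨a₂, ha₂, ha₂₂⟩ := H.to_sq v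
  have hA : Sg a₁ a₂ = 1 := by
    rw [H.sg_to_sq ha₁, sg_comm, H.sg_to_sq ha₂, sg_comm, huv]
  have hA' : Sg a₂ a₁ = 1 := by rw [sg_comm, hA]
  have c1 := X.card_inf_cen (⊤ : Subgroup E) (p := a₂) (q := a₁) (Subgroup.mem_top _) ((sg_eq_one X).1 hA)
  have c2 := X.card_inf_cen (⊤ ⊓ Cn a₂ : Subgroup E) (p := a₁) (q := a₂)
    ⟨Subgroup.mem_top _, mem_Cn.2 rfl⟩ ((sg_eq_one X).1 hA')
  rw [Subgroup.card_top, hcard] at c1
  set K : Subgroup E := ⊤ ⊓ Cn a₂ ⊓ Cn a₁ with hKdef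
  have hKm : ∀ t, t ∈ K ↔ Sg t a₁ = 0 ∧ Sg t a₂ = 0 := by
    intro t
    simp only [hKdef, Subgroup.mem_inf, Subgroup.mem_top, true_and, mem_Cn, sg_eq_zero]
    tauto
  have hK16 : Nat.card K = 16 := by omega
  obtain ⟨b₀, hb₀, y, hy⟩ := noncentral K (by rw [hK16]; norm_num)
  obtain ⟨hb₀1, hb₀2⟩ := (hKm b₀).1 hb₀
  -- adjust `y`
  obtain ⟨y', hy'1, hy'2, hy'3⟩ : ∃ y', Sg y' a₁ = 0 ∧ Sg y' a₂ = 0 ∧ Sg b₀ y' = 1 := by
    obtain ⟨s₁, hs₁, h1⟩ : ∃ s₁, (s₁ = 1 ∨ s₁ = a₂) ∧ Sg (y * s₁) a₁ = 0 := by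
      obtain ⟨s, hs, hh⟩ := X.exists_adjust ((sg_eq_one X).1 hA') y
      exact ⟨s, hs, sg_eq_zero.2 hh⟩
    obtain ⟨s₂, hs₂, h2⟩ : ∃ s₂, (s₂ = 1 ∨ s₂ = a₁) ∧ Sg (y * s₁ * s₂) a₂ = 0 := by
      obtain ⟨s, hs, hh⟩ := X.exists_adjust ((sg_eq_one X).1 hA) (y * s₁)
      exact ⟨s, hs, sg_eq_zero.2 hh⟩
    refine ⟨y * s₁ * s₂, ?_, h2, ?_⟩
    · rw [sg_mul_left X, h1, zero_add]
      rcases hs₂ with rfl | rfl
      · rw [sg_eq_zero]; simp
      · exact H.sg_self _
    · rw [sg_mul_right X, sg_mul_right X, hy]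
      have e1 : Sg b₀ s₁ = 0 := by
        rcases hs₁ with rfl | rfl
        · exact sg_one_right X _
        · exact hb₀2
      have e2 : Sg b₀ s₂ = 0 := by
        rcases hs₂ with rfl | rfl
        · exact sg_one_right X _
        · exact hb₀1
      rw [e1, e2]
      decide
  obtain ⟨b₁, hb₁, hb₁₁⟩ := H.to_sq b₀
  obtain ⟨b₂, hb₂, hb₂₂⟩ := H.to_sq y'
  have hB : Sg b₁ b₂ = 1 := by
    rw [H.sg_to_sq hb₁, sg_comm, H.sg_to_sq hb₂, sg_comm, hy'3]
  have hB' : Sg b₂ b₁ = 1 := by rw [sg_comm, hB]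
  have r11 : Sg a₁ b₁ = 0 := by rw [sg_comm, H.sg_to_sq hb₁, hb₀1]
  have r21 : Sg a₂ b₁ = 0 := by rw [sg_comm, H.sg_to_sq hb₁, hb₀2]
  have r12 : Sg a₁ b₂ = 0 := by rw [sg_comm, H.sg_to_sq hb₂, hy'1]
  have r22 : Sg a₂ b₂ = 0 := by rw [sg_comm, H.sg_to_sq hb₂, hy'2]
  have hb₁K : b₁ ∈ K := (hKm _).2 ⟨by rw [sg_comm, r11], by rw [sg_comm, r21]⟩
  have hb₂K : b₂ ∈ K := (hKm _).2 ⟨by rw [sg_comm, r12], by rw [sg_comm, r22]⟩
  have c3 := X.card_inf_cen K (p := b₂) (q := b₁) hb₁K ((sg_eq_one X).1 hB)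
  have c4 := X.card_inf_cen (K ⊓ Cn b₂ : Subgroup E) (p := b₁) (q := b₂)
    ⟨hb₂K, mem_Cn.2 rfl⟩ ((sg_eq_one X).1 hB')
  set K₂ : Subgroup E := K ⊓ Cn b₂ ⊓ Cn b₁ with hK₂def
  have hK₂4 : Nat.card K₂ = 4 := by omega
  refine ⟨a₁, a₂, b₁, b₂, ha₁₁, ha₂₂, hb₁₁, hb₂₂, hA, hB, r11, r12, r21, r22, ?_⟩
  intro t t1 t2 t3 t4
  have htK₂ : t ∈ K₂ := by
    simp only [hK₂def, Subgroup.mem_inf, mem_Cn, hKm, sg_eq_zero] at *
    tauto
  apply H.central_iff.2
  by_contra hne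
  have hnot : t ∉ ({1, z, ι, z * ι} : Finset E) := by
    simpa only [Finset.mem_insert, Finset.mem_singleton] using hne
  have h5 : (insert t ({1, z, ι, z * ι} : Finset E)).card = 5 := by
    rw [Finset.card_insert_of_notMem hnot, H.card_four]
  have hcen : ∀ x, (x = 1 ∨ x = z ∨ x = ι ∨ x = z * ι) → x ∈ K₂ := by
    intro x hx
    have hc := H.central_iff.2 hx
    simp only [hK₂def, Subgroup.mem_inf, mem_Cn, hKm, sg_eq_zero]
    exact ⟨⟨⟨hc _, hc _⟩, hc _⟩, hc _⟩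
  have hle := card_le_of_sub K₂ (insert t ({1, z, ι, z * ι} : Finset E)) (by
    intro x hx
    simp only [Finset.mem_insert, Finset.mem_singleton] at hx
    rcases hx with rfl | hx
    · exact htK₂
    · exact hcen x hx)
  rw [h5, hK₂4] at hle
  omega

end Six

/-- Package of a hyperbolic frame. -/
structure Hyp (z ι a₁ a₂ b₁ b₂ : E) : Prop where
  H : Six z ι
  a1 : a₁ * a₁ = z
  a2 : a₂ * a₂ = z
  b1 : b₁ * b₁ = z
  b2 : b₂ * b₂ = z
  aa : Sg a₁ a₂ = 1
  bb : Sg b₁ b₂ = 1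
  r11 : Sg a₁ b₁ = 0
  r12 : Sg a₁ b₂ = 0
  r21 : Sg a₂ b₁ = 0
  r22 : Sg a₂ b₂ = 0
  cen : ∀ t, Sg t a₁ = 0 → Sg t a₂ = 0 → Sg t b₁ = 0 → Sg t b₂ = 0 → ∀ y, t * y = y * t

theorem Six.exists_hyp' {ι : E} (H : Six z ι) [Finite E] (hcard : Nat.card E = 64) :
    ∃ a₁ a₂ b₁ b₂ : E, Hyp z ι a₁ a₂ b₁ b₂ := by
  obtain ⟨a₁, a₂, b₁, b₂, h1, h2, h3, h4, h5, h6, h7, h8, h9, h10, h11⟩ := H.exists_hyp hcard
  exact ⟨a₁, a₂, b₁, b₂, H, h1, h2, h3, h4, h5, h6, h7, h8, h9, h10, h11⟩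

namespace Hyp

variable {ι a₁ a₂ b₁ b₂ : E} (D : Hyp z ι a₁ a₂ b₁ b₂)
include D

/-- Adjustment by `1` or a partner. -/
theorem adjust {p q : E} (h : Sg q p = 1) (t : E) : ∃ s, (s = 1 ∨ s = q) ∧ Sg (t * s) p = 0 := by
  obtain ⟨s, hs, hh⟩ := D.H.X.exists_adjust ((sg_eq_one D.H.X).1 h) t
  exact ⟨s, hs, sg_eq_zero.2 hh⟩

/-- Generation. -/
theorem gen (t : E) : t ∈ closure ({a₁, a₂, b₁, b₂, ι} : Set E) := by
  have X := D.H.X
  set S := closure ({a₁, a₂, b₁, b₂, ι} : Set E) with hS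
  have ha₁ : a₁ ∈ S := subset_closure (by simp)
  have ha₂ : a₂ ∈ S := subset_closure (by simp)
  have hb₁ : b₁ ∈ S := subset_closure (by simp)
  have hb₂ : b₂ ∈ S := subset_closure (by simp)
  have hι : ι ∈ S := subset_closure (by simp)
  have hz : z ∈ S := by
    rw [← D.H.ιι]
    exact mul_mem hι hι
  have hcan : ∀ {x s : E}, x * s ∈ S → s ∈ S → x ∈ S := by
    intro x s h1 h2
    have : x = (x * s) * s⁻¹ := by group
    rw [this]
    exact mul_mem h1 (inv_mem h2)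
  have sym : ∀ {x y : E}, Sg x y = 1 → Sg y x = 1 := fun h => by rw [sg_comm, h]
  have sym0 : ∀ {x y : E}, Sg x y = 0 → Sg y x = 0 := fun h => by rw [sg_comm, h]
  have hmem : ∀ {s q : E}, q ∈ S → (s = 1 ∨ s = q) → s ∈ S := by
    intro s q hq hs
    rcases hs with rfl | rfl
    · exact one_mem _
    · exact hq
  have hone : ∀ x : E, Sg (1 : E) x = 0 := fun x => by rw [sg_eq_zero]; simp
  have zval : ∀ {s q x : E}, (s = 1 ∨ s = q) → Sg q x = 0 → Sg s x = 0 := by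
    intro s q x hs h
    rcases hs with rfl | rfl
    · exact hone x
    · exact h
  obtain ⟨s₁, hs₁, t1⟩ := D.adjust (sym D.aa) t
  obtain ⟨s₂, hs₂, t2⟩ := D.adjust D.aa (t * s₁)
  obtain ⟨s₃, hs₃, t3⟩ := D.adjust (sym D.bb) (t * s₁ * s₂)
  obtain ⟨s₄, hs₄, t4⟩ := D.adjust D.bb (t * s₁ * s₂ * s₃)
  have self : ∀ x : E, Sg x x = 0 := D.H.sg_self
  set w := t * s₁ * s₂ * s₃ * s₄ with hw
  have hcw := D.cen w
    (by
      rw [hw, sg_mul_left X, sg_mul_left X, sg_mul_left X, t1, zval hs₂ (self _),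
        zval hs₃ (sym0 D.r12), zval hs₄ (sym0 D.r11)]
      decide)
    (by
      rw [hw, sg_mul_left X, sg_mul_left X, t2, zval hs₃ (sym0 D.r22), zval hs₄ (sym0 D.r21)]
      decide)
    (by
      rw [hw, sg_mul_left X, t3, zval hs₄ (self _)]
      decide)
    t4
  have hwS : w ∈ S := by
    rcases D.H.hZ w hcw with h | h | h | h <;> rw [h]
    · exact one_mem _
    · exact hz
    · exact hι
    · exact mul_mem hz hι
  exact hcan (hcan (hcan (hcan hwS (hmem hb₁ hs₄)) (hmem hb₂ hs₃)) (hmem ha₁ hs₂)) (hmem ha₂ hs₁)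

/-- The five anticommuting involutions. -/
def five (ι a₁ a₂ b₁ b₂ : E) : Fin 5 → E :=
  ![ι * a₁, ι * a₂, a₁ * a₂ * b₁, a₁ * a₂ * b₂, a₁ * a₂ * (b₁ * b₂)]

theorem five_sq (i : Fin 5) : five ι a₁ a₂ b₁ b₂ i * five ι a₁ a₂ b₁ b₂ i = 1 := by
  have X := D.H.X
  have h3 : (a₁ * a₂) * (a₁ * a₂) = z := by
    rw [X.sq_anti ((sg_eq_one X).1 D.aa), D.a1, D.a2, X.zz, mul_one]
  have hb3 : (b₁ * b₂) * (b₁ * b₂) = z := by
    rw [X.sq_anti ((sg_eq_one X).1 D.bb), D.b1, D.b2, X.zz, mul_one]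
  have ιa : ι * ι = z := D.H.ιι
  have c1 : (a₁ * a₂) * b₁ = b₁ * (a₁ * a₂) := by
    apply sg_eq_zero.1
    rw [sg_mul_left X, D.r11, D.r21]
    decide
  have c2 : (a₁ * a₂) * b₂ = b₂ * (a₁ * a₂) := by
    apply sg_eq_zero.1
    rw [sg_mul_left X, D.r12, D.r22]
    decide
  have c3 : (a₁ * a₂) * (b₁ * b₂) = (b₁ * b₂) * (a₁ * a₂) := by
    apply sg_eq_zero.1
    rw [sg_mul_right X, sg_mul_left X, sg_mul_left X, D.r11, D.r21, D.r12, D.r22]
    decide
  fin_cases i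
  · show (ι * a₁) * (ι * a₁) = 1
    rw [X.sq_comm (D.H.hι a₁).symm, ιa, D.a1, X.zz]
  · show (ι * a₂) * (ι * a₂) = 1
    rw [X.sq_comm (D.H.hι a₂).symm, ιa, D.a2, X.zz]
  · show (a₁ * a₂ * b₁) * (a₁ * a₂ * b₁) = 1
    rw [X.sq_comm c1, h3, D.b1, X.zz]
  · show (a₁ * a₂ * b₂) * (a₁ * a₂ * b₂) = 1
    rw [X.sq_comm c2, h3, D.b2, X.zz]
  · show (a₁ * a₂ * (b₁ * b₂)) * (a₁ * a₂ * (b₁ * b₂)) = 1
    rw [X.sq_comm c3, h3, hb3, X.zz]

theorem five_anti (i j : Fin 5) (hij : i ≠ j) :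
    Sg (five ι a₁ a₂ b₁ b₂ i) (five ι a₁ a₂ b₁ b₂ j) = 1 := by
  have X := D.H.X
  have e1 : Sg a₂ a₁ = 1 := by rw [sg_comm, D.aa]
  have e2 : Sg b₂ b₁ = 1 := by rw [sg_comm, D.bb]
  have e3 : Sg b₁ a₁ = 0 := by rw [sg_comm, D.r11]
  have e4 : Sg b₂ a₁ = 0 := by rw [sg_comm, D.r12]
  have e5 : Sg b₁ a₂ = 0 := by rw [sg_comm, D.r21]
  have e6 : Sg b₂ a₂ = 0 := by rw [sg_comm, D.r22]
  have s1 := D.H.sg_self a₁
  have s2 := D.H.sg_self a₂
  have s3 := D.H.sg_self b₁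
  have s4 := D.H.sg_self b₂
  have hi1 := D.H.sg_ι_left
  have hi2 := D.H.sg_ι_right
  have h1 := D.aa
  have h2 := D.bb
  have h3 := D.r11
  have h4 := D.r12
  have h5 := D.r21
  have h6 := D.r22
  fin_cases i <;> fin_cases j <;> first
    | exact absurd rfl hij
    | (simp only [five, Fin.zero_eta, Fin.isValue, Fin.mk_one, Fin.reduceFinMk, Matrix.cons_val,
        sg_mul_left X, sg_mul_right X, hi1, hi2, s1, s2, s3, s4, e1, e2, e3, e4, e5, e6, h1, h2, h3,
        h4, h5, h6]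
       try decide)

/-- Generation by the five involutions and `ι`. -/
theorem five_gen (t : E) : t ∈ closure (insert ι (Set.range (five ι a₁ a₂ b₁ b₂))) := by
  set S := closure (insert ι (Set.range (five ι a₁ a₂ b₁ b₂))) with hS
  have hι : ι ∈ S := subset_closure (Set.mem_insert _ _)
  have hc : ∀ i, five ι a₁ a₂ b₁ b₂ i ∈ S := fun i =>
    subset_closure (Set.mem_insert_of_mem _ ⟨i, rfl⟩)
  have hcan : ∀ {x s : E}, s * x ∈ S → s ∈ S → x ∈ S := by
    intro x s h1 h2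
    have : x = s⁻¹ * (s * x) := by group
    rw [this]
    exact mul_mem (inv_mem h2) h1
  have ha₁ : a₁ ∈ S := hcan (s := ι) (hc 0) hι
  have ha₂ : a₂ ∈ S := hcan (s := ι) (hc 1) hι
  have ha₃ : a₁ * a₂ ∈ S := mul_mem ha₁ ha₂
  have hb₁ : b₁ ∈ S := hcan (s := a₁ * a₂) (hc 2) ha₃
  have hb₂ : b₂ ∈ S := hcan (s := a₁ * a₂) (hc 3) ha₃
  have hle : closure ({a₁, a₂, b₁, b₂, ι} : Set E) ≤ S := by
    rw [closure_le]
    rintro x (rfl | rfl | rfl | rfl | rfl)
    · exact ha₁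
    · exact ha₂
    · exact hb₁
    · exact hb₂
    · exact hι
  exact hle (D.gen t)

end Hyp

end Cfsg.Agent.Lib.FGStruct.Cliff6
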