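import Cfsg.Agent.Lib.FGStruct.TensorSp
import Cfsg.Agent.Lib.Geo.SpGU
import Cfsg.Agent.Lib.UnitT.OrderThree

/-!
# Skew-adjoint square roots of non-squares on symplectic spaces: abstract part
-/

set_option autoImplicit false
set_option linter.unusedSectionVars false
set_option linter.style.haveILetI false
set_option linter.unusedVariables false
set_option linter.unusedSimpArgs false

open Polynomial Module Matrix
open scoped MatrixGroups

universe u

namespace Cfsg.Agent.Lib.FGStruct.GuSpA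

open Cfsg Cfsg.Agent.Lib.ElusL.Basic Cfsg.Agent.Lib.ElusL.Flag Cfsg.Agent.Lib.ElusL.Cyc
  Cfsg.Agent.Lib.ElusL.Pos Cfsg.Agent.Lib.ElusF.Form Cfsg.Agent.Lib.ElusF.Step
  Cfsg.Agent.Lib.ElusF.Split Cfsg.Agent.Lib.ElusF.SpModel Cfsg.Agent.Lib.ElusF.SpNeg
  Cfsg.Agent.Lib.ElusF.SpPos Cfsg.Agent.Lib.SylowLarge.SpForm

section even

variable {F : Type u} [Field F] {V : Type*} [AddCommGroup V] [Module F V]

/-- A space with an endomorphism squaring to a non-square has even dimension. -/
theorem even_finrank_of_sq [FiniteDimensional F V] {c : F} (hc : ¬ IsSquare c) (Θ : End F V)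
    (hΘ : ∀ v, Θ (Θ v) = c • v) : Even (finrank F V) := by
  classical
  by_contra hodd
  obtain ⟨m, hm⟩ := Nat.not_even_iff_odd.mp hodd
  have hc0 : c ≠ 0 := by
    rintro rfl
    exact hc ⟨0, by simp⟩
  have h1 : Θ * Θ = c • (1 : End F V) := by
    apply LinearMap.ext
    intro v
    simp [hΘ]
  have h2 := congrArg LinearMap.det h1
  rw [map_mul, LinearMap.det_smul, map_one, mul_one, hm] at h2
  apply hc
  refine ⟨LinearMap.det Θ / c ^ m, ?_⟩
  have h3 : c ^ m ≠ 0 := pow_ne_zero _ hc0
  field_simp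
  rw [← pow_two] at h2
  rw [h2]
  ring

theorem comm_aeval {T Θ : End F V} (hcomm : ∀ v, Θ (T v) = T (Θ v)) (P : F[X]) (v : V) :
    Θ (Polynomial.aeval T P v) = Polynomial.aeval T P (Θ v) := by
  have h1 : ∀ (n : ℕ) (v : V), Θ ((T ^ n) v) = (T ^ n) (Θ v) := by
    intro n
    induction n with
    | zero => intro v; rfl
    | succ n ih =>
      intro v
      rw [pow_succ, Module.End.mul_apply, Module.End.mul_apply, ih, hcomm]
  induction P using Polynomial.induction_on' with
  | add P Q hP hQ => simp only [map_add, LinearMap.add_apply, hP, hQ]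
  | monomial n a =>
    simp only [aeval_monomial, Module.End.mul_apply, Module.algebraMap_end_apply, map_smul, h1]

/-- Kernels of polynomials in an operator commuting with `Θ` have even dimension. -/
theorem Dk_even [FiniteDimensional F V] {c : F} (hc : ¬ IsSquare c) {T Θ : End F V}
    (hcomm : ∀ v, Θ (T v) = T (Θ v)) (hΘ : ∀ v, Θ (Θ v) = c • v) (P : F[X]) : Even (Dk T P) := by
  unfold Dk
  have hU : ∀ v ∈ LinearMap.ker (Polynomial.aeval T P), Θ v ∈ LinearMap.ker (Polynomial.aeval T P) := by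
    intro v hv
    rw [LinearMap.mem_ker] at hv ⊢
    rw [← comm_aeval hcomm, hv, map_zero]
  exact even_finrank_of_sq hc (Θ.restrict hU) (fun v => by
    apply Subtype.ext
    simp [LinearMap.restrict_apply, hΘ])

end even

section frame

variable {F : Type u} [Field F] [Fintype F] {V : Type*} [AddCommGroup V] [Module F V]
  [FiniteDimensional F V] {Bf : LinearMap.BilinForm F V} {Θ : End F V} {c : F}

/-- The trivial model of a nondegenerate alternating form. -/
theorem rz_one (halt : Bf.IsAlt) (hnd : Bf.Nondegenerate) : Rz Bf (1 : End F V) 1 :=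
  ⟨halt, hnd, fun u v => rfl, by simp⟩

/-- A vector with `B w (Θ w) = 1` in a nondegenerate invariant subspace. -/
theorem exists_unit (hodd : Fintype.card F % 2 = 1) (hF2 : (2 : F) ≠ 0) (halt : Bf.IsAlt)
    (hc0 : c ≠ 0) (hΘ : ∀ v, Θ (Θ v) = c • v) (hadj : ∀ u v, Bf (Θ u) v = - Bf u (Θ v))
    {U : Submodule F V} (hU : Nd (fun u v => Bf u v) U) (hUi : ∀ v ∈ U, Θ v ∈ U)
    (hpos : 0 < finrank F U) : ∃ w ∈ U, Bf w (Θ w) = 1 := by
  have hneg : ∀ x y, Bf x y = - Bf y x := fun x y => (halt.neg_eq y x).symm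
  by_cases hex : ∃ u ∈ U, Bf u (Θ u) ≠ 0
  · obtain ⟨u, huU, hu⟩ := hex
    obtain ⟨α, β, hαβ⟩ := FiniteField.exists_root_sum_quadratic (R := F) (f := X ^ 2)
      (g := C (-c) * X ^ 2 - C (Bf u (Θ u))⁻¹) (by simp) (by
        rw [degree_sub_eq_left_of_degree_lt]
        · rw [degree_C_mul_X_pow 2 (neg_ne_zero.mpr hc0)]
          rfl
        · rw [degree_C_mul_X_pow 2 (neg_ne_zero.mpr hc0)]
          exact lt_of_le_of_lt degree_C_le (by decide)) hodd
    simp only [eval_pow, eval_X, eval_sub, eval_C, eval_mul] at hαβ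
    have hsum : α ^ 2 - c * β ^ 2 = (Bf u (Θ u))⁻¹ := by linear_combination hαβ
    refine ⟨α • u + β • Θ u, U.add_mem (U.smul_mem _ huU) (U.smul_mem _ (hUi _ huU)), ?_⟩
    have h1 : Bf u u = 0 := halt u
    have h2 : Bf (Θ u) (Θ u) = 0 := halt _
    have h3 : Bf (Θ u) u = - Bf u (Θ u) := hneg _ _
    simp only [map_add, map_smul, hΘ, LinearMap.add_apply, LinearMap.smul_apply, smul_eq_mul, h1, h2, h3]
    have h5 := inv_mul_cancel₀ hu
    rw [← hsum] at h5
    linear_combination h5
  · exfalso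
    push Not at hex
    obtain ⟨⟨v₀, hv₀⟩, hv0⟩ : ∃ v : U, v ≠ 0 := by
      haveI := Module.nontrivial_of_finrank_pos (R := F) hpos
      exact exists_ne 0
    have hv0' : v₀ ≠ 0 := fun h => hv0 (Subtype.ext h)
    have hkey : ∀ x ∈ U, Bf (Θ v₀) x = 0 := by
      intro x hx
      have h1 := hex (x + v₀) (U.add_mem hx hv₀)
      have h2 := hex x hx
      have h3 := hex v₀ hv₀
      rw [map_add, map_add, LinearMap.add_apply, map_add, map_add, h2, h3, add_zero, zero_add] at h1
      have h4 : Bf v₀ (Θ x) = - Bf (Θ v₀) x := by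
        rw [hadj]
        ring
      have h5 : Bf x (Θ v₀) = - Bf (Θ v₀) x := hneg _ _
      rw [h4, h5] at h1
      have h6 : (2 : F) * Bf (Θ v₀) x = 0 := by
        have : (2 : F) * Bf (Θ v₀) x = - (- Bf (Θ v₀) x + - Bf (Θ v₀) x) := by ring
        rw [this, h1, neg_zero]
      exact (mul_eq_zero.mp h6).resolve_left hF2
    have h5 : Θ v₀ = 0 := hU _ (hUi _ hv₀) hkey
    apply hv0'
    have h6 := hΘ v₀
    rw [h5, map_zero] at h6
    have h7 := (smul_eq_zero.mp h6.symm).resolve_left hc0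
    exact h7

/-- Frames adapted to `Θ`, inside a nondegenerate invariant subspace. -/
theorem exists_frame_sub (hodd : Fintype.card F % 2 = 1) (hF2 : (2 : F) ≠ 0) (halt : Bf.IsAlt)
    (hnd : Bf.Nondegenerate) (hc0 : c ≠ 0) (hΘ : ∀ v, Θ (Θ v) = c • v)
    (hadj : ∀ u v, Bf (Θ u) v = - Bf u (Θ v)) :
    ∀ (s : ℕ) (U : Submodule F V), Nd (fun u v => Bf u v) U → (∀ v ∈ U, Θ v ∈ U) →
      finrank F U = 2 * s →
      ∃ u : Fin s → V, (∀ i, u i ∈ U) ∧ (∀ i j, Bf (u i) (u j) = 0) ∧
        ∀ i j, Bf (u i) (Θ (u j)) = if i = j then 1 else 0 := by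
  classical
  have hB := Rz.fm (rz_one halt hnd)
  have hneg : ∀ x y, Bf x y = - Bf y x := fun x y => (halt.neg_eq y x).symm
  intro s
  induction s with
  | zero =>
    intro U _ _ _
    exact ⟨fun i => i.elim0, fun i => i.elim0, fun i => i.elim0, fun i => i.elim0⟩
  | succ s ih =>
    intro U hU hUi hd
    obtain ⟨w, hwU, hw⟩ := exists_unit hodd hF2 halt hc0 hΘ hadj hU hUi (by omega)
    set P : Submodule F V := Submodule.span F {w, Θ w} with hP
    have hPU : P ≤ U := by
      rw [hP, Submodule.span_le]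
      rintro x (rfl | rfl)
      · exact hwU
      · exact hUi _ hwU
    have hmemP : ∀ x ∈ P, ∃ a b : F, x = a • w + b • Θ w := by
      intro x hx
      obtain ⟨a, b, rfl⟩ := Submodule.mem_span_pair.mp hx
      exact ⟨a, b, rfl⟩
    have hΘw : Bf (Θ w) w = -1 := by rw [hneg, hw]
    have hPnd : Nd (fun u v => Bf u v) P := by
      intro x hx hx0
      obtain ⟨a, b, rfl⟩ := hmemP x hx
      have h1 := hx0 w (Submodule.subset_span (by simp))
      have h2 := hx0 (Θ w) (Submodule.subset_span (by simp))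
      simp only [map_add, map_smul, LinearMap.add_apply, LinearMap.smul_apply, smul_eq_mul, halt w,
        hΘw, hw, halt (Θ w)] at h1 h2
      have hb : b = 0 := by linear_combination -h1
      have ha : a = 0 := by linear_combination h2
      rw [ha, hb, zero_smul, zero_smul, add_zero]
    have hPfin : finrank F P = 2 := by
      have hli : LinearIndependent F ![w, Θ w] := by
        rw [LinearIndependent.pair_iff]
        intro a b hab
        have h1 := congrArg (fun x => Bf x w) hab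
        have h2 := congrArg (fun x => Bf x (Θ w)) hab
        simp only [map_add, map_smul, LinearMap.add_apply, LinearMap.smul_apply, smul_eq_mul, halt w,
          hΘw, hw, halt (Θ w), map_zero, LinearMap.zero_apply] at h1 h2
        exact ⟨by linear_combination h2, by linear_combination -h1⟩
      have h7 : ({w, Θ w} : Set V) = Set.range ![w, Θ w] := by
        ext x
        simp [Fin.exists_fin_two, eq_comm, or_comm]
      rw [hP, h7, finrank_span_eq_card hli]
      simp
    have hdim := hB.finrank_inf_orth hU hPU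
    have hU' : Nd (fun u v => Bf u v) (U ⊓ hB.orth P) := hB.nd_inf_orth hU hPnd hPU
    have hPi : ∀ x ∈ P, Θ x ∈ P := by
      intro x hx
      obtain ⟨a, b, rfl⟩ := hmemP x hx
      simp only [map_add, map_smul, hΘ]
      exact P.add_mem (P.smul_mem _ (Submodule.subset_span (by simp)))
        (P.smul_mem _ (P.smul_mem _ (Submodule.subset_span (by simp))))
    have hU'i : ∀ v ∈ U ⊓ hB.orth P, Θ v ∈ U ⊓ hB.orth P := by
      rintro v ⟨hv1, hv2⟩
      refine ⟨hUi _ hv1, ?_⟩
      intro x hx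
      have h1 := hv2 (Θ x) (hPi x hx)
      change Bf (Θ x) v = 0 at h1
      change Bf x (Θ v) = 0
      rw [hadj] at h1
      exact neg_eq_zero.mp h1
    obtain ⟨u', h1, h2, h3⟩ := ih _ hU' hU'i (by omega)
    have hw1 : ∀ i, Bf w (u' i) = 0 := fun i => (h1 i).2 w (Submodule.subset_span (by simp))
    have hw2 : ∀ i, Bf (Θ w) (u' i) = 0 := fun i => (h1 i).2 (Θ w) (Submodule.subset_span (by simp))
    have hw3 : ∀ i, Bf (u' i) w = 0 := fun i => by rw [hneg, hw1, neg_zero]
    have hw4 : ∀ i, Bf (u' i) (Θ w) = 0 := fun i => by rw [hneg, hw2, neg_zero]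
    have hw5 : ∀ i, Bf w (Θ (u' i)) = 0 := fun i => by
      have h4 := hw2 i
      rw [hadj] at h4
      exact neg_eq_zero.mp h4
    let u : Fin (s + 1) → V := Fin.snoc (α := fun _ => V) u' w
    have hlast : u (Fin.last s) = w := Fin.snoc_last (α := fun _ => V) _ _
    have hcast : ∀ k : Fin s, u k.castSucc = u' k := fun k => Fin.snoc_castSucc (α := fun _ => V) _ _ k
    refine ⟨u, ?_, ?_, ?_⟩
    · intro j
      refine Fin.lastCases ?_ (fun k => ?_) j
      · rw [hlast]
        exact hwU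
      · rw [hcast]
        exact (h1 k).1
    · intro i j
      refine Fin.lastCases ?_ (fun k => ?_) i
      · refine Fin.lastCases ?_ (fun k' => ?_) j
        · rw [hlast]
          exact halt w
        · rw [hlast, hcast]
          exact hw1 k'
      · refine Fin.lastCases ?_ (fun k' => ?_) j
        · rw [hlast, hcast]
          exact hw3 k
        · rw [hcast, hcast]
          exact h2 k k'
    · intro i j
      refine Fin.lastCases ?_ (fun k => ?_) i
      · refine Fin.lastCases ?_ (fun k' => ?_) j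
        · rw [hlast, if_pos rfl]
          exact hw
        · rw [hlast, hcast, if_neg (Fin.castSucc_lt_last k').ne', hw5]
      · refine Fin.lastCases ?_ (fun k' => ?_) j
        · rw [hlast, hcast, if_neg (Fin.castSucc_lt_last k).ne, hw4]
        · rw [hcast, hcast, h3 k k']
          simp only [Fin.castSucc_inj]

/-- Frames adapted to `Θ`. -/
theorem exists_frame (hodd : Fintype.card F % 2 = 1) (hF2 : (2 : F) ≠ 0) (halt : Bf.IsAlt)
    (hnd : Bf.Nondegenerate) (hc0 : c ≠ 0) (hΘ : ∀ v, Θ (Θ v) = c • v)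
    (hadj : ∀ u v, Bf (Θ u) v = - Bf u (Θ v)) {d : ℕ} (hdim : finrank F V = 2 * d) :
    ∃ u : Fin d → V, (∀ i j, Bf (u i) (u j) = 0) ∧
      ∀ i j, Bf (u i) (Θ (u j)) = if i = j then 1 else 0 := by
  have hB := Rz.fm (rz_one halt hnd)
  obtain ⟨u, -, h2, h3⟩ := exists_frame_sub hodd hF2 halt hnd hc0 hΘ hadj d ⊤ hB.nd_top (fun _ _ => trivial)
    (by rw [finrank_top, hdim])
  exact ⟨u, h2, h3⟩

end frame

section adj

variable {F : Type u} [Field F] [Fintype F] {q r : ℕ} {V : Type*} [AddCommGroup V] [Module F V]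
  [FiniteDimensional F V] {B : LinearMap.BilinForm F V} {T Θ : End F V} {c : F}

/-- For even `j`, `q ^ j ≡ 1` modulo `2 (q - 1)`. -/
theorem exists_pow_even (hq : 2 ≤ q) (hodd : Odd q) {j : ℕ} (hj : Even j) :
    ∃ N, q ^ j = 2 * (q - 1) * N + 1 := by
  obtain ⟨t, rfl⟩ := hj
  obtain ⟨m, hm⟩ := hodd
  induction t with
  | zero => exact ⟨0, by simp⟩
  | succ t ih =>
    obtain ⟨N, hN⟩ := ih
    refine ⟨N * q ^ 2 + (m + 1), ?_⟩
    have h1 : q ^ (t + 1 + (t + 1)) = q ^ (t + t) * q ^ 2 := by ring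
    rw [h1, hN]
    subst hm
    simp only [Nat.add_sub_cancel]
    ring

/-- On a kernel of a self-dual factor of degree `2 j` with `j` even there can be no `Θ`. -/
theorem no_even (h : Rz B T r) (hq : Fintype.card F = q) (hodd : Odd q) (hr : r ≠ 0) (hrF : (r : F) ≠ 0)
    {j : ℕ} (hj : Even j) (hj0 : 0 < j) (hrq : r ∣ q ^ j + 1) {g : F[X]} (hg : Irreducible g)
    (hgr : g ∣ X ^ r - 1) (hdeg : g.natDegree = 2 * j) (hD : Dk T g = 2 * j) (hF2 : (2 : F) ≠ 0)
    (hc0 : c ≠ 0) (hcomm : ∀ v, Θ (T v) = T (Θ v)) (hΘ : ∀ v, Θ (Θ v) = c • v)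
    (hadj : ∀ u v, B (Θ u) v = - B u (Θ v)) : False := by
  classical
  have hq2 : 2 ≤ q := by
    rw [← hq]
    exact Fintype.one_lt_card
  set U := LinearMap.ker (Polynomial.aeval T g) with hU
  have hnd : Nd (fun u v => B u v) U := nd_fac h hq hr hrF hrq hgr
  have hfin : finrank F U = 2 * j := hD
  obtain ⟨⟨u, huU⟩, hu0⟩ : ∃ u : U, u ≠ 0 := by
    haveI := Module.nontrivial_of_finrank_pos (R := F) (by rw [hfin]; omega : 0 < finrank F U)
    exact exists_ne 0
  have hu0' : u ≠ 0 := fun h => hu0 (Subtype.ext h)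
  have hUi : Inv T U := inv_ker T g
  have hcyc : cyc T u = U := by
    apply Submodule.eq_of_le_of_finrank_eq (cyc_le hUi huU)
    rw [cyc_finrank hg hu0' huU, hdeg, hfin]
  have hΘU : ∀ v ∈ U, Θ v ∈ U := by
    intro v hv
    rw [hU, LinearMap.mem_ker] at hv ⊢
    rw [← comm_aeval hcomm, hv, map_zero]
  have hΘu : Θ u ∈ cyc T u := by
    rw [hcyc]
    exact hΘU u huU
  obtain ⟨P, hP⟩ := mem_cyc.mp hΘu
  have hPU : ∀ v ∈ U, Polynomial.aeval T P v = Θ v := by
    intro v hv
    rw [← hcyc] at hv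
    obtain ⟨Q, rfl⟩ := mem_cyc.mp hv
    rw [comm_aeval hcomm, ← hP, ← Module.End.mul_apply, ← Module.End.mul_apply, ← map_mul, ← map_mul,
      mul_comm]
  have hpowU : ∀ (n : ℕ) (v : V), v ∈ U → ((Polynomial.aeval T P) ^ n) v = (Θ ^ n) v := by
    intro n
    induction n with
    | zero => intro v _; rfl
    | succ n ih =>
      intro v hv
      rw [pow_succ, pow_succ, Module.End.mul_apply, Module.End.mul_apply, hPU v hv, ih _ (hΘU v hv)]
  -- the power
  obtain ⟨N, hN⟩ := exists_pow_even hq2 hodd hj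
  have hΘpow : ∀ v, (Θ ^ (q ^ j)) v = Θ v := by
    intro v
    have h1 : ∀ (s : ℕ) (v : V), (Θ ^ (2 * s)) v = c ^ s • v := by
      intro s
      induction s with
      | zero => intro v; simp
      | succ s ih =>
        intro v
        rw [show 2 * (s + 1) = 2 * s + 2 by ring, pow_add, Module.End.mul_apply, pow_two,
          Module.End.mul_apply, hΘ, map_smul, ih, smul_smul, pow_succ, mul_comm]
    have h2 : c ^ ((q - 1) * N) = 1 := by
      rw [pow_mul, ← hq, FiniteField.pow_card_sub_one_eq_one c hc0, one_pow]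
    rw [hN, pow_succ, Module.End.mul_apply, mul_assoc, h1, h2, one_smul]
  have hT1 : T ^ (r - 1) = T ^ (q ^ j) := by
    obtain ⟨s, hs⟩ := hrq
    have hs0 : s ≠ 0 := by
      rintro rfl
      omega
    obtain ⟨s', rfl⟩ : ∃ s', s = s' + 1 := ⟨s - 1, by omega⟩
    have h1 : q ^ j = r * s' + (r - 1) := by
      have : r * (s' + 1) = r * s' + r := by ring
      omega
    rw [h1, pow_add, pow_mul, h.pow, one_pow, one_mul]
  have hkey : ∀ a ∈ U, ∀ b ∈ U, B a (Θ b) = 0 := by
    intro a ha b hb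
    have h1 : B (Θ a) b = B a (Θ b) := by
      rw [← hPU a ha, adj_aeval h hr, hT1, aeval_pow_card hq, hpowU _ b hb, hΘpow]
    rw [hadj] at h1
    have h2 : (2 : F) * B a (Θ b) = 0 := by linear_combination -h1
    exact (mul_eq_zero.mp h2).resolve_left hF2
  apply hu0'
  apply hnd u huU
  intro v hv
  have h1 : v = Θ (c⁻¹ • Θ v) := by
    rw [map_smul, hΘ, smul_smul, inv_mul_cancel₀ hc0, one_smul]
  change B u v = 0
  rw [h1]
  exact hkey u huU _ (U.smul_mem _ (hΘU v hv))

end adj

end Cfsg.Agent.Lib.FGStruct.GuSpA
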