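import Cfsg.Agent.Lib.FGStruct.GuSpA

/-!
# The centraliser of a skew-adjoint square root of a non-square is a unitary group
-/

set_option autoImplicit false
set_option linter.unusedSectionVars false
set_option linter.style.haveILetI false
set_option linter.unusedVariables false
set_option linter.unusedSimpArgs false

namespace Cfsg.Agent.Lib.FGStruct.GuSpB

open Matrix Cfsg Module Polynomial
open Cfsg.Agent.Lib.Classical.HermBasic Cfsg.Agent.Lib.Classical.HermBridge
open Cfsg.Agent.Lib.Classical.HermOrders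
open Cfsg.Agent.Lib.HermCount.Field Cfsg.Agent.Lib.HermCount.Space
open Cfsg.Agent.Lib.UnitT.Embed

universe u v w

section data

variable {K : Type u} {F : Type w} [Field K] [Fintype K] [Field F] [Fintype F] [Algebra F K] {q : ℕ}
variable {V : Type v} [AddCommGroup V] [Module F V] [Module K V] [IsScalarTower F K V]

/-- The data of the construction. -/
structure TData (ϑ : K) (c : F) (f : V →ₗ[F] V →ₗ[F] F) : Prop where
  sq : ϑ * ϑ = algebraMap F K c
  span : ∀ k : K, ∃ a b : F, k = algebraMap F K a + algebraMap F K b * ϑ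
  ind : ∀ a b : F, algebraMap F K a + algebraMap F K b * ϑ = 0 → a = 0 ∧ b = 0
  nd : ∀ x, (∀ y, f x y = 0) → x = 0
  alt : ∀ x, f x x = 0
  adj : ∀ u v, f (ϑ • u) v = - f u (ϑ • v)

variable {ϑ : K} {c : F} {f : V →ₗ[F] V →ₗ[F] F}

theorem TData.neg (D : TData ϑ c f) (u v : V) : f u v = - f v u := by
  have h := D.alt (u + v)
  simp only [map_add, LinearMap.add_apply, D.alt, zero_add, add_zero] at h
  linear_combination h

theorem smul_alg (a : F) (v : V) : algebraMap F K a • v = a • v := algebraMap_smul K a v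

/-- The Hermitian form. -/
noncomputable def herm (ϑ : K) (f : V →ₗ[F] V →ₗ[F] F) (u v : V) : K :=
  algebraMap F K (f (ϑ • u) v) + algebraMap F K (f u v) * ϑ

theorem TData.sq_smul (D : TData ϑ c f) (u : V) : ϑ • ϑ • u = c • u := by
  rw [smul_smul, D.sq, smul_alg]

theorem TData.herm_left (D : TData ϑ c f) (u v : V) : herm ϑ f (ϑ • u) v = ϑ * herm ϑ f u v := by
  unfold herm
  rw [D.sq_smul]
  simp only [map_smul, LinearMap.smul_apply, smul_eq_mul, map_mul]
  have h := D.sq
  linear_combination (-algebraMap F K (f u v)) * h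

theorem TData.herm_add_left (u u' v : V) : herm ϑ f (u + u') v = herm ϑ f u v + herm ϑ f u' v := by
  unfold herm
  simp only [smul_add, map_add, LinearMap.add_apply]
  ring

theorem TData.herm_smul_left (D : TData ϑ c f) (k : K) (u v : V) : herm ϑ f (k • u) v = k * herm ϑ f u v := by
  obtain ⟨a, b, rfl⟩ := D.span k
  have hF : ∀ (a : F) (u : V), herm ϑ f (a • u) v = algebraMap F K a * herm ϑ f u v := by
    intro a u
    unfold herm
    rw [smul_comm ϑ a u]
    simp only [map_smul, LinearMap.smul_apply, smul_eq_mul, map_mul]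
    ring
  rw [add_smul, TData.herm_add_left, smul_alg, hF, mul_smul, smul_alg, hF, D.herm_left]
  ring

theorem TData.herm_conj (D : TData ϑ c f) (hK : Fintype.card K = q ^ 2) (hF : Fintype.card F = q)
    (hϑ : ϑ ^ q = - ϑ) (u v : V) : herm ϑ f v u = frobHom hK (herm ϑ f u v) := by
  unfold herm
  have h1 : frobHom hK ϑ = - ϑ := by
    rw [frobHom_apply, hϑ]
  have h2 : ∀ a : F, frobHom hK (algebraMap F K a) = algebraMap F K a := fun a => frob_alg hF a
  rw [map_add, map_mul, h1, h2, h2]
  have h3 : f (ϑ • v) u = - f u (ϑ • v) := D.neg _ _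
  rw [← D.adj] at h3
  have h4 : f v u = - f u v := D.neg _ _
  rw [h3, h4]
  simp only [map_neg]
  ring

theorem TData.herm_form (D : TData ϑ c f) (hK : Fintype.card K = q ^ 2) (hF : Fintype.card F = q)
    (hϑ : ϑ ^ q = - ϑ) : HForm (frobHom hK) (herm ϑ f : V → V → K) where
  add_left := TData.herm_add_left
  smul_left := D.herm_smul_left
  conj := D.herm_conj hK hF hϑ
  nd := by
    intro x hx
    apply D.nd
    intro y
    exact (D.ind _ _ (hx y)).2

theorem TData.iff_form (D : TData ϑ c f) (g : V ≃ₗ[K] V) :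
    (∀ x y, herm ϑ f (g x) (g y) = herm ϑ f x y) ↔ ∀ x y, f (g x) (g y) = f x y := by
  constructor
  · intro h x y
    have h1 := h x y
    unfold herm at h1
    rw [← map_smul g ϑ x] at h1
    have h2 : algebraMap F K (f (g (ϑ • x)) (g y) - f (ϑ • x) y) +
        algebraMap F K (f (g x) (g y) - f x y) * ϑ = 0 := by
      simp only [map_sub]
      linear_combination h1
    exact sub_eq_zero.1 (D.ind _ _ h2).2
  · intro h x y
    unfold herm
    rw [← map_smul g ϑ x, h, h]

/-- A form-preserving `F`-linear map commuting with `ϑ` is `K`-linear. -/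
noncomputable def toKLin (D : TData ϑ c f) (g : V ≃ₗ[F] V) (hg : ∀ v, g (ϑ • v) = ϑ • g v) : V ≃ₗ[K] V :=
  { g with
    map_smul' := by
      intro k v
      obtain ⟨a, b, rfl⟩ := D.span k
      show g ((algebraMap F K a + algebraMap F K b * ϑ) • v) =
        (algebraMap F K a + algebraMap F K b * ϑ) • g v
      rw [add_smul, add_smul, map_add, mul_smul, mul_smul, smul_alg, smul_alg, smul_alg, smul_alg,
        map_smul, map_smul, hg] }

/-- The group of `F`-isometries of `f` commuting with `ϑ` is the unitary group of the Hermitian form. -/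
noncomputable def centEquiv (D : TData ϑ c f) :
    {g : V ≃ₗ[F] V // (∀ x y, f (g x) (g y) = f x y) ∧ ∀ v, g (ϑ • v) = ϑ • g v} ≃
      uGroup (herm ϑ f : V → V → K) where
  toFun g := ⟨toKLin D g.1 g.2.2, (D.iff_form _).2 (fun x y => g.2.1 x y)⟩
  invFun g := ⟨g.1.restrictScalars F, (D.iff_form _).1 g.2, fun v => map_smul g.1 ϑ v⟩
  left_inv g := by
    apply Subtype.ext
    ext v
    rfl
  right_inv g := by
    apply Subtype.ext
    ext v
    rfl

/-- Order of the group of isometries commuting with `ϑ`. -/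
theorem card_cent (D : TData ϑ c f) (hK : Fintype.card K = q ^ 2) (hF : Fintype.card F = q)
    (hϑ : ϑ ^ q = - ϑ) [FiniteDimensional F V] {m : ℕ} (hV : finrank F V = 2 * m) :
    Nat.card {g : V ≃ₗ[F] V // (∀ x y, f (g x) (g y) = f x y) ∧ ∀ v, g (ϑ • v) = ϑ • g v} =
      q ^ (m * (m - 1) / 2) *
      ∏ i ∈ Finset.range m, (if Even i then q ^ (i + 1) + 1 else q ^ (i + 1) - 1) := by
  classical
  rw [Nat.card_congr (centEquiv D)]
  have S := D.herm_form hK hF hϑ
  haveI : Module.Finite F K := Module.Finite.of_finite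
  have hfr : finrank K V = m := by
    have h1 := Module.finrank_mul_finrank F K V
    rw [finrank_eq_two hK hF, hV] at h1
    omega
  haveI : Finite V := Module.finite_of_finite F
  have HS : HSpace q (herm ϑ f : V → V → K) := ⟨S.add_left, S.smul_left, S.conj, S.nd⟩
  obtain ⟨ψ, hψ⟩ := Cfsg.Agent.Lib.Witt.HermModel.exists_model HS hK m hfr
  rw [← Nat.card_congr (uGroupEquiv ψ hψ).toEquiv]
  exact card_uGroup hK m

end data

theorem pow_eq_neg {K F : Type*} [Field K] [Field F] [Algebra F K] {ϑ : K} {c : F} {q : ℕ} (hsq : ϑ * ϑ = algebraMap F K c)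
    (h1 : q = 2 * (q / 2) + 1) (hcpow : c ^ (q / 2) = -1) : ϑ ^ q = - ϑ := by
  have h2 : ∀ s : ℕ, ϑ ^ (2 * s) = algebraMap F K (c ^ s) := by
    intro s
    induction s with
    | zero => simp
    | succ s ih =>
      rw [show 2 * (s + 1) = 2 * s + 1 + 1 by ring, pow_succ, pow_succ, ih, mul_assoc, hsq, pow_succ, map_mul]
  calc ϑ ^ q = ϑ ^ (2 * (q / 2) + 1) := by rw [← h1]
    _ = ϑ ^ (2 * (q / 2)) * ϑ := pow_succ _ _
    _ = - ϑ := by rw [h2, hcpow, map_neg, map_one]; ring

section endo

variable {F : Type u} [Field F] [Fintype F] {q : ℕ} {V : Type v} [AddCommGroup V] [Module F V]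
  [FiniteDimensional F V]

/-- The algebra map from the quadratic extension to the endomorphisms. -/
noncomputable def psi (c : F) (Θ : End F V) (hΘ : Polynomial.aeval Θ (X ^ 2 - C c : F[X]) = 0) :
    AdjoinRoot (X ^ 2 - C c : F[X]) →ₐ[F] End F V :=
  Ideal.Quotient.liftₐ (Ideal.span {(X ^ 2 - C c : F[X])}) (Polynomial.aeval Θ) (by
    intro a ha
    obtain ⟨b, rfl⟩ := Ideal.mem_span_singleton.mp ha
    rw [map_mul, hΘ, zero_mul])

theorem psi_root (c : F) (Θ : End F V) (hΘ : Polynomial.aeval Θ (X ^ 2 - C c : F[X]) = 0) :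
    psi c Θ hΘ (AdjoinRoot.root (X ^ 2 - C c : F[X])) = Θ := by
  change (Polynomial.aeval Θ) (X : F[X]) = Θ
  exact aeval_X Θ

/-- Order of the centraliser. -/
theorem card_cent_end (hF : Fintype.card F = q) (hodd : Odd q) (f : V →ₗ[F] V →ₗ[F] F) {Θ : End F V} {c : F}
    (hc : ¬ IsSquare c) (hΘ : ∀ v, Θ (Θ v) = c • v) (hadj : ∀ u v, f (Θ u) v = - f u (Θ v))
    (halt : ∀ x, f x x = 0) (hnd : ∀ x, (∀ y, f x y = 0) → x = 0) {m : ℕ} (hV : finrank F V = 2 * m) :
    Nat.card {g : V ≃ₗ[F] V // (∀ x y, f (g x) (g y) = f x y) ∧ ∀ v, g (Θ v) = Θ (g v)} =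
      q ^ (m * (m - 1) / 2) *
      ∏ i ∈ Finset.range m, (if Even i then q ^ (i + 1) + 1 else q ^ (i + 1) - 1) := by
  classical
  have hc0 : c ≠ 0 := by
    rintro rfl
    exact hc ⟨0, by simp⟩
  have hnsq : ∀ b : F, b ^ 2 ≠ c := by
    intro b hb
    exact hc ⟨b, by rw [← hb, sq]⟩
  have hirr : Irreducible (X ^ 2 - C c : F[X]) := X_pow_sub_C_irreducible_of_prime Nat.prime_two hnsq
  haveI : Fact (Irreducible (X ^ 2 - C c : F[X])) := ⟨hirr⟩
  let K := AdjoinRoot (X ^ 2 - C c : F[X])
  have hne : (X ^ 2 - C c : F[X]) ≠ 0 := hirr.ne_zero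
  have hfinK : finrank F K = 2 := by
    rw [(AdjoinRoot.powerBasis hne).finrank, AdjoinRoot.powerBasis_dim]
    exact natDegree_X_pow_sub_C
  haveI : FiniteDimensional F K := (AdjoinRoot.powerBasis hne).finite
  haveI : Finite K := Module.finite_of_finite F
  letI : Fintype K := Fintype.ofFinite K
  have hK : Fintype.card K = q ^ 2 := by
    rw [Module.card_eq_pow_finrank (K := F) (V := K), hfinK, hF]
  have hΘ0 : Polynomial.aeval Θ (X ^ 2 - C c : F[X]) = 0 := by
    apply LinearMap.ext
    intro v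
    simp [sq, hΘ, Module.algebraMap_end_apply]
  let ψ := psi c Θ hΘ0
  letI : Module K V := Module.compHom V (ψ : K →+* End F V)
  have hsmul : ∀ (k : K) (v : V), k • v = ψ k v := fun k v => rfl
  haveI : IsScalarTower F K V := by
    refine ⟨fun a k v => ?_⟩
    rw [hsmul, hsmul, map_smul, LinearMap.smul_apply]
  let ϑ : K := AdjoinRoot.root (X ^ 2 - C c : F[X])
  have hψϑ : ∀ v : V, ϑ • v = Θ v := by
    intro v
    rw [hsmul]
    exact congrArg (fun S : End F V => S v) (psi_root c Θ hΘ0)
  have hsq : ϑ * ϑ = algebraMap F K c := by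
    have h1 : AdjoinRoot.mk (X ^ 2 - C c : F[X]) (X ^ 2 - C c) = 0 := AdjoinRoot.mk_self
    rw [map_sub, map_pow, AdjoinRoot.mk_X, AdjoinRoot.mk_C] at h1
    rw [← sq]
    exact sub_eq_zero.mp h1
  have hind : ∀ a b : F, algebraMap F K a + algebraMap F K b * ϑ = 0 → a = 0 ∧ b = 0 := by
    intro a b hab
    have hb : b = 0 := by
      by_contra hb
      have h1 : ϑ = algebraMap F K (- a / b) := by
        have h2 : algebraMap F K b ≠ 0 := by
          rwa [Ne, map_eq_zero]
        rw [map_div₀, map_neg, eq_div_iff h2]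
        linear_combination hab
      rw [h1, ← map_mul] at hsq
      have h3 := (algebraMap F K).injective hsq
      exact hc ⟨_, h3.symm⟩
    subst hb
    rw [map_zero, zero_mul, add_zero] at hab
    exact ⟨(map_eq_zero _).mp hab, rfl⟩
  have hspan : ∀ k : K, ∃ a b : F, k = algebraMap F K a + algebraMap F K b * ϑ := by
    have hli : LinearIndependent F ![(1 : K), ϑ] := by
      rw [LinearIndependent.pair_iff]
      intro a b hab
      apply hind a b
      rw [← hab, Algebra.smul_def, Algebra.smul_def, mul_one]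
    have htop := hli.span_eq_top_of_card_eq_finrank (by simp [hfinK])
    intro k
    have hk : k ∈ Submodule.span F (Set.range ![(1 : K), ϑ]) := by
      rw [htop]
      exact Submodule.mem_top
    have h7 : Set.range ![(1 : K), ϑ] = {(1 : K), ϑ} := by
      ext x
      simp [Fin.exists_fin_two, eq_comm, or_comm]
    rw [h7] at hk
    obtain ⟨a, b, hab⟩ := Submodule.mem_span_pair.mp hk
    refine ⟨a, b, ?_⟩
    rw [← hab, Algebra.smul_def, Algebra.smul_def, mul_one]
  have hF2 : ringChar F ≠ 2 := by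
    intro h
    have h1 := FiniteField.even_card_of_char_two h
    rw [hF] at h1
    exact (Nat.not_even_iff_odd.mpr hodd) (Nat.even_iff.mpr h1)
  have hcpow : c ^ (q / 2) = -1 := by
    rcases FiniteField.pow_dichotomy hF2 hc0 with h | h
    · exact absurd ((FiniteField.isSquare_iff hF2 hc0).mpr h) hc
    · rw [hF] at h
      exact h
  have hϑq : ϑ ^ q = - ϑ := by
    have h1 : q = 2 * (q / 2) + 1 := by
      obtain ⟨s, hs⟩ := hodd
      omega
    exact pow_eq_neg hsq h1 hcpow
  have D : TData ϑ c f := {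
    sq := hsq
    span := hspan
    ind := hind
    nd := hnd
    alt := halt
    adj := fun u v => by rw [hψϑ, hψϑ, hadj] }
  have h := card_cent D hK hF hϑq hV
  rw [← h]
  apply Nat.card_congr
  apply Equiv.subtypeEquivRight
  intro g
  simp only [hψϑ]

end endo

end Cfsg.Agent.Lib.FGStruct.GuSpB
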