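import Cfsg.Agent.Lib.FGStruct.GuSpB
import Cfsg.Agent.Lib.Geo.SpGU

/-!
# Elements of prime order of symplectic groups and normalisers of quadratic fields of unitary type
-/

set_option autoImplicit false
set_option linter.unusedSectionVars false
set_option linter.style.haveILetI false
set_option linter.unusedVariables false
set_option linter.unusedSimpArgs false

open Polynomial Module Matrix
open scoped MatrixGroups

universe u

namespace Cfsg.Agent.Lib.FGStruct.GuSpC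

open Cfsg Cfsg.Agent.Lib.ElusL.Basic Cfsg.Agent.Lib.ElusL.Flag Cfsg.Agent.Lib.ElusL.Cyc
  Cfsg.Agent.Lib.ElusL.Pos Cfsg.Agent.Lib.ElusF.Form Cfsg.Agent.Lib.ElusF.Step
  Cfsg.Agent.Lib.ElusF.Split Cfsg.Agent.Lib.ElusF.SpModel Cfsg.Agent.Lib.ElusF.SpNeg
  Cfsg.Agent.Lib.ElusF.SpPos Cfsg.Agent.Lib.ElusF.SpMain Cfsg.Agent.Lib.Classical.SympForm
  Cfsg.Agent.Lib.SylowLarge.SpForm Cfsg.Agent.Lib.FGStruct.GuSpA Cfsg.Agent.Lib.FGStruct.TensorSp
  Cfsg.Agent.Lib.Geo.Basic Cfsg.Agent.Lib.Geo.SpBase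

variable {F : Type u} [Field F] [Fintype F] {d : ℕ}

local notation "Mt" => Matrix (Fin d ⊕ Fin d) (Fin d ⊕ Fin d) F

/-- The standard skew-adjoint element. -/
def th0 (d : ℕ) (c : F) : Matrix (Fin d ⊕ Fin d) (Fin d ⊕ Fin d) F :=
  Matrix.fromBlocks 0 1 (c • 1) 0

section normal

variable {θ : Matrix (Fin d ⊕ Fin d) (Fin d ⊕ Fin d) F} {c : F}

theorem sq_matrix (hθ : ∀ x, θ *ᵥ (θ *ᵥ x) = c • x) : θ * θ = c • 1 := by
  apply Matrix.ext_of_mulVec_single
  intro j
  rw [← Matrix.mulVec_mulVec, hθ, Matrix.smul_mulVec, Matrix.one_mulVec]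

/-- Normal form of a skew-adjoint square root of a non-square. -/
theorem exists_normal (hodd : Fintype.card F % 2 = 1) (hF2 : (2 : F) ≠ 0) (hc0 : c ≠ 0)
    (hθ : ∀ x, θ *ᵥ (θ *ᵥ x) = c • x)
    (hadj : ∀ x y, sympForm d F (θ *ᵥ x) y = - sympForm d F x (θ *ᵥ y)) :
    ∃ A : Matrix.symplecticGroup (Fin d) F,
      θ * (A : Matrix (Fin d ⊕ Fin d) (Fin d ⊕ Fin d) F) = (A : Matrix (Fin d ⊕ Fin d) (Fin d ⊕ Fin d) F) * th0 d c := by
  classical
  let L : End F (Fin d ⊕ Fin d → F) := Matrix.toLin' θ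
  have hL : ∀ v, L v = θ *ᵥ v := fun v => rfl
  obtain ⟨u, hu1, hu2⟩ := GuSpA.exists_frame (Bf := sympBilin d F) (Θ := L) hodd hF2 sympBilin_isAlt sympBilin_nondegenerate hc0
    (fun v => hθ v) (fun x y => hadj x y) (finrank_triv d)
  have hfr : Cfsg.Agent.Lib.Classical.AltCount.IsFrame (sympBilin d F) d (fun i => (u i, L (u i))) := by
    intro i j
    refine ⟨hu1 i j, ?_, hu2 i j⟩
    simp only [sympBilin_apply]
    change sympForm d F (θ *ᵥ u i) (θ *ᵥ u j) = 0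
    rw [hadj, hθ]
    have h1 : sympForm d F (u i) (c • u j) = c * sympBilin d F (u i) (u j) := by
      rw [← smul_eq_mul, ← map_smul]
      rfl
    rw [h1, hu1, mul_zero, neg_zero]
  obtain ⟨A, hA⟩ := sp_of_frame _ hfr
  refine ⟨A, ?_⟩
  apply Matrix.ext_of_mulVec_single
  intro s
  rw [← Matrix.mulVec_mulVec, ← Matrix.mulVec_mulVec]
  rcases s with i | i
  · have hJ : th0 d c *ᵥ (Pi.single (Sum.inl i) 1 : Fin d ⊕ Fin d → F) =
        c • (Pi.single (Sum.inr i) 1 : Fin d ⊕ Fin d → F) := by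
      funext s
      rcases s with j | j <;> simp [th0, Matrix.one_apply, Pi.single_apply, Matrix.mulVec, dotProduct,
        Fintype.sum_sum_type, eq_comm]
    rw [hJ, Matrix.mulVec_smul, (hA i).1, (hA i).2]
    exact hθ _
  · have hJ : th0 d c *ᵥ (Pi.single (Sum.inr i) 1 : Fin d ⊕ Fin d → F) =
        (Pi.single (Sum.inl i) 1 : Fin d ⊕ Fin d → F) := by
      funext s
      rcases s with j | j <;> simp [th0, Matrix.one_apply, Pi.single_apply, Matrix.mulVec, dotProduct,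
        Fintype.sum_sum_type, eq_comm]
    rw [hJ, (hA i).1, (hA i).2]
    rfl

end normal

section normalizer

variable {θ : Matrix (Fin d ⊕ Fin d) (Fin d ⊕ Fin d) F} {c : F}
  {K : Subalgebra F (Matrix (Fin d ⊕ Fin d) (Fin d ⊕ Fin d) F)}

/-- Elements multiplying `θ` by a sign normalise `K`. -/
theorem mem_normalizer_of (hK : ∀ k, k ∈ K ↔ ∃ a b : F, k = a • (1 : Mt) + b • θ)
    (y : GL (Fin d ⊕ Fin d) F) (ε : F)
    (h1 : (y : Mt) * θ * ((y⁻¹ : GL (Fin d ⊕ Fin d) F) : Mt) = ε • θ)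
    (h2 : ((y⁻¹ : GL (Fin d ⊕ Fin d) F) : Mt) * θ * (y : Mt) = ε • θ) :
    y ∈ Cfsg.Geo.subalgebraNormalizer K := by
  intro k
  have e1 : (y : Mt) * ((y⁻¹ : GL (Fin d ⊕ Fin d) F) : Mt) = 1 := by
    rw [← Units.val_mul, mul_inv_cancel, Units.val_one]
  have e2 : ((y⁻¹ : GL (Fin d ⊕ Fin d) F) : Mt) * (y : Mt) = 1 := by
    rw [← Units.val_mul, inv_mul_cancel, Units.val_one]
  constructor
  · intro hk
    obtain ⟨a, b, rfl⟩ := (hK k).mp hk
    refine (hK _).mpr ⟨a, b * ε, ?_⟩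
    rw [mul_add, add_mul, Matrix.mul_smul, Matrix.mul_smul, Matrix.smul_mul, Matrix.smul_mul, Matrix.mul_one, e1, h1,
      smul_smul]
  · intro hk
    obtain ⟨a, b, hab⟩ := (hK _).mp hk
    refine (hK _).mpr ⟨a, b * ε, ?_⟩
    have h3 : k = ((y⁻¹ : GL (Fin d ⊕ Fin d) F) : Mt) * ((y : Mt) * k * ((y⁻¹ : GL (Fin d ⊕ Fin d) F) : Mt)) * (y : Mt) := by
      simp only [Matrix.mul_assoc]
      rw [e2, Matrix.mul_one, ← Matrix.mul_assoc, e2, Matrix.one_mul]
    rw [h3, hab, mul_add, add_mul, Matrix.mul_smul, Matrix.mul_smul, Matrix.smul_mul, Matrix.smul_mul, Matrix.mul_one, e2, h2,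
      smul_smul]

/-- Elements of odd order normalising `K` centralise `θ`. -/
theorem comm_of_mem [Nonempty (Fin d ⊕ Fin d)] (hK : ∀ k, k ∈ K ↔ ∃ a b : F, k = a • (1 : Mt) + b • θ)
    (hsq : θ * θ = c • 1) (hnsq : ∀ a : F, a * a ≠ c) (hF2 : (2 : F) ≠ 0) (y : GL (Fin d ⊕ Fin d) F)
    (hy : y ∈ Cfsg.Geo.subalgebraNormalizer K) {r : ℕ} (hr : Odd r) {z : F}
    (hyr : (((y ^ r : GL (Fin d ⊕ Fin d) F) : Mt)) = z • (1 : Mt)) :
    (y : Mt) * θ = θ * (y : Mt) := by
  have hne : (1 : Mt) ≠ 0 := one_ne_zero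
  have hc0 : c ≠ 0 := by
    rintro rfl
    exact hnsq 0 (by simp)
  have hθK : θ ∈ K := (hK θ).mpr ⟨0, 1, by simp⟩
  have e1 : (y : Mt) * ((y⁻¹ : GL (Fin d ⊕ Fin d) F) : Mt) = 1 := by
    rw [← Units.val_mul, mul_inv_cancel, Units.val_one]
  have e2 : ((y⁻¹ : GL (Fin d ⊕ Fin d) F) : Mt) * (y : Mt) = 1 := by
    rw [← Units.val_mul, inv_mul_cancel, Units.val_one]
  obtain ⟨a, b, hab⟩ := (hK _).mp ((hy θ).mp hθK)
  set τ : Mt := (y : Mt) * θ * ((y⁻¹ : GL (Fin d ⊕ Fin d) F) : Mt) with hτ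
  have hτ2 : τ * τ = c • 1 := by
    have h1 : τ * τ = (y : Mt) * (θ * θ) * ((y⁻¹ : GL (Fin d ⊕ Fin d) F) : Mt) := by
      rw [hτ]
      simp only [Matrix.mul_assoc]
      rw [← Matrix.mul_assoc ((y⁻¹ : GL (Fin d ⊕ Fin d) F) : Mt) (y : Mt), e2, Matrix.one_mul]
    rw [h1, hsq, Matrix.mul_smul, Matrix.smul_mul, Matrix.mul_one, e1]
  have hindep : ∀ u v : F, u • (1 : Mt) + v • θ = 0 → u = 0 ∧ v = 0 := by
    intro u v huv
    have hv : v = 0 := by
      by_contra hv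
      have h1 : θ = (- u / v) • (1 : Mt) := by
        have h2 : v • θ = (- u) • (1 : Mt) := by
          rw [neg_smul]
          exact eq_neg_of_add_eq_zero_right huv
        calc θ = v⁻¹ • (v • θ) := by rw [smul_smul, inv_mul_cancel₀ hv, one_smul]
          _ = _ := by rw [h2, smul_smul]; congr 1; field_simp
      rw [h1, Matrix.smul_mul, Matrix.mul_smul, Matrix.one_mul, smul_smul] at hsq
      have h3 := smul_left_injective F hne hsq
      exact hnsq _ h3
    subst hv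
    rw [zero_smul, add_zero] at huv
    exact ⟨(smul_eq_zero.mp huv).resolve_right hne, rfl⟩
  have hexp : ((a * a + b * b * c - c) • (1 : Mt)) + (2 * a * b) • θ = 0 := by
    have h1 : (a • (1 : Mt) + b • θ) * (a • (1 : Mt) + b • θ) = c • 1 := by
      rw [← hab]
      exact hτ2
    have h2 : (a • (1 : Mt) + b • θ) * (a • (1 : Mt) + b • θ) =
        (a * a + b * b * c) • (1 : Mt) + (2 * a * b) • θ := by
      simp only [add_mul, mul_add, Matrix.smul_mul, Matrix.mul_smul, Matrix.one_mul, Matrix.mul_one, hsq,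
        smul_smul]
      module
    rw [h2] at h1
    have h3 : ((a * a + b * b * c - c) • (1 : Mt)) + (2 * a * b) • θ =
        ((a * a + b * b * c) • (1 : Mt) + (2 * a * b) • θ) - c • 1 := by module
    rw [h3, h1, sub_self]
  obtain ⟨h3, h4⟩ := hindep _ _ hexp
  have hb0 : b ≠ 0 := by
    rintro rfl
    apply hnsq a
    linear_combination h3
  have ha0 : a = 0 := by
    have h5 : (2 * b) * a = 0 := by linear_combination h4
    exact (mul_eq_zero.mp h5).resolve_left (mul_ne_zero hF2 hb0)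
  subst ha0
  have hbb : b * b = 1 := by
    have h5 : (b * b - 1) * c = 0 := by linear_combination h3
    have h6 := (mul_eq_zero.mp h5).resolve_right hc0
    linear_combination h6
  have hrY : τ * (y : Mt) = (y : Mt) * θ := by
    rw [hτ, Matrix.mul_assoc, e2, Matrix.mul_one]
  rw [zero_smul, zero_add] at hab
  rcases mul_self_eq_one_iff.mp hbb with rfl | rfl
  · rw [one_smul] at hab
    rw [← hrY, hab]
  · exfalso
    have hY : (y : Mt) * θ = - (θ * (y : Mt)) := by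
      rw [← hrY, hab, neg_one_smul, Matrix.neg_mul]
    have hn : ∀ n : ℕ, (((y ^ n : GL (Fin d ⊕ Fin d) F)) : Mt) * θ =
        (-1 : F) ^ n • (θ * (((y ^ n : GL (Fin d ⊕ Fin d) F)) : Mt)) := by
      intro n
      induction n with
      | zero => simp
      | succ n ih =>
        rw [pow_succ y, Units.val_mul, Matrix.mul_assoc, hY, Matrix.mul_neg, ← Matrix.mul_assoc, ih, Matrix.smul_mul,
          Matrix.mul_assoc, pow_succ (-1 : F)]
        module
    have h5 := hn r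
    rw [hr.neg_one_pow, hyr, Matrix.smul_mul, Matrix.one_mul, Matrix.mul_smul, Matrix.mul_one, neg_one_smul] at h5
    have hz : z ≠ 0 := by
      rintro rfl
      rw [zero_smul] at hyr
      exact (y ^ r).ne_zero hyr
    have hθ0 : θ ≠ 0 := by
      rintro rfl
      rw [Matrix.zero_mul] at hsq
      exact (smul_ne_zero hc0 hne) hsq.symm
    have h6 : (2 * z) • θ = 0 := by
      have : (2 * z) • θ = z • θ + z • θ := by module
      rw [this]
      nth_rw 1 [h5]
      simp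
    exact (smul_ne_zero (mul_ne_zero hF2 hz) hθ0) h6

end normalizer

section bwd

variable {c : F}

/-- Rank of a diagonal difference. -/
theorem Dk_toLin (M : Mt) : Dk (Matrix.toLin' M) (X - 1 : F[X]) = 2 * d - (M - 1).rank := by
  classical
  have h1 : Polynomial.aeval (Matrix.toLin' M) (X - 1 : F[X]) = Matrix.toLin' (M - 1) := by
    simp [Matrix.toLin'_one, map_sub]
    rfl
  unfold Dk
  rw [h1]
  have h2 := LinearMap.finrank_range_add_finrank_ker (Matrix.toLin' (M - 1))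
  rw [finrank_triv] at h2
  have h3 : finrank F (LinearMap.range (Matrix.toLin' (M - 1))) = (M - 1).rank := by
    rfl
  omega

/-- The involution with prescribed fixed space. -/
def eps (d l : ℕ) (j : Fin d) : F := if (j : ℕ) < l then 1 else -1

/-- The diagonal involution. -/
def yInv (d l : ℕ) : Matrix (Fin d ⊕ Fin d) (Fin d ⊕ Fin d) F :=
  Matrix.diagonal (Sum.elim (eps d l) (eps d l))

theorem eps_sq (l : ℕ) (j : Fin d) : (eps d l j : F) * eps d l j = 1 := by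
  unfold eps
  split_ifs <;> simp

theorem yInv_mul (l : ℕ) : (yInv d l : Mt) * yInv d l = 1 := by
  unfold yInv
  rw [Matrix.diagonal_mul_diagonal, ← Matrix.diagonal_one]
  congr 1
  funext s
  rcases s with j | j <;> exact eps_sq l j

theorem yInv_mulVec (l : ℕ) (v : Fin d ⊕ Fin d → F) (s : Fin d ⊕ Fin d) :
    (yInv d l *ᵥ v) s = Sum.elim (eps d l) (eps d l) s * v s := by
  unfold yInv
  rw [Matrix.mulVec_diagonal]

theorem yInv_mem (l : ℕ) : (yInv d l : Mt) ∈ Matrix.symplecticGroup (Fin d) F := by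
  rw [mem_symplecticGroup_iff]
  intro u v
  rw [sympForm_eq_sum, sympForm_eq_sum]
  refine Finset.sum_congr rfl fun i _ => ?_
  simp only [yInv_mulVec, Sum.elim_inl, Sum.elim_inr]
  have h := eps_sq (F := F) l i
  linear_combination (u (Sum.inr i) * v (Sum.inl i) - u (Sum.inl i) * v (Sum.inr i)) * h

theorem yInv_comm (l : ℕ) : (yInv d l : Mt) * th0 d c = th0 d c * yInv d l := by
  ext s t
  rcases s with i | i <;> rcases t with j | j <;>
    simp [yInv, th0, Matrix.diagonal_mul, Matrix.mul_diagonal, Matrix.one_apply]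
  · by_cases h : i = j
    · subst h
      simp
    · simp [h]
  · by_cases h : i = j
    · subst h
      simp [mul_comm]
    · simp [h]

theorem card_lt {l : ℕ} (hl : l ≤ d) : Fintype.card {j : Fin d // (j : ℕ) < l} = l := by
  have h : Function.Bijective (fun i : Fin l => (⟨Fin.castLE hl i, i.2⟩ : {j : Fin d // (j : ℕ) < l})) := by
    constructor
    · intro a b hab
      have := congrArg (fun x : {j : Fin d // (j : ℕ) < l} => ((x : Fin d) : ℕ)) hab
      exact Fin.ext this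
    · rintro ⟨j, hj⟩
      exact ⟨⟨j, hj⟩, rfl⟩
  rw [← Fintype.card_of_bijective h, Fintype.card_fin]

theorem rank_yInv (hF2 : (2 : F) ≠ 0) {l : ℕ} (hl : l ≤ d) : ((yInv d l : Mt) - 1).rank = 2 * (d - l) := by
  classical
  have h1 : (yInv d l : Mt) - 1 = Matrix.diagonal (fun s => Sum.elim (eps d l) (eps d l) s - 1) := by
    unfold yInv
    rw [← Matrix.diagonal_one, Matrix.diagonal_sub]
  rw [h1, Matrix.rank_diagonal, Fintype.card_congr (Equiv.subtypeSum), Fintype.card_sum]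
  have hne : ∀ j : Fin d, ((eps d l j : F) - 1 ≠ 0) ↔ ¬ ((j : ℕ) < l) := by
    intro j
    unfold eps
    split_ifs with h
    · simp [h]
    · simp only [h, not_false_eq_true, iff_true]
      intro h2
      apply hF2
      linear_combination -h2
  have h2 : Fintype.card {j : Fin d // (eps d l j : F) - 1 ≠ 0} = d - l := by
    rw [Fintype.card_congr (Equiv.subtypeEquivRight hne), Fintype.card_subtype_compl, card_lt hl,
      Fintype.card_fin]
  have h4 : ∀ (I : Fintype {a : Fin d // (eps d l a : F) - 1 ≠ 0}),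
      @Fintype.card {a : Fin d // (eps d l a : F) - 1 ≠ 0} I = d - l := by
    intro I
    convert h2
  change @Fintype.card {a : Fin d // (eps d l a : F) - 1 ≠ 0} _ + @Fintype.card {a : Fin d // (eps d l a : F) - 1 ≠ 0} _ = _
  rw [h4]
  omega

/-- The semilinear element of square `-1`. -/
def yNeg (d : ℕ) (a b c : F) : Matrix (Fin d ⊕ Fin d) (Fin d ⊕ Fin d) F :=
  Matrix.fromBlocks ((-a) • 1) (b • 1) ((-(b * c)) • 1) (a • 1)

theorem yNeg_mul {a b : F} (hab : a ^ 2 - c * b ^ 2 = -1) : (yNeg d a b c : Mt) * yNeg d a b c = -1 := by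
  unfold yNeg
  rw [Matrix.fromBlocks_multiply, ← Matrix.fromBlocks_one, Matrix.fromBlocks_neg]
  simp only [Matrix.smul_mul, Matrix.mul_smul, Matrix.one_mul, smul_smul, ← add_smul]
  have h1 : (-a * -a + -(b * c) * b) = -1 := by linear_combination hab
  have h2 : (b * -a + a * b) = 0 := by ring
  have h3 : (-a * -(b * c) + -(b * c) * a) = 0 := by ring
  have h4 : (b * -(b * c) + a * a) = -1 := by linear_combination hab
  rw [h1, h2, h3, h4]
  simp

theorem yNeg_anti (a b : F) : (yNeg d a b c : Mt) * th0 d c = - (th0 d c * yNeg d a b c) := by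
  unfold yNeg th0
  rw [Matrix.fromBlocks_multiply, Matrix.fromBlocks_multiply, Matrix.fromBlocks_neg]
  simp only [Matrix.smul_mul, Matrix.mul_smul, Matrix.one_mul, Matrix.mul_zero, Matrix.zero_mul, add_zero,
    zero_add, smul_smul, smul_zero]
  congr 1 <;> module

theorem yNeg_mulVec_inl (a b : F) (v : Fin d ⊕ Fin d → F) (i : Fin d) :
    (yNeg d a b c *ᵥ v) (Sum.inl i) = -a * v (Sum.inl i) + b * v (Sum.inr i) := by
  simp [yNeg, Matrix.mulVec, dotProduct, Fintype.sum_sum_type, Matrix.one_apply, Matrix.smul_apply]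

theorem yNeg_mulVec_inr (a b : F) (v : Fin d ⊕ Fin d → F) (i : Fin d) :
    (yNeg d a b c *ᵥ v) (Sum.inr i) = -(b * c) * v (Sum.inl i) + a * v (Sum.inr i) := by
  simp [yNeg, Matrix.mulVec, dotProduct, Fintype.sum_sum_type, Matrix.one_apply, Matrix.smul_apply]

theorem yNeg_mem {a b : F} (hab : a ^ 2 - c * b ^ 2 = -1) : (yNeg d a b c : Mt) ∈ Matrix.symplecticGroup (Fin d) F := by
  rw [mem_symplecticGroup_iff]
  intro u v
  rw [sympForm_eq_sum, sympForm_eq_sum]
  refine Finset.sum_congr rfl fun i _ => ?_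
  rw [yNeg_mulVec_inl, yNeg_mulVec_inl, yNeg_mulVec_inr, yNeg_mulVec_inr]
  linear_combination (u (Sum.inl i) * v (Sum.inr i) - u (Sum.inr i) * v (Sum.inl i)) * hab

/-- Symplectic matrices as invertible matrices. -/
def sGL (A : Matrix.symplecticGroup (Fin d) F) : GL (Fin d ⊕ Fin d) F :=
  ⟨(A : Mt), ((A⁻¹ : Matrix.symplecticGroup (Fin d) F) : Mt),
    congrArg Subtype.val (mul_inv_cancel A), congrArg Subtype.val (inv_mul_cancel A)⟩

theorem sGL_val (A : Matrix.symplecticGroup (Fin d) F) : ((sGL A : GL (Fin d ⊕ Fin d) F) : Mt) = (A : Mt) := rfl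

theorem sGL_inv_val (A : Matrix.symplecticGroup (Fin d) F) :
    (((sGL A)⁻¹ : GL (Fin d ⊕ Fin d) F) : Mt) = ((A⁻¹ : Matrix.symplecticGroup (Fin d) F) : Mt) := rfl

theorem sGL_mem (A : Matrix.symplecticGroup (Fin d) F) : sGL A ∈ Cfsg.spGL d F := by
  rw [mem_spGL_iff]
  exact (mem_symplecticGroup_iff _).1 A.2

theorem conj_norm {θ : Mt} {K : Subalgebra F Mt} (hK : ∀ k, k ∈ K ↔ ∃ a b : F, k = a • (1 : Mt) + b • θ)
    (A : Matrix.symplecticGroup (Fin d) F) (hA : θ * (A : Mt) = (A : Mt) * th0 d c)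
    (Y₀ : Matrix.symplecticGroup (Fin d) F) (ε : F) (hε : ε * ε = 1)
    (h : (Y₀ : Mt) * th0 d c = ε • (th0 d c * (Y₀ : Mt))) :
    sGL (A * Y₀ * A⁻¹) ∈ Cfsg.Geo.subalgebraNormalizer K := by
  set Y := sGL (A * Y₀ * A⁻¹) with hY
  have e₁ : ((A⁻¹ : Matrix.symplecticGroup (Fin d) F) : Mt) * (A : Mt) = 1 :=
    congrArg Subtype.val (inv_mul_cancel A)
  have e₂ : (A : Mt) * ((A⁻¹ : Matrix.symplecticGroup (Fin d) F) : Mt) = 1 :=
    congrArg Subtype.val (mul_inv_cancel A)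
  have hYv : (Y : Mt) = (A : Mt) * (Y₀ : Mt) * ((A⁻¹ : Matrix.symplecticGroup (Fin d) F) : Mt) := rfl
  have hθ : θ = (A : Mt) * th0 d c * ((A⁻¹ : Matrix.symplecticGroup (Fin d) F) : Mt) := by
    rw [← hA, Matrix.mul_assoc, e₂, Matrix.mul_one]
  have hcomm : (Y : Mt) * θ = ε • (θ * (Y : Mt)) := by
    rw [hYv, hθ]
    have h1 : (A : Mt) * (Y₀ : Mt) * ((A⁻¹ : Matrix.symplecticGroup (Fin d) F) : Mt) *
        ((A : Mt) * th0 d c * ((A⁻¹ : Matrix.symplecticGroup (Fin d) F) : Mt)) =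
        (A : Mt) * ((Y₀ : Mt) * th0 d c) * ((A⁻¹ : Matrix.symplecticGroup (Fin d) F) : Mt) := by
      simp only [Matrix.mul_assoc]
      rw [← Matrix.mul_assoc ((A⁻¹ : Matrix.symplecticGroup (Fin d) F) : Mt) (A : Mt), e₁, Matrix.one_mul]
    have h2 : (A : Mt) * th0 d c * ((A⁻¹ : Matrix.symplecticGroup (Fin d) F) : Mt) *
        ((A : Mt) * (Y₀ : Mt) * ((A⁻¹ : Matrix.symplecticGroup (Fin d) F) : Mt)) =
        (A : Mt) * (th0 d c * (Y₀ : Mt)) * ((A⁻¹ : Matrix.symplecticGroup (Fin d) F) : Mt) := by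
      simp only [Matrix.mul_assoc]
      rw [← Matrix.mul_assoc ((A⁻¹ : Matrix.symplecticGroup (Fin d) F) : Mt) (A : Mt), e₁, Matrix.one_mul]
    rw [h1, h2, h, Matrix.mul_smul, Matrix.smul_mul]
  have e3 : (Y : Mt) * ((Y⁻¹ : GL (Fin d ⊕ Fin d) F) : Mt) = 1 := by
    rw [← Units.val_mul, mul_inv_cancel, Units.val_one]
  have e4 : ((Y⁻¹ : GL (Fin d ⊕ Fin d) F) : Mt) * (Y : Mt) = 1 := by
    rw [← Units.val_mul, inv_mul_cancel, Units.val_one]
  refine mem_normalizer_of hK Y ε ?_ ?_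
  · rw [hcomm, Matrix.smul_mul, Matrix.mul_assoc, e3, Matrix.mul_one]
  · have h3 : ε • (Y : Mt) * θ = θ * (Y : Mt) := by
      rw [Matrix.smul_mul, hcomm, smul_smul, hε, one_smul]
    rw [Matrix.mul_assoc, ← h3, Matrix.smul_mul, Matrix.mul_smul, ← Matrix.mul_assoc, e4, Matrix.one_mul]

theorem finish {θ : Mt} {K : Subalgebra F Mt} (hK : ∀ k, k ∈ K ↔ ∃ a b : F, k = a • (1 : Mt) + b • θ)
    (A : Matrix.symplecticGroup (Fin d) F) (hA : θ * (A : Mt) = (A : Mt) * th0 d c)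
    (Y₀ : Matrix.symplecticGroup (Fin d) F) (ε : F) (hε : ε * ε = 1)
    (h : (Y₀ : Mt) * th0 d c = ε • (th0 d c * (Y₀ : Mt))) {x : GL (Fin d ⊕ Fin d) F}
    (B : Matrix.symplecticGroup (Fin d) F) (hB : (x : Mt) * (B : Mt) = (B : Mt) * (Y₀ : Mt)) :
    ∃ g ∈ Cfsg.spGL d F, g⁻¹ * x * g ∈ Cfsg.Geo.subalgebraNormalizer K := by
  have e₁ : ((A⁻¹ : Matrix.symplecticGroup (Fin d) F) : Mt) * (A : Mt) = 1 :=
    congrArg Subtype.val (inv_mul_cancel A)
  have h1 : (x : Mt) * (((B * A⁻¹ : Matrix.symplecticGroup (Fin d) F)) : Mt) =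
      ((B * A⁻¹ : Matrix.symplecticGroup (Fin d) F) : Mt) * ((sGL (A * Y₀ * A⁻¹) : GL (Fin d ⊕ Fin d) F) : Mt) := by
    change (x : Mt) * ((B : Mt) * ((A⁻¹ : Matrix.symplecticGroup (Fin d) F) : Mt)) =
      ((B : Mt) * ((A⁻¹ : Matrix.symplecticGroup (Fin d) F) : Mt)) *
        ((A : Mt) * (Y₀ : Mt) * ((A⁻¹ : Matrix.symplecticGroup (Fin d) F) : Mt))
    rw [← Matrix.mul_assoc, hB]
    simp only [Matrix.mul_assoc]
    rw [← Matrix.mul_assoc ((A⁻¹ : Matrix.symplecticGroup (Fin d) F) : Mt) (A : Mt), e₁, Matrix.one_mul]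
  obtain ⟨g, hg, hgy⟩ := conj_mem _ h1
  exact ⟨g, hg, by rw [hgy]; exact conj_norm hK A hA Y₀ ε hε h⟩

/-- The backward implication. -/
theorem bwd (p : ℕ) [hpp : Fact p.Prime] [CharP F p] {q : ℕ} (hq : Fintype.card F = q) (hodd : Odd q) (hd : 2 ≤ d)
    (K : Subalgebra F Mt) (hK : Cfsg.Geo.IsFieldSubalgebra 2 K)
    (hKf : Cfsg.Geo.IsAdjointClosedFor (Cfsg.sympForm d F) K) (hKns : ¬ Cfsg.Geo.IsSelfAdjointFor (Cfsg.sympForm d F) K) :
    ∀ x ∈ Cfsg.spGL d F, (∃ z : F, ((x ^ 2 : GL (Fin d ⊕ Fin d) F) : Mt) = z • (1 : Mt)) →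
      ∃ g ∈ Cfsg.spGL d F, g⁻¹ * x * g ∈ Cfsg.Geo.subalgebraNormalizer K := by
  classical
  rintro x hx ⟨z, hz⟩
  have hF2 : (2 : F) ≠ 0 := two_ne_zero_of_odd p hq hodd
  have hcard : Fintype.card F % 2 = 1 := by
    rw [hq]
    exact Nat.odd_iff.mp hodd
  obtain ⟨θ, c, hstr, hKc⟩ := Cfsg.Agent.Lib.Geo.SpGU.exists_kstr (isSymplecticForm_sympForm d) K hK hKf hKns hF2
  have hc0 : c ≠ 0 := by
    rintro rfl
    exact hstr.nsq 0 (by simp)
  obtain ⟨A, hA⟩ := exists_normal hcard hF2 hc0 hstr.sq hstr.adj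
  have hiso := (mem_spGL_iff d x).mp hx
  set Xm : Mt := (x : Mt) with hXd
  have hX2 : Xm * Xm = z • 1 := by
    rw [← hz, Units.val_pow_eq_pow_val, pow_two]
  let L : End F (Fin d ⊕ Fin d → F) := Matrix.toLin' Xm
  have hL : ∀ v, L v = Xm *ᵥ v := fun v => rfl
  have hLr : L ^ 2 = z • 1 := by
    apply LinearMap.ext
    intro v
    rw [pow_two, Module.End.mul_apply, hL, hL, Matrix.mulVec_mulVec, hX2]
    simp [Matrix.smul_mulVec]
  have hfm := Rz.fm (Rz.triv (F := F) d 2)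
  have hz2 : z ^ 2 = 1 := Cfsg.Agent.Lib.ElusF.SpTwo.scalar_sq hfm (T := L) (fun u v => hiso u v) hLr
    (by rw [finrank_triv]; omega)
  have hz3 : (z - 1) * (z + 1) = 0 := by linear_combination hz2
  rcases mul_eq_zero.mp hz3 with hz1 | hz1
  · -- involutions
    have hz1' : z = 1 := sub_eq_zero.mp hz1
    subst hz1'
    rw [one_smul] at hX2
    have hRz : Rz (sympBilin d F) L 2 := ⟨sympBilin_isAlt, sympBilin_nondegenerate, fun u v => hiso u v, by
      rw [hLr, one_smul]⟩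
    have hrF : ((2 : ℕ) : F) ≠ 0 := by exact_mod_cast hF2
    have hnd0 : Nd (fun u v => sympBilin d F u v) (LinearMap.ker (Polynomial.aeval L (X - 1 : F[X]))) := by
      have := nd0 hfm hRz.iso hrF hRz.pow hfm.nd_top (U := ⊤) (fun v _ => trivial)
      rwa [top_inf_eq] at this
    obtain ⟨l, hl⟩ := even_of_nd hfm hRz.alt _ _ rfl hnd0
    have hl2 : Dk L (X - 1 : F[X]) = 2 * l := by
      unfold Dk
      omega
    have hld : l ≤ d := by
      have h1 : Dk L (X - 1 : F[X]) ≤ finrank F (Fin d ⊕ Fin d → F) := Submodule.finrank_le _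
      rw [finrank_triv] at h1
      omega
    let Y₀ : Matrix.symplecticGroup (Fin d) F := ⟨yInv d l, yInv_mem l⟩
    let Ly : End F (Fin d ⊕ Fin d → F) := Matrix.toLin' (yInv d l : Mt)
    have hLy : ∀ v, Ly v = (yInv d l : Mt) *ᵥ v := fun v => rfl
    have hRzy : Rz (sympBilin d F) Ly 2 := ⟨sympBilin_isAlt, sympBilin_nondegenerate,
      fun u v => (mem_symplecticGroup_iff _).1 (yInv_mem l) u v, by
      apply LinearMap.ext
      intro v
      rw [pow_two, Module.End.mul_apply, hLy, hLy, Matrix.mulVec_mulVec, yInv_mul]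
      simp⟩
    have hDy : Dk Ly (X - 1 : F[X]) = 2 * l := by
      rw [Dk_toLin, rank_yInv hF2 hld]
      omega
    obtain ⟨φ, hφ1, hφ2⟩ := conj_invol hRz hRzy hF2 (by rw [hl2, hDy])
    obtain ⟨B, hB⟩ := sp_of_equiv φ hφ1
    refine finish hKc A hA Y₀ 1 (by simp) (by simpa using yInv_comm l) B ?_
    apply Matrix.ext_of_mulVec_single
    intro s
    rw [← Matrix.mulVec_mulVec, ← Matrix.mulVec_mulVec, hB, hB, ← hL, ← hφ2]
    rfl
  · -- squares equal to `-1`
    have hz1' : z = -1 := eq_neg_of_add_eq_zero_left hz1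
    subst hz1'
    have hX2' : Xm * Xm = -1 := by rw [hX2]; simp
    obtain ⟨a, b, hab⟩ := FiniteField.exists_root_sum_quadratic (R := F) (f := X ^ 2)
      (g := C (-c) * X ^ 2 + 1) (by simp) (by
        rw [degree_add_eq_left_of_degree_lt]
        · rw [degree_C_mul_X_pow 2 (neg_ne_zero.mpr hc0)]
          rfl
        · rw [degree_C_mul_X_pow 2 (neg_ne_zero.mpr hc0)]
          simp) hcard
    simp only [eval_pow, eval_X, eval_add, eval_mul, eval_C, eval_one] at hab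
    have hab' : a ^ 2 - c * b ^ 2 = -1 := by linear_combination hab
    let Y₀ : Matrix.symplecticGroup (Fin d) F := ⟨yNeg d a b c, yNeg_mem hab'⟩
    obtain ⟨B, hconj⟩ := conj_minus hcard hF2 hiso hX2' ((mem_symplecticGroup_iff _).1 (yNeg_mem hab')) (yNeg_mul hab')
    exact finish hKc A hA Y₀ (-1) (by simp) (by
      change (yNeg d a b c : Mt) * th0 d c = (-1 : F) • (th0 d c * (yNeg d a b c : Mt))
      rw [yNeg_anti, neg_one_smul]) B hconj

end bwd

end Cfsg.Agent.Lib.FGStruct.GuSpC
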