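import Cfsg.Agent.Lib.FGStruct.GuSpC

/-!
# Elements of prime order of symplectic groups and normalisers of quadratic fields of unitary type: the forward direction
-/

set_option autoImplicit false
set_option linter.unusedSectionVars false
set_option linter.style.haveILetI false
set_option linter.unusedVariables false
set_option linter.unusedSimpArgs false

open Polynomial Module Matrix
open scoped MatrixGroups

universe u

namespace Cfsg.Agent.Lib.FGStruct.GuSpD

open Cfsg Cfsg.Agent.Lib.ElusL.Basic Cfsg.Agent.Lib.ElusL.Flag Cfsg.Agent.Lib.ElusL.Cyc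
  Cfsg.Agent.Lib.ElusL.Pos Cfsg.Agent.Lib.ElusF.Form Cfsg.Agent.Lib.ElusF.Step
  Cfsg.Agent.Lib.ElusF.Split Cfsg.Agent.Lib.ElusF.SpModel Cfsg.Agent.Lib.ElusF.SpNeg
  Cfsg.Agent.Lib.ElusF.SpPos Cfsg.Agent.Lib.ElusF.SpMain Cfsg.Agent.Lib.Classical.SympForm
  Cfsg.Agent.Lib.SylowLarge.SpForm Cfsg.Agent.Lib.FGStruct.GuSpA Cfsg.Agent.Lib.FGStruct.TensorSp
  Cfsg.Agent.Lib.FGStruct.GuSpB Cfsg.Agent.Lib.FGStruct.GuSpC
  Cfsg.Agent.Lib.Geo.Basic Cfsg.Agent.Lib.Geo.SpBase Cfsg.Agent.Lib.SpSpec.FormAlg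

variable {F : Type u} [Field F] [Fintype F] {d r : ℕ}

local notation "Mt" => Matrix (Fin d ⊕ Fin d) (Fin d ⊕ Fin d) F

/-- All elements of order `r` modulo scalars are conjugate into the normaliser. -/
abbrev AllN (F : Type u) [Field F] (d r : ℕ) (K : Subalgebra F (Matrix (Fin d ⊕ Fin d) (Fin d ⊕ Fin d) F)) : Prop :=
  ∀ x ∈ Cfsg.spGL d F,
    (∃ z : F, ((x ^ r : GL (Fin d ⊕ Fin d) F) : Matrix (Fin d ⊕ Fin d) (Fin d ⊕ Fin d) F) =
      z • (1 : Matrix (Fin d ⊕ Fin d) (Fin d ⊕ Fin d) F)) →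
    (∀ z : F, (x : Matrix (Fin d ⊕ Fin d) (Fin d ⊕ Fin d) F) ≠
      z • (1 : Matrix (Fin d ⊕ Fin d) (Fin d ⊕ Fin d) F)) →
    ∃ g ∈ Cfsg.spGL d F, g⁻¹ * x * g ∈ Cfsg.Geo.subalgebraNormalizer K

/-- A model of odd order acquires a skew-adjoint square root of `c` commuting with it. -/
theorem exists_theta {V : Type*} [AddCommGroup V] [Module F V] [FiniteDimensional F V]
    {Bf : LinearMap.BilinForm F V} {T : End F V} [Nonempty (Fin d ⊕ Fin d)] {θ : Mt} {c : F}
    {K : Subalgebra F Mt} (hall : AllN F d r K)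
    (hK : ∀ k, k ∈ K ↔ ∃ a b : F, k = a • (1 : Mt) + b • θ)
    (hθ : ∀ x, θ *ᵥ (θ *ᵥ x) = c • x)
    (hadj : ∀ x y, sympForm d F (θ *ᵥ x) y = - sympForm d F x (θ *ᵥ y))
    (hnsq : ∀ a : F, a * a ≠ c) (hF2 : (2 : F) ≠ 0) (h : Rz Bf T r) (hr : Odd r)
    (hdim : finrank F V = 2 * d) (hNS : ∀ z : F, T ≠ z • 1) :
    ∃ Θ : End F V, (∀ v, Θ (T v) = T (Θ v)) ∧ (∀ v, Θ (Θ v) = c • v) ∧
      ∀ u v, Bf (Θ u) v = - Bf u (Θ v) := by
  classical
  obtain ⟨e₀, x₀, he, hx, hpow⟩ := exists_conj (d := d) h hdim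
  let x' : GL (Fin d ⊕ Fin d) F := sGL x₀
  have hx'c : (x' : Mt) = x₀ := rfl
  have hmem : x' ∈ Cfsg.spGL d F := sGL_mem x₀
  have hr' : ((x' ^ r : GL (Fin d ⊕ Fin d) F) : Mt) = (1 : F) • (1 : Mt) := by
    rw [Units.val_pow_eq_pow_val, hx'c, ← hpow]
    rfl
  have hns : ∀ z : F, (x' : Mt) ≠ z • (1 : Mt) := by
    intro z hz
    apply hNS z
    apply LinearMap.ext
    intro v
    obtain ⟨w, rfl⟩ := e₀.surjective v
    rw [← hx, ← hx'c, hz, Matrix.smul_mulVec, Matrix.one_mulVec, map_smul]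
    rfl
  obtain ⟨g, hg, hm⟩ := hall x' hmem ⟨1, hr'⟩ hns
  set y : GL (Fin d ⊕ Fin d) F := g⁻¹ * x' * g with hy
  have hx'1 : x' ^ r = 1 := by
    apply Units.ext
    rw [hr', one_smul, Units.val_one]
  have hyr : ((y ^ r : GL (Fin d ⊕ Fin d) F) : Mt) = (1 : F) • (1 : Mt) := by
    have h1 : y ^ r = 1 := by
      have h2 : y = g⁻¹ * x' * g⁻¹⁻¹ := by rw [hy, inv_inv]
      rw [h2, conj_pow, hx'1]
      simp
    rw [h1, one_smul, Units.val_one]
  have hcomm := comm_of_mem hK (sq_matrix hθ) hnsq hF2 y hm hr hyr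
  let E : (Fin d ⊕ Fin d → F) ≃ₗ[F] V := glLE g ≪≫ₗ e₀
  have hE : ∀ v, E v = e₀ ((g : Mt) *ᵥ v) := fun _ => rfl
  have hgy : (g : Mt) * (y : Mt) = (x' : Mt) * (g : Mt) := by
    rw [← Units.val_mul, ← Units.val_mul, hy]
    congr 1
    group
  have hT : ∀ v, T (E v) = E ((y : Mt) *ᵥ v) := by
    intro v
    rw [hE, hE, ← hx, ← hx'c, Matrix.mulVec_mulVec, Matrix.mulVec_mulVec, hgy]
  have hB : ∀ u v, Bf (E u) (E v) = sympForm d F u v := by
    intro u v
    rw [hE, hE, he]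
    exact (mem_spGL_iff d g).mp hg u v
  let Θ : End F V := E.toLinearMap ∘ₗ Matrix.toLin' θ ∘ₗ E.symm.toLinearMap
  have hΘ : ∀ v, Θ (E v) = E (θ *ᵥ v) := by
    intro v
    simp [Θ]
  refine ⟨Θ, ?_, ?_, ?_⟩
  · intro v
    obtain ⟨w, rfl⟩ := E.surjective v
    rw [hT, hΘ, hΘ, hT, Matrix.mulVec_mulVec, Matrix.mulVec_mulVec, hcomm]
  · intro v
    obtain ⟨w, rfl⟩ := E.surjective v
    rw [hΘ, hΘ, hθ, map_smul]
  · intro u v
    obtain ⟨u, rfl⟩ := E.surjective u
    obtain ⟨v, rfl⟩ := E.surjective v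
    rw [hΘ, hΘ, hB, hB, hadj]

/-- A double field, with a prime factor of odd degree. -/
theorem exists_double_g {g : F[X]} (hg : Irreducible g) (hgr : g ∣ X ^ r - 1) (hg1 : ¬ g ∣ X - 1)
    (hr : Odd r) (hdeg : Odd g.natDegree) :
    ∃ (V : Type u) (_ : AddCommGroup V) (_ : Module F V) (_ : FiniteDimensional F V)
      (B : LinearMap.BilinForm F V) (T : End F V), Rz B T r ∧ finrank F V = 2 * g.natDegree ∧
      Dk T g = g.natDegree ∧ ∀ z : F, T ≠ z • 1 := by
  classical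
  haveI : Fact (Irreducible g) := ⟨hg⟩
  let K := AdjoinRoot g
  haveI : FiniteDimensional F K := (AdjoinRoot.powerBasis hg.ne_zero).finite
  haveI : Finite K := Module.finite_of_finite F
  have hfin : finrank F K = g.natDegree := by
    rw [(AdjoinRoot.powerBasis hg.ne_zero).finrank, AdjoinRoot.powerBasis_dim]
  let ω : K := AdjoinRoot.root g
  have hω : ω ^ r = 1 := by
    have h1 : AdjoinRoot.mk g (X ^ r - 1) = 0 := (AdjoinRoot.mk_eq_zero).mpr hgr
    rw [map_sub, map_pow, AdjoinRoot.mk_X, map_one, sub_eq_zero] at h1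
    exact h1
  have hω0 : ω ≠ 0 := by
    intro h
    rw [h, zero_pow hr.pos.ne'] at hω
    exact zero_ne_one hω
  have hω1 : ω ≠ 1 := by
    intro h
    apply hg1
    rw [← AdjoinRoot.mk_eq_zero, map_sub, AdjoinRoot.mk_X, map_one, sub_eq_zero]
    exact h
  have hne : ω⁻¹ ≠ ω := by
    intro h5
    have h6 : ω * ω = 1 := by
      nth_rw 1 [← h5]
      exact inv_mul_cancel₀ hω0
    obtain ⟨a, rfl⟩ := hr
    apply hω1
    have h7 : ω ^ (2 * a + 1) = (ω * ω) ^ a * ω := by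
      rw [pow_succ, pow_mul, sq]
    rw [h7, h6, one_pow, one_mul] at hω
    exact hω
  have hinv : Polynomial.aeval ω⁻¹ g ≠ 0 := by
    intro h0
    let φ : K →ₐ[F] K := AdjoinRoot.liftAlgHom g (Algebra.ofId F K) ω⁻¹ h0
    have hφ : φ ω = ω⁻¹ := AdjoinRoot.liftAlgHom_root _ _ _ _
    have hφφ : φ.comp φ = AlgHom.id F K := by
      apply AdjoinRoot.algHom_ext
      change φ (φ ω) = ω
      rw [hφ, map_inv₀, hφ, inv_inv]
    let φ' : K ≃ₐ[F] K := AlgEquiv.ofAlgHom φ φ hφφ hφφ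
    have hφ'ω : φ' ω = ω⁻¹ := hφ
    have hsq : φ' ^ 2 = 1 := by
      apply AlgEquiv.ext
      intro k
      have := congrArg (fun f : K →ₐ[F] K => f k) hφφ
      exact this
    have hne1 : φ' ≠ 1 := by
      intro h1
      rw [h1] at hφ'ω
      exact hne hφ'ω.symm
    have hord : orderOf φ' = 2 := orderOf_eq_prime hsq hne1
    have hdvd : orderOf φ' ∣ finrank F K := by
      rw [← IsGalois.card_aut_eq_finrank]
      exact orderOf_dvd_natCard φ'
    rw [hord, hfin] at hdvd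
    exact (Nat.not_even_iff_odd.mpr hdeg) (even_iff_two_dvd.mpr hdvd)
  have hroot : Polynomial.aeval ω g = 0 := by
    have : Polynomial.aeval ω g = AdjoinRoot.mk g g := AdjoinRoot.aeval_eq g
    rw [this]
    exact AdjoinRoot.mk_self
  let R := K × K
  let σ : R →ₐ[F] R := (AlgHom.snd F K K).prod (AlgHom.fst F K K)
  let τ : R →ₗ[F] F := (Algebra.trace F K).coprod (-(Algebra.trace F K))
  have hf : IsFormAlg σ τ := formAlg_swap K
  let x : R := (ω, ω⁻¹)
  have hx : x * σ x = 1 := by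
    apply Prod.ext
    · exact mul_inv_cancel₀ hω0
    · exact inv_mul_cancel₀ hω0
  have hxr : x ^ r = 1 := by
    apply Prod.ext
    · change ω ^ r = 1
      exact hω
    · change ω⁻¹ ^ r = 1
      rw [inv_pow, hω, inv_one]
  refine ⟨R, inferInstance, inferInstance, inferInstance, form σ τ, Algebra.lmul F R x,
    Rz.lmul hf hx hxr, ?_, ?_, ?_⟩
  · rw [Module.finrank_prod, hfin, two_mul]
  · unfold Dk
    have h1 : LinearMap.ker (Polynomial.aeval (Algebra.lmul F R x : End F R) g) =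
        LinearMap.range (LinearMap.inl F K K) := by
      ext f
      rw [LinearMap.mem_ker, aeval_lmul, LinearMap.range_inl]
      have h2 : Polynomial.aeval x g = (Polynomial.aeval ω g, Polynomial.aeval ω⁻¹ g) := by
        have h3 : Polynomial.aeval x g = (AlgHom.fst F K K (Polynomial.aeval x g),
            AlgHom.snd F K K (Polynomial.aeval x g)) := rfl
        rw [h3, ← Polynomial.aeval_algHom_apply, ← Polynomial.aeval_algHom_apply]
        rfl
      rw [h2, hroot]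
      constructor
      · intro h3
        have h4 : Polynomial.aeval ω⁻¹ g * f.2 = 0 := congrArg Prod.snd h3
        exact (mul_eq_zero.mp h4).resolve_left hinv
      · intro h3
        have h4 : f.2 = 0 := h3
        apply Prod.ext
        · exact zero_mul _
        · change Polynomial.aeval ω⁻¹ g * f.2 = 0
          rw [h4, mul_zero]
    rw [h1, LinearMap.finrank_range_of_inj LinearMap.inl_injective, hfin]
  · intro z hz
    have h1 := congrArg (fun S : End F R => S (1, 0)) hz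
    have h2 := congrArg (fun S : End F R => S (0, 1)) hz
    have h3 : ω * 1 = z • (1 : K) := congrArg Prod.fst h1
    have h4 : ω⁻¹ * 1 = z • (1 : K) := congrArg Prod.snd h2
    rw [mul_one] at h3 h4
    exact hne (h4.trans h3.symm)

section order

/-- The centraliser of `θ` in the symplectic group. -/
def centS (θ : Mt) : Subgroup (GL (Fin d ⊕ Fin d) F) where
  carrier := {g | g ∈ Cfsg.spGL d F ∧ (g : Mt) * θ = θ * (g : Mt)}
  mul_mem' := by
    rintro a b ⟨ha, ha'⟩ ⟨hb, hb'⟩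
    refine ⟨mul_mem ha hb, ?_⟩
    rw [Units.val_mul, Matrix.mul_assoc, hb', ← Matrix.mul_assoc, ha', Matrix.mul_assoc]
  one_mem' := ⟨one_mem _, by simp⟩
  inv_mem' := by
    rintro a ⟨ha, ha'⟩
    refine ⟨inv_mem ha, ?_⟩
    have e1 : (a : Mt) * ((a⁻¹ : GL (Fin d ⊕ Fin d) F) : Mt) = 1 := by
      rw [← Units.val_mul, mul_inv_cancel, Units.val_one]
    have e2 : ((a⁻¹ : GL (Fin d ⊕ Fin d) F) : Mt) * (a : Mt) = 1 := by
      rw [← Units.val_mul, inv_mul_cancel, Units.val_one]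
    calc ((a⁻¹ : GL (Fin d ⊕ Fin d) F) : Mt) * θ
        = ((a⁻¹ : GL (Fin d ⊕ Fin d) F) : Mt) * (θ * ((a : Mt) * ((a⁻¹ : GL (Fin d ⊕ Fin d) F) : Mt))) := by
          rw [e1, Matrix.mul_one]
      _ = ((a⁻¹ : GL (Fin d ⊕ Fin d) F) : Mt) * ((a : Mt) * θ) * ((a⁻¹ : GL (Fin d ⊕ Fin d) F) : Mt) := by
          rw [ha']
          simp only [Matrix.mul_assoc]
      _ = θ * ((a⁻¹ : GL (Fin d ⊕ Fin d) F) : Mt) := by
          rw [← Matrix.mul_assoc, e2, Matrix.one_mul]

theorem centS_le {θ : Mt} {K : Subalgebra F Mt} (hK : ∀ k, k ∈ K ↔ ∃ a b : F, k = a • (1 : Mt) + b • θ) :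
    (centS θ : Subgroup (GL (Fin d ⊕ Fin d) F)) ≤ Cfsg.Geo.subalgebraNormalizer K := by
  rintro g hg
  have hg' := hg
  have hginv := inv_mem hg
  refine mem_normalizer_of hK g 1 ?_ ?_
  · rw [one_smul, hg'.2, Matrix.mul_assoc, ← Units.val_mul, mul_inv_cancel, Units.val_one, Matrix.mul_one]
  · rw [one_smul, hginv.2, Matrix.mul_assoc, ← Units.val_mul, inv_mul_cancel, Units.val_one, Matrix.mul_one]

/-- The order of the centraliser. -/
theorem card_centS {q : ℕ} (hq : Fintype.card F = q) (hodd : Odd q) {θ : Mt} {c : F}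
    (hc : ¬ IsSquare c) (hθ : ∀ x, θ *ᵥ (θ *ᵥ x) = c • x)
    (hadj : ∀ x y, sympForm d F (θ *ᵥ x) y = - sympForm d F x (θ *ᵥ y)) :
    Nat.card ((centS θ).subgroupOf (Cfsg.spGL d F)) =
      q ^ (d * (d - 1) / 2) *
      ∏ i ∈ Finset.range d, (if Even i then q ^ (i + 1) + 1 else q ^ (i + 1) - 1) := by
  classical
  have h1 := card_cent_end (V := Fin d ⊕ Fin d → F) hq hodd (sympBilin d F) (Θ := Matrix.toLin' θ) hc
    (fun v => hθ v) (fun u v => hadj u v) sympBilin_isAlt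
    (fun x hx => sympBilin_nondegenerate.1 x hx) (finrank_triv d)
  rw [← h1]
  let f : ((centS θ).subgroupOf (Cfsg.spGL d F)) →
      {g : (Fin d ⊕ Fin d → F) ≃ₗ[F] (Fin d ⊕ Fin d → F) //
        (∀ x y, sympBilin d F (g x) (g y) = sympBilin d F x y) ∧
          ∀ v, g ((Matrix.toLin' θ) v) = (Matrix.toLin' θ) (g v)} := fun a =>
    ⟨glLE ((a : Cfsg.spGL d F) : GL (Fin d ⊕ Fin d) F), fun x y =>
      (mem_spGL_iff d _).mp (a : Cfsg.spGL d F).2 x y, fun v => by
      have h2 : (((a : Cfsg.spGL d F) : GL (Fin d ⊕ Fin d) F) : Mt) * θ =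
          θ * (((a : Cfsg.spGL d F) : GL (Fin d ⊕ Fin d) F) : Mt) :=
        (Subgroup.mem_subgroupOf.mp a.2).2
      change (((a : Cfsg.spGL d F) : GL (Fin d ⊕ Fin d) F) : Mt) *ᵥ (θ *ᵥ v) =
        θ *ᵥ ((((a : Cfsg.spGL d F) : GL (Fin d ⊕ Fin d) F) : Mt) *ᵥ v)
      rw [Matrix.mulVec_mulVec, Matrix.mulVec_mulVec, h2]⟩
  apply Nat.card_eq_of_bijective f
  constructor
  · intro a b hab
    have h2 : glLE ((a : Cfsg.spGL d F) : GL (Fin d ⊕ Fin d) F) =
        glLE ((b : Cfsg.spGL d F) : GL (Fin d ⊕ Fin d) F) := congrArg Subtype.val hab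
    apply Subtype.ext
    apply Subtype.ext
    apply Units.ext
    apply Matrix.ext_of_mulVec_single
    intro s
    exact congrArg (fun φ : (Fin d ⊕ Fin d → F) ≃ₗ[F] (Fin d ⊕ Fin d → F) => φ (Pi.single s 1)) h2
  · rintro ⟨φ, hφ1, hφ2⟩
    let A : Mt := LinearMap.toMatrix' φ.toLinearMap
    let A' : Mt := LinearMap.toMatrix' φ.symm.toLinearMap
    have hA : ∀ v, A *ᵥ v = φ v := fun v => by
      simp [A, LinearMap.toMatrix'_mulVec]
    have hA' : ∀ v, A' *ᵥ v = φ.symm v := fun v => by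
      simp [A', LinearMap.toMatrix'_mulVec]
    let G : GL (Fin d ⊕ Fin d) F := ⟨A, A', by
      apply Matrix.ext_of_mulVec_single
      intro s
      rw [← Matrix.mulVec_mulVec, hA', hA, Matrix.one_mulVec]
      simp, by
      apply Matrix.ext_of_mulVec_single
      intro s
      rw [← Matrix.mulVec_mulVec, hA, hA', Matrix.one_mulVec]
      simp⟩
    have hGv : (G : Mt) = A := rfl
    have hGsp : G ∈ Cfsg.spGL d F := by
      rw [mem_spGL_iff]
      intro u v
      rw [hGv, hA, hA]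
      exact hφ1 u v
    have hGc : (G : Mt) * θ = θ * (G : Mt) := by
      apply Matrix.ext_of_mulVec_single
      intro s
      rw [← Matrix.mulVec_mulVec, ← Matrix.mulVec_mulVec, hGv, hA, hA]
      exact hφ2 _
    refine ⟨⟨⟨G, hGsp⟩, Subgroup.mem_subgroupOf.mpr ⟨hGsp, hGc⟩⟩, ?_⟩
    apply Subtype.ext
    apply LinearEquiv.ext
    intro v
    exact hA v

/-- The index of the centraliser. -/
theorem dvd_H {q : ℕ} (hq : Fintype.card F = q) (hodd : Odd q) {θ : Mt} {c : F}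
    (hc : ¬ IsSquare c) (hθ : ∀ x, θ *ᵥ (θ *ᵥ x) = c • x)
    (hadj : ∀ x y, sympForm d F (θ *ᵥ x) y = - sympForm d F x (θ *ᵥ y)) (hr : r.Prime) (hrq : ¬ r ∣ q)
    (hdv : r ∣ (centS θ).relIndex (Cfsg.spGL d F)) :
    ∃ i ∈ Finset.range d, r ∣ (if Even i then q ^ (i + 1) - 1 else q ^ (i + 1) + 1) := by
  classical
  have hq2 : 2 ≤ q := by
    rw [← hq]
    exact Fintype.one_lt_card
  have h1 := Subgroup.card_mul_index ((centS θ).subgroupOf (Cfsg.spGL d F))
  rw [card_centS hq hodd hc hθ hadj, Nat.card_congr (CmaxS.Simple.eSp (m := d) (F := F)).toEquiv,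
    Cfsg.Agent.Lib.Classical.SympCount.card_symplecticGroup (q := q)
    (by rw [Nat.card_eq_fintype_card, hq])] at h1
  change _ * (centS θ).relIndex (Cfsg.spGL d F) = _ at h1
  set I := (centS θ).relIndex (Cfsg.spGL d F) with hI
  set G : ℕ → ℕ := fun i => if Even i then q ^ (i + 1) + 1 else q ^ (i + 1) - 1 with hG
  set H : ℕ → ℕ := fun i => if Even i then q ^ (i + 1) - 1 else q ^ (i + 1) + 1 with hH
  have hGH : ∀ i, q ^ (2 * (i + 1)) - 1 = G i * H i := by
    intro i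
    have hpos : 1 ≤ q ^ (i + 1) := Nat.one_le_pow _ _ (by omega)
    obtain ⟨t, ht⟩ : ∃ t, q ^ (i + 1) = t + 1 := ⟨q ^ (i + 1) - 1, by omega⟩
    have h2 : q ^ (2 * (i + 1)) = (q ^ (i + 1)) * (q ^ (i + 1)) := by
      rw [two_mul, pow_add]
    simp only [hG, hH]
    rw [h2, ht]
    split_ifs
    · have : t + 1 - 1 = t := by omega
      rw [this]
      have h3 : (t + 1) * (t + 1) - 1 = (t + 1 + 1) * t := by
        have : (t + 1) * (t + 1) = (t + 1 + 1) * t + 1 := by ring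
        omega
      exact h3
    · have : t + 1 - 1 = t := by omega
      rw [this]
      have h3 : (t + 1) * (t + 1) - 1 = t * (t + 1 + 1) := by
        have : (t + 1) * (t + 1) = t * (t + 1 + 1) + 1 := by ring
        omega
      exact h3
  have hGpos : ∀ i, 0 < G i := by
    intro i
    simp only [hG]
    split_ifs
    · omega
    · have : q ^ 1 ≤ q ^ (i + 1) := Nat.pow_le_pow_right (by omega) (by omega)
      rw [pow_one] at this
      omega
  have hprodG : 0 < ∏ i ∈ Finset.range d, G i := Finset.prod_pos fun i _ => hGpos i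
  simp only [hGH, Finset.prod_mul_distrib] at h1
  have h2 : q ^ (d * (d - 1) / 2) * I = q ^ (d ^ 2) * ∏ i ∈ Finset.range d, H i := by
    apply Nat.eq_of_mul_eq_mul_left hprodG
    linear_combination h1
  have h3 : r ∣ q ^ (d ^ 2) * ∏ i ∈ Finset.range d, H i := by
    rw [← h2]
    exact hdv.mul_left _
  rcases hr.prime.dvd_or_dvd h3 with h4 | h4
  · exact absurd (hr.dvd_of_dvd_pow h4) hrq
  · exact (hr.prime.dvd_finsetProd_iff _).mp h4

/-- Orders `2 j`, `j` odd: `r` does not divide the index. -/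
theorem no_odd_half {q j : ℕ} (hq2 : 2 ≤ q) (hr : r.Prime) (hr2 : r ≠ 2) (hrq : ¬ r ∣ q)
    (hi : orderOf (q : ZMod r) = 2 * j) (hj : Odd j) (i : ℕ)
    (h : r ∣ (if Even i then q ^ (i + 1) - 1 else q ^ (i + 1) + 1)) : False := by
  haveI : Fact r.Prime := ⟨hr⟩
  have hq1 : 1 ≤ q := by omega
  have hj0 : 0 < j := hj.pos
  split_ifs at h with hev
  · have h1 : orderOf (q : ZMod r) ∣ i + 1 := (ord_dvd_iff hq1 _).mpr h
    rw [hi] at h1
    have h2 : Even (i + 1) := even_iff_two_dvd.mpr (dvd_trans (Dvd.intro _ rfl) h1)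
    exact (Nat.not_even_iff_odd.mpr (hev.add_one)) h2
  · have h1 : (q : ZMod r) ^ (i + 1) = -1 := by
      have h2 : ((q ^ (i + 1) + 1 : ℕ) : ZMod r) = 0 := (ZMod.natCast_eq_zero_iff _ _).mpr h
      push_cast at h2
      exact eq_neg_of_add_eq_zero_left h2
    have h3 : orderOf (q : ZMod r) ∣ 2 * (i + 1) := by
      apply orderOf_dvd_of_pow_eq_one
      rw [mul_comm, pow_mul, h1]
      simp
    rw [hi] at h3
    have h4 : j ∣ i + 1 := Nat.dvd_of_mul_dvd_mul_left (by norm_num) h3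
    obtain ⟨m, hm⟩ := h4
    have h5 : r ∣ q ^ j + 1 := dvd_pow_add_one hr hi hj0
    have h6 : (q : ZMod r) ^ j = -1 := by
      have h2 : ((q ^ j + 1 : ℕ) : ZMod r) = 0 := (ZMod.natCast_eq_zero_iff _ _).mpr h5
      push_cast at h2
      exact eq_neg_of_add_eq_zero_left h2
    rw [hm, pow_mul, h6] at h1
    have hm1 : Odd m := by
      by_contra hm2
      have hm3 := Nat.not_odd_iff_even.mp hm2
      rw [hm3.neg_one_pow] at h1
      have h7 : (2 : ZMod r) = 0 := by linear_combination h1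
      have h8 : ((2 : ℕ) : ZMod r) = 0 := by exact_mod_cast h7
      have h9 := (ZMod.natCast_eq_zero_iff _ _).mp h8
      exact hr2 ((Nat.prime_dvd_prime_iff_eq hr Nat.prime_two).mp h9)
    have h10 : Odd (i + 1) := by
      rw [hm]
      exact hj.mul hm1
    have h11 : Even (i + 1) := (Nat.not_even_iff_odd.mp hev).add_one
    exact (Nat.not_even_iff_odd.mpr h10) h11

end order

/-- The forward implication. -/
theorem fwd (p : ℕ) [hpp : Fact p.Prime] [CharP F p] {q : ℕ} (hq : Fintype.card F = q) (hodd : Odd q) (hd : 2 ≤ d)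
    (K : Subalgebra F Mt) (hK : Cfsg.Geo.IsFieldSubalgebra 2 K)
    (hKf : Cfsg.Geo.IsAdjointClosedFor (Cfsg.sympForm d F) K) (hKns : ¬ Cfsg.Geo.IsSelfAdjointFor (Cfsg.sympForm d F) K)
    [hrf : Fact r.Prime] (hΩ : r ∣ (Cfsg.Geo.subalgebraNormalizer K).relIndex (Cfsg.spGL d F))
    (hall : AllN F d r K) : r = 2 := by
  classical
  have hr : r.Prime := hrf.out
  by_contra hr2
  have hrodd : Odd r := hr.odd_of_ne_two hr2
  have hpP : p.Prime := hpp.out
  obtain ⟨n, hp', hn⟩ := FiniteField.card F p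
  have hq' : q = p ^ (n : ℕ) := by rw [← hq, hn]
  have hF2 : (2 : F) ≠ 0 := two_ne_zero_of_odd p hq hodd
  have hq2 : 2 ≤ q := by
    rw [← hq]
    exact Fintype.one_lt_card
  haveI : Nonempty (Fin d ⊕ Fin d) := ⟨Sum.inl ⟨0, by omega⟩⟩
  obtain ⟨θ, c, hstr, hKc⟩ := Cfsg.Agent.Lib.Geo.SpGU.exists_kstr (isSymplecticForm_sympForm d) K hK hKf hKns hF2
  have hc0 : c ≠ 0 := by
    rintro rfl
    exact hstr.nsq 0 (by simp)
  have hc : ¬ IsSquare c := by
    rintro ⟨a, ha⟩
    exact hstr.nsq a ha.symm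
  have hth : ∀ {V : Type u} [AddCommGroup V] [Module F V] [FiniteDimensional F V]
      {Bf : LinearMap.BilinForm F V} {T : End F V}, Rz Bf T r → finrank F V = 2 * d → (∀ z : F, T ≠ z • 1) →
      ∃ Θ : End F V, (∀ v, Θ (T v) = T (Θ v)) ∧ (∀ v, Θ (Θ v) = c • v) ∧
        ∀ u v, Bf (Θ u) v = - Bf u (Θ v) := fun h hdim hNS =>
    exists_theta hall hKc hstr.sq hstr.adj hstr.nsq hF2 h hrodd hdim hNS
  by_cases hrp : r = p
  · subst hrp
    let μ : Multiset ℕ := 2 ::ₘ Multiset.replicate (2 * d - 2) 1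
    have hp2 := hpP.two_le
    obtain ⟨V, i1, i2, i3, Bf, T, hRz, hf, hD⟩ := Cfsg.Agent.Lib.ElusF.SpUniModel.model_uni (F := F) (p := r) hF2 _ μ rfl
      (by
        intro x hx
        rcases Multiset.mem_cons.mp hx with rfl | hx
        · exact ⟨by norm_num, hp2⟩
        · rw [Multiset.eq_of_mem_replicate hx]
          exact ⟨by norm_num, by omega⟩)
      (by
        intro x hx
        simp only [μ, Multiset.count_cons, Multiset.count_replicate]
        by_cases hx1 : x = 1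
        · subst hx1
          simp
          exact ⟨d - 1, by omega⟩
        · have hx2 : x ≠ 2 := by
            rintro rfl
            exact absurd hx (by decide)
          simp [hx2, Ne.symm hx1])
    have hsum : μ.sum = 2 * d := by
      simp only [μ, Multiset.sum_cons, Multiset.sum_replicate, smul_eq_mul, mul_one]
      omega
    have hD1 := hD 1
    rw [pow_one] at hD1
    have hD2 : Dk T (X - 1 : F[X]) = 2 * d - 1 := by
      rw [hD1]
      simp only [μ, Multiset.map_cons, Multiset.map_replicate, Multiset.sum_cons, Multiset.sum_replicate,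
        smul_eq_mul]
      simp
      omega
    have hfin : finrank F V = 2 * d := by rw [hf, hsum]
    have hNS : ∀ z : F, T ≠ z • 1 := not_scalar_of_Dk (by omega) (by omega)
    obtain ⟨Θ, h1, h2, h3⟩ := hth hRz hfin hNS
    have h4 := Dk_even hc h1 h2 (X - 1 : F[X])
    rw [hD2] at h4
    rw [Nat.even_iff] at h4
    omega
  have hrF : (r : F) ≠ 0 := by
    intro h
    have h2 := (CharP.cast_eq_zero_iff F p r).mp h
    exact hrp ((Nat.prime_dvd_prime_iff_eq hpP hr).mp h2).symm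
  have hrq : ¬ r ∣ q := by
    rw [hq']
    intro h
    exact hrp ((Nat.prime_dvd_prime_iff_eq hr hpP).mp (hr.dvd_of_dvd_pow h))
  set i := orderOf (q : ZMod r) with hi
  obtain ⟨c', hc'⟩ : ∃ c', c' = if Even i then i else 2 * i := ⟨_, rfl⟩
  have hcle : c' ≤ 2 * d := c_le_of_dvd_sp hq hr hrq hi hc'
    (hΩ.trans (Subgroup.relIndex_dvd_card _ _))
  have hipos : 0 < i := by
    rw [hi]
    exact ord_pos hr hrq
  obtain ⟨S, hS, hprod, hcard⟩ := exists_factors hq hr hrF hrq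
  have hrpos := hr.two_le
  obtain ⟨g, hgS⟩ : S.Nonempty := by
    rw [← Finset.card_pos]
    rcases Nat.eq_zero_or_pos S.card with h0 | h0
    · rw [h0, zero_mul] at hcard
      omega
    · exact h0
  obtain ⟨hg, hgm, hgr, hg1, hgd⟩ := hS g hgS
  by_cases hev : Even i
  · rw [if_pos hev] at hc'
    obtain ⟨j, hj⟩ := hev
    have hij : i = 2 * j := by omega
    have hj0 : 0 < j := by omega
    rcases Nat.even_or_odd j with hje | hjo
    · have hrq' : r ∣ q ^ j + 1 := dvd_pow_add_one hr (hi.symm.trans hij) hj0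
      obtain ⟨V, i1, i2, i3, Bf, T, h, hf, hD, hDh, hNS⟩ :=
        model_even hq (by omega : j ≠ 0) hrq' (d - j) [g] (by
          intro g' hg'
          rw [List.mem_singleton] at hg'
          subst hg'
          exact ⟨hg, hgm, hgr, hg1, by rw [hgd, ← hi, hij]⟩)
      have hfin : finrank F V = 2 * d := by
        rw [hf]
        simp
        omega
      obtain ⟨Θ, h1, h2, h3⟩ := hth h hfin (hNS (by simp))
      have hDg : Dk T g = 2 * j := by
        rw [hDh g hgm hg hg1]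
        simp
      exact no_even h hq hodd hr.ne_zero hrF hje hj0 hrq' hg hgr (by rw [hgd, ← hi, hij]) hDg hF2 hc0 h1 h2 h3
    · have hle : (Cfsg.Geo.subalgebraNormalizer K).relIndex (Cfsg.spGL d F) ∣ (centS θ).relIndex (Cfsg.spGL d F) :=
        Subgroup.relIndex_dvd_of_le_left _ (centS_le hKc)
      obtain ⟨t, -, ht⟩ := dvd_H hq hodd hc hstr.sq hstr.adj hr hrq (hΩ.trans hle)
      exact no_odd_half hq2 hr hr2 hrq (hi.symm.trans hij) hjo t ht
  · rw [if_neg hev] at hc'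
    have hodd' : Odd g.natDegree := by
      rw [hgd, ← hi]
      exact Nat.not_even_iff_odd.mp hev
    obtain ⟨V', _, _, _, B', T', h', hf', hD', hNS'⟩ := exists_double_g (r := r) hg hgr hg1 hrodd hodd'
    have hRz := Rz.prod (Rz.triv (F := F) (d - i) r) h'
    have hfin : finrank F ((Fin (d - i) ⊕ Fin (d - i) → F) × V') = 2 * d := by
      rw [Module.finrank_prod, finrank_triv, hf', hgd, ← hi]
      omega
    obtain ⟨Θ, h1, h2, h3⟩ := hth hRz hfin (not_scalar_prod_right _ hNS')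
    have h4 := Dk_even hc h1 h2 g
    rw [Dk_prod, Dk_one, hD', hgd, ← hi] at h4
    · simp at h4
      exact hev h4
    · intro h0
      apply hg1
      have h5 : X - C 1 ∣ g := Polynomial.dvd_iff_isRoot.mpr h0
      have h6 := (Polynomial.irreducible_X_sub_C (1 : F)).dvd_symm hg h5
      simpa using h6

end Cfsg.Agent.Lib.FGStruct.GuSpD
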