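import Cfsg.Agent.Lib.ElusF.SpNdThm
import Cfsg.Agent.Lib.Elusive.KronConj
import Cfsg.Agent.Lib.NotMax.Tensor

/-!
# Ranks of Kronecker products and chains of vectors; elements not of Kronecker type

If `v, A v, …, A^k v` are independent then `rank (A ⊗ B - 1) ≥ k * card`.
-/

set_option autoImplicit false
set_option linter.unusedSectionVars false
set_option linter.style.haveILetI false
set_option linter.unusedVariables false

open Polynomial Module Matrix Kronecker
open scoped MatrixGroups

universe u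

namespace Cfsg.Agent.Lib.FGStruct.KronChain

open Cfsg Cfsg.Agent.Lib.ElusL.Basic Cfsg.Agent.Lib.ElusL.Flag Cfsg.Agent.Lib.ElusL.Cyc
  Cfsg.Agent.Lib.ElusL.Pos Cfsg.Agent.Lib.ElusF.Form Cfsg.Agent.Lib.ElusF.Step
  Cfsg.Agent.Lib.ElusF.Split Cfsg.Agent.Lib.ElusF.SpModel Cfsg.Agent.Lib.ElusF.SpNeg
  Cfsg.Agent.Lib.ElusF.SpPos Cfsg.Agent.Lib.ElusF.SpPos2 Cfsg.Agent.Lib.ElusF.SpTwo
  Cfsg.Agent.Lib.ElusF.SpMain Cfsg.Agent.Lib.Classical.SympForm Cfsg.Agent.Lib.ElusF.SpNd
  Cfsg.Agent.Lib.ElusF.SpNdThm Cfsg.Agent.Lib.SylowLarge.SpForm Cfsg.Agent.Lib.Elusive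

section chain

variable {F : Type*} [Field F] {κ l : Type} [Fintype κ] [DecidableEq κ] [Fintype l] [DecidableEq l]

/-- Pure tensors. -/
def tp (u : κ → F) (w : l → F) : κ × l → F := fun c => u c.1 * w c.2

theorem kron_mulVec_tp (A : Matrix κ κ F) (B : Matrix l l F) (x : κ → F) (y : l → F) :
    (A ⊗ₖ B) *ᵥ tp x y = tp (A *ᵥ x) (B *ᵥ y) := by
  funext c
  simp only [Matrix.mulVec, dotProduct, tp, Matrix.kroneckerMap_apply, Fintype.sum_prod_type]
  rw [Finset.sum_mul_sum]
  refine Finset.sum_congr rfl fun d _ => Finset.sum_congr rfl fun d' _ => ?_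
  ring

/-- Pure tensors with a fixed first factor, as a linear map. -/
def tpL (u : κ → F) : (l → F) →ₗ[F] (κ × l → F) where
  toFun w := tp u w
  map_add' a b := by
    funext c
    simp [tp, mul_add]
  map_smul' r a := by
    funext c
    simp [tp]
    ring

/-- Contraction of the first factor. -/
def ctr (φ : (κ → F) →ₗ[F] F) : (κ × l → F) →ₗ[F] (l → F) where
  toFun t m := φ (fun i => t (i, m))
  map_add' a b := by
    funext m
    exact map_add φ (fun i => a (i, m)) (fun i => b (i, m))
  map_smul' r a := by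
    funext m
    exact map_smul φ r (fun i => a (i, m))

theorem ctr_tp (φ : (κ → F) →ₗ[F] F) (u : κ → F) (w : l → F) : ctr φ (tp u w) = φ u • w := by
  funext m
  have : (fun i => tp u w (i, m)) = w m • u := by
    funext i
    simp [tp, mul_comm]
  change φ (fun i => tp u w (i, m)) = _
  rw [this, map_smul]
  simp [mul_comm]

/-- The chain bound. -/
theorem chain_le_rank (A : Matrix κ κ F) (B : Matrix l l F) (v : κ → F) (k : ℕ)
    (hv : LinearIndependent F (fun j : Fin (k + 1) => (A ^ (j : ℕ)) *ᵥ v)) :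
    k * Fintype.card l ≤ ((A ⊗ₖ B) - (1 : Matrix (κ × l) (κ × l) F)).rank := by
  classical
  let vv : ℕ → (κ → F) := fun j => (A ^ j) *ᵥ v
  have hAv : ∀ j, A *ᵥ vv j = vv (j + 1) := by
    intro j
    simp only [vv]
    rw [Matrix.mulVec_mulVec, pow_succ']
  -- dual functionals
  let f : (Fin (k + 1) → F) →ₗ[F] (κ → F) := Fintype.linearCombination F (fun j : Fin (k + 1) => vv j)
  have hf : LinearMap.ker f = ⊥ := by
    rw [LinearMap.ker_eq_bot]
    exact hv.fintypeLinearCombination_injective
  obtain ⟨g, hg⟩ := LinearMap.exists_leftInverse_of_injective f hf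
  let φ : Fin (k + 1) → ((κ → F) →ₗ[F] F) := fun m => (LinearMap.proj m).comp g
  have hφ : ∀ m j : Fin (k + 1), φ m (vv j) = if j = m then 1 else 0 := by
    intro m j
    have h1 : f (Pi.single j 1) = vv j := by
      simp [f, Fintype.linearCombination_apply_single]
    have h2 : g (f (Pi.single j 1)) = Pi.single j 1 := LinearMap.congr_fun hg _
    change (g (vv j)) m = _
    rw [← h1, h2, Pi.single_apply]
    by_cases h : m = j
    · simp [h]
    · simp [h, Ne.symm h]
  let ι' : (Fin k → (l → F)) →ₗ[F] (κ × l → F) :=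
    ∑ j : Fin k, (tpL (vv j)).comp (LinearMap.proj j)
  have hι' : ∀ w, ι' w = ∑ j : Fin k, tp (vv j) (w j) := by
    intro w
    simp [ι', tpL]
  let L := ((A ⊗ₖ B) - (1 : Matrix (κ × l) (κ × l) F)).mulVecLin
  let Λ := L.comp ι'
  have hΛ : Function.Injective Λ := by
    rw [injective_iff_map_eq_zero]
    intro w h0
    have h1 : (A ⊗ₖ B) *ᵥ (ι' w) = ι' w := by
      have h2 : L (ι' w) = 0 := h0
      simp only [L, Matrix.mulVecLin_apply, Matrix.sub_mulVec, Matrix.one_mulVec] at h2
      exact sub_eq_zero.mp h2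
    rw [hι', Matrix.mulVec_sum] at h1
    have h2 : ∀ j : Fin k, (A ⊗ₖ B) *ᵥ tp (vv j) (w j) = tp (vv ((j : ℕ) + 1)) (B *ᵥ w j) := by
      intro j
      rw [kron_mulVec_tp, hAv]
    have h1' : ∑ j : Fin k, tp (vv ((j : ℕ) + 1)) (B *ᵥ w j) = ∑ j : Fin k, tp (vv j) (w j) := by
      rw [← h1]
      exact Finset.sum_congr rfl fun j _ => (h2 j).symm
    have key : ∀ m : ℕ, ∀ hm : m < k, w ⟨m, hm⟩ = 0 := by
      intro m
      induction m using Nat.strong_induction_on with
      | _ m ih =>
        intro hm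
        have h3 := congrArg (ctr (φ ⟨m, by omega⟩)) h1'
        rw [map_sum, map_sum] at h3
        simp only [ctr_tp] at h3
        have hR : ∑ j : Fin k, φ ⟨m, by omega⟩ (vv j) • w j = w ⟨m, hm⟩ := by
          rw [Finset.sum_eq_single ⟨m, hm⟩]
          · have := hφ ⟨m, by omega⟩ ⟨m, by omega⟩
            simp only [if_true] at this
            simp only [this, one_smul]
          · intro j _ hj
            have h4 := hφ ⟨m, by omega⟩ ⟨(j : ℕ), by omega⟩
            have h5 : (⟨(j : ℕ), by omega⟩ : Fin (k + 1)) ≠ ⟨m, by omega⟩ := by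
              intro h6
              apply hj
              exact Fin.ext (by simpa using h6)
            simp only [h5, if_false] at h4
            simp only [h4, zero_smul]
          · intro h
            exact absurd (Finset.mem_univ _) h
        have hL : ∑ j : Fin k, φ ⟨m, by omega⟩ (vv ((j : ℕ) + 1)) • (B *ᵥ w j) = 0 := by
          refine Finset.sum_eq_zero fun j _ => ?_
          have h4 := hφ ⟨m, by omega⟩ ⟨(j : ℕ) + 1, by omega⟩
          by_cases h5 : (j : ℕ) + 1 = m
          · have h6 : w j = 0 := by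
              have := ih (j : ℕ) (by omega) j.2
              exact this
            rw [h6, Matrix.mulVec_zero, smul_zero]
          · have h7 : (⟨(j : ℕ) + 1, by omega⟩ : Fin (k + 1)) ≠ ⟨m, by omega⟩ := by
              intro h6
              exact h5 (by simpa using h6)
            simp only [h7, if_false] at h4
            rw [h4, zero_smul]
        rw [hR, hL] at h3
        exact h3.symm
    funext j
    exact key j j.2
  have h3 : finrank F (Fin k → (l → F)) = k * Fintype.card l := by
    rw [Module.finrank_pi_fintype]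
    simp
  rw [← h3, ← LinearMap.finrank_range_of_inj hΛ]
  exact Submodule.finrank_mono (LinearMap.range_comp_le_range ι' L)

theorem kron_swap (A : Matrix κ κ F) (B : Matrix l l F) :
    ((A ⊗ₖ B) - (1 : Matrix (κ × l) (κ × l) F)) =
      ((B ⊗ₖ A) - (1 : Matrix (l × κ) (l × κ) F)).submatrix (Equiv.prodComm κ l) (Equiv.prodComm κ l) := by
  ext ⟨i, j⟩ ⟨i', j'⟩
  simp [Matrix.kroneckerMap_apply, mul_comm, Matrix.one_apply, and_comm]

/-- The chain bound for the second factor. -/
theorem chain_le_rank_right (A : Matrix κ κ F) (B : Matrix l l F) (v : l → F) (k : ℕ)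
    (hv : LinearIndependent F (fun j : Fin (k + 1) => (B ^ (j : ℕ)) *ᵥ v)) :
    k * Fintype.card κ ≤ ((A ⊗ₖ B) - (1 : Matrix (κ × l) (κ × l) F)).rank := by
  rw [kron_swap, Matrix.rank_submatrix]
  exact chain_le_rank B A v k hv

/-- Independence of a cyclic chain for an irreducible polynomial. -/
theorem li_of_irreducible {V : Type*} [AddCommGroup V] [Module F V] (L : End F V) {g : F[X]}
    (hg : Irreducible g) {v : V} (hv0 : v ≠ 0) (hv : Polynomial.aeval L g v = 0) :
    LinearIndependent F (fun j : Fin g.natDegree => (L ^ (j : ℕ)) v) := by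
  classical
  rw [Fintype.linearIndependent_iff]
  intro c hc j
  let P : F[X] := ∑ i : Fin g.natDegree, Polynomial.C (c i) * X ^ (i : ℕ)
  have hP : Polynomial.aeval L P v = 0 := by
    rw [← hc]
    simp only [P, map_sum, LinearMap.sum_apply, map_mul, aeval_C, map_pow, aeval_X]
    refine Finset.sum_congr rfl fun i _ => ?_
    simp [Module.End.mul_apply]
  have hdeg : P.degree < g.natDegree := degree_sum_fin_lt c
  have hP0 : P = 0 := by
    by_contra hne
    have hnd : ¬ g ∣ P := by
      intro hd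
      have h1 := Polynomial.degree_le_of_dvd hd hne
      have h2 : g.degree = g.natDegree := Polynomial.degree_eq_natDegree hg.ne_zero
      rw [h2] at h1
      exact absurd hdeg (not_lt.mpr h1)
    obtain ⟨a, b, hab⟩ := (hg.coprime_iff_not_dvd).mpr hnd
    have h1 : Polynomial.aeval L (a * g + b * P) v = v := by
      rw [hab]
      simp
    rw [map_add, map_mul, map_mul, LinearMap.add_apply, Module.End.mul_apply, Module.End.mul_apply,
      hv, hP, map_zero, map_zero, add_zero] at h1
    exact hv0 h1.symm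
  have h2 := congrArg (fun Q => Polynomial.coeff Q (j : ℕ)) hP0
  simp only [P, Polynomial.finsetSum_coeff, Polynomial.coeff_C_mul, Polynomial.coeff_X_pow,
    Polynomial.coeff_zero] at h2
  rw [Finset.sum_eq_single j] at h2
  · simpa using h2
  · intro i _ hi
    have : (j : ℕ) ≠ (i : ℕ) := fun h => hi (Fin.ext h.symm)
    simp [this]
  · intro h
    exact absurd (Finset.mem_univ _) h

end chain

section inter

variable {F : Type*} [Field F] {κ : Type} [Fintype κ] [DecidableEq κ]
  {V : Type*} [AddCommGroup V] [Module F V]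

theorem pow_intertwine (ψ : (κ → F) ≃ₗ[F] V) {M : Matrix κ κ F} {T : End F V}
    (hψ : ∀ t, ψ (M *ᵥ t) = T (ψ t)) (n : ℕ) (t : κ → F) : ψ ((M ^ n) *ᵥ t) = (T ^ n) (ψ t) := by
  induction n generalizing t with
  | zero => simp
  | succ n ih =>
    rw [pow_succ, ← Matrix.mulVec_mulVec, ih, hψ, pow_succ, Module.End.mul_apply]

theorem aeval_intertwine (ψ : (κ → F) ≃ₗ[F] V) {M : Matrix κ κ F} {T : End F V}
    (hψ : ∀ t, ψ (M *ᵥ t) = T (ψ t)) (P : F[X]) (t : κ → F) :
    ψ ((Polynomial.aeval M P) *ᵥ t) = Polynomial.aeval T P (ψ t) := by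
  induction P using Polynomial.induction_on' with
  | add P Q hP hQ =>
    rw [map_add, map_add, Matrix.add_mulVec, map_add, hP, hQ, LinearMap.add_apply]
  | monomial n c =>
    rw [Polynomial.aeval_monomial, Polynomial.aeval_monomial, Algebra.algebraMap_eq_smul_one,
      smul_mul_assoc, one_mul, Matrix.smul_mulVec, map_smul, pow_intertwine ψ hψ,
      Algebra.algebraMap_eq_smul_one, smul_mul_assoc, one_mul, LinearMap.smul_apply]

theorem rank_sub_one_eq [FiniteDimensional F V] (ψ : (κ → F) ≃ₗ[F] V) {M : Matrix κ κ F} {T : End F V}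
    (hψ : ∀ t, ψ (M *ᵥ t) = T (ψ t)) :
    (M - 1).rank + Dk T (X - 1 : F[X]) = Fintype.card κ := by
  have h1 := LinearMap.finrank_range_add_finrank_ker (M - 1).mulVecLin
  rw [Module.finrank_fintype_fun_eq_card] at h1
  have h2 : LinearMap.ker (Polynomial.aeval T (X - 1 : F[X])) =
      (LinearMap.ker (M - 1).mulVecLin).map (ψ : (κ → F) →ₗ[F] V) := by
    ext v
    obtain ⟨t, rfl⟩ := ψ.surjective v
    simp only [Submodule.mem_map, LinearMap.mem_ker, Matrix.mulVecLin_apply, Matrix.sub_mulVec,
      Matrix.one_mulVec, map_sub, aeval_X, map_one, LinearMap.sub_apply, Module.End.one_apply]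
    constructor
    · intro h2
      refine ⟨t, ?_, rfl⟩
      rw [← hψ, ← map_sub] at h2
      exact (map_eq_zero_iff ψ ψ.injective).mp h2
    · rintro ⟨t', ht', he⟩
      have he' : t' = t := ψ.injective he
      subst he'
      have h2 : M *ᵥ t' = t' := sub_eq_zero.mp ht'
      rw [← hψ, h2, sub_self]
  have h3 : Dk T (X - 1 : F[X]) = finrank F (LinearMap.ker (M - 1).mulVecLin) := by
    unfold Dk
    rw [h2]
    exact LinearEquiv.finrank_map_eq ψ _
  rw [h3]
  exact h1

theorem eq_one_of_pow (ψ : (κ → F) ≃ₗ[F] V) {M : Matrix κ κ F} {T : End F V}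
    (hψ : ∀ t, ψ (M *ᵥ t) = T (ψ t)) {r : ℕ} (hT : T ^ r = 1) : M ^ r = 1 := by
  apply Matrix.toLin'.injective
  apply LinearMap.ext
  intro t
  apply ψ.injective
  rw [Matrix.toLin'_apply, pow_intertwine ψ hψ, hT, Matrix.toLin'_one]
  rfl

theorem toLin_intertwine (M : Matrix κ κ F) (t : κ → F) :
    (LinearEquiv.refl F (κ → F)) (M *ᵥ t) = (Matrix.toLin' M : End F (κ → F)) ((LinearEquiv.refl F (κ → F)) t) := rfl

end inter

section kron1

variable {F : Type*} [Field F] {κ l : Type} [Fintype κ] [DecidableEq κ] [Fintype l] [DecidableEq l]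

theorem kron_one_pow (B : Matrix l l F) (n : ℕ) :
    ((1 : Matrix κ κ F) ⊗ₖ B) ^ n = (1 : Matrix κ κ F) ⊗ₖ (B ^ n) := by
  rw [Cfsg.Agent.Lib.Elusive.KronConj.kron_pow, one_pow]

theorem aeval_one_kron (B : Matrix l l F) (P : F[X]) :
    Polynomial.aeval ((1 : Matrix κ κ F) ⊗ₖ B) P = (1 : Matrix κ κ F) ⊗ₖ (Polynomial.aeval B P) := by
  induction P using Polynomial.induction_on' with
  | add P Q hP hQ =>
    rw [map_add, hP, hQ, map_add, Matrix.kronecker_add]
  | monomial n c =>
    rw [Polynomial.aeval_monomial, Polynomial.aeval_monomial, kron_one_pow,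
      Algebra.algebraMap_eq_smul_one, Algebra.algebraMap_eq_smul_one, smul_mul_assoc, smul_mul_assoc,
      one_mul, one_mul, Matrix.kronecker_smul]

theorem eq_one_of_one_kron [Nonempty κ] {B : Matrix l l F}
    (h : (1 : Matrix κ κ F) ⊗ₖ B = 1) : B = 1 := by
  classical
  obtain ⟨i⟩ := ‹Nonempty κ›
  ext k m
  have h1 := congrFun (congrFun h (i, k)) (i, m)
  simpa [Matrix.kroneckerMap_apply, Matrix.one_apply] using h1

theorem eq_one_of_kron_one [Nonempty l] {A : Matrix κ κ F}
    (h : A ⊗ₖ (1 : Matrix l l F) = 1) : A = 1 := by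
  classical
  obtain ⟨i⟩ := ‹Nonempty l›
  ext k m
  have h1 := congrFun (congrFun h (k, i)) (m, i)
  simpa [Matrix.kroneckerMap_apply, Matrix.one_apply] using h1

theorem one_kron_sub (B : Matrix l l F) :
    ((1 : Matrix κ κ F) ⊗ₖ B) - 1 = (1 : Matrix κ κ F) ⊗ₖ (B - 1) := by
  ext ⟨i, k⟩ ⟨j, m⟩
  simp only [Matrix.sub_apply, Matrix.kroneckerMap_apply, Matrix.one_apply, Prod.mk.injEq]
  by_cases h1 : i = j <;> by_cases h2 : k = m <;> simp [h1, h2]

theorem kron_one_sub (A : Matrix κ κ F) :
    (A ⊗ₖ (1 : Matrix l l F)) - 1 = (A - 1) ⊗ₖ (1 : Matrix l l F) := by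
  ext ⟨i, k⟩ ⟨j, m⟩
  simp only [Matrix.sub_apply, Matrix.kroneckerMap_apply, Matrix.one_apply, Prod.mk.injEq]
  by_cases h1 : i = j <;> by_cases h2 : k = m <;> simp [h1, h2]

end kron1

section nokron

variable {F : Type u} [Field F] [Fintype F] {p : ℕ} [Fact p.Prime] [CharP F p] {q r i c a b : ℕ}
  [Fact r.Prime] {V : Type*} [AddCommGroup V] [Module F V] [FiniteDimensional F V]
  {Bf : LinearMap.BilinForm F V} {T : End F V}

/-- A nondegenerate invariant subspace of the fixed-point-free part contains a vector not orthogonal to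
its image. -/
theorem exists_pair (h : Rz Bf T r) (hr : r.Prime) (hr2 : r ≠ 2) (hrF : (r : F) ≠ 0) {U : Submodule F V}
    (hU₁ : U ≤ LinearMap.ker (Polynomial.aeval T (Phi F r))) (hU : Nd (fun u v => Bf u v) U)
    (hUi : Inv T U) (hpos : 0 < finrank F U) : ∃ u ∈ U, Bf u (T u) ≠ 0 := by
  by_contra hex
  push Not at hex
  obtain ⟨⟨v, hvE⟩, hv0⟩ : ∃ v : U, v ≠ 0 := by
    haveI := Module.nontrivial_of_finrank_pos (R := F) hpos
    exact exists_ne 0
  have hv0' : v ≠ 0 := fun h => hv0 (Subtype.ext h)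
  have hTinv : ∀ x, T ((T ^ (r - 1)) x) = x := by
    intro x
    have h1 : T * T ^ (r - 1) = 1 := by
      rw [← pow_succ', Nat.sub_add_cancel hr.one_le, h.pow]
    have h2 := congrArg (fun S : End F V => S x) h1
    simpa using h2
  have hTpow : ∀ x ∈ U, (T ^ (r - 1)) x ∈ U := fun x hx => by
    have := hUi.aeval (X ^ (r - 1)) x hx
    simpa using this
  have hkey : ∀ x ∈ U, Bf x (T v - (T ^ (r - 1)) v) = 0 := by
    intro x hx
    have h1 := hex (x + v) (U.add_mem hx hvE)
    have h2 := hex x hx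
    have h3' := hex v hvE
    have e1 : Bf (x + v) (T (x + v)) = Bf x (T x) + Bf x (T v) + (Bf v (T x) + Bf v (T v)) := by
      simp only [map_add, LinearMap.add_apply]
      ring
    rw [e1, h2, h3', add_zero, zero_add] at h1
    have h4 : Bf v (T x) = - Bf x ((T ^ (r - 1)) v) := by
      have h5 := h.iso ((T ^ (r - 1)) v) x
      rw [hTinv] at h5
      rw [h5]
      exact (h.alt.neg_eq _ _).symm
    rw [h4] at h1
    rw [map_sub]
    rw [sub_eq_add_neg]
    exact h1
  have h5 : T v - (T ^ (r - 1)) v = 0 := by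
    apply hU _ (U.sub_mem (hUi v hvE) (hTpow v hvE))
    intro x hx
    have := hkey x hx
    change Bf (T v - (T ^ (r - 1)) v) x = 0
    rw [← h.alt.neg_eq, this, neg_zero]
  have h6 : T (T v) = v := by
    have h7 : T v = (T ^ (r - 1)) v := sub_eq_zero.mp h5
    rw [h7, hTinv]
  have h7 : T v = v := by
    obtain ⟨a, ha⟩ := hr.odd_of_ne_two hr2
    have h8 : ∀ n : ℕ, (T ^ (2 * n)) v = v := by
      intro n
      induction n with
      | zero => simp
      | succ n ih =>
        have : 2 * (n + 1) = 2 * n + 2 := by ring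
        rw [this, pow_add, Module.End.mul_apply, pow_two, Module.End.mul_apply, h6, ih]
    have h9 : (T ^ r) v = T v := by
      rw [ha, pow_succ', Module.End.mul_apply, h8]
    rw [h.pow] at h9
    exact h9.symm
  have h8 : v ∈ LinearMap.ker (Polynomial.aeval T (Phi F r)) := hU₁ hvE
  obtain ⟨a', b', hab⟩ := isCoprime_Phi (F := F) hrF
  have h9 : Polynomial.aeval T (a' * (X - 1) + b' * Phi F r) v = v := by
    rw [hab]
    simp
  rw [map_add, map_mul, map_mul, LinearMap.add_apply, Module.End.mul_apply, Module.End.mul_apply,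
    LinearMap.mem_ker.mp h8, map_zero, add_zero] at h9
  have h10 : Polynomial.aeval T (X - 1 : F[X]) v = 0 := mem_fix.mpr h7
  rw [h10, map_zero] at h9
  exact hv0' h9.symm

/-- No nondegenerate invariant subspace of the moved part is annihilated by an irreducible polynomial of
odd degree. -/
theorem no_single (h : Rz Bf T r) (hr : r.Prime) (hr2 : r ≠ 2) (hrF : (r : F) ≠ 0) {g : F[X]}
    (hg : Irreducible g) (hodd : Odd g.natDegree) {U : Submodule F V}
    (hU₁ : U ≤ LinearMap.ker (Polynomial.aeval T (Phi F r)))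
    (hUg : U ≤ LinearMap.ker (Polynomial.aeval T g)) (hU : Nd (fun u v => Bf u v) U)
    (hUi : Inv T U) (hpos : 0 < finrank F U) : False := by
  obtain ⟨u, huU, hu⟩ := exists_pair h hr hr2 hrF hU₁ hU hUi hpos
  have hu0 : u ≠ 0 := by
    rintro rfl
    simp at hu
  have hgu : Polynomial.aeval T g u = 0 := LinearMap.mem_ker.mp (hUg huU)
  have hB := Rz.fm h
  have hinj : Function.Injective T :=
    inj_of_pow (c := 1) one_ne_zero hr.ne_zero (by rw [h.pow, one_smul])
  have hnd := cyc_nd hB h.iso hinj hg hu0 hgu (fun hTI =>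
    hu (hTI u (self_mem_cyc T u) (T u) (cyc_inv T u u (self_mem_cyc T u))))
  have hev := even_of_nd hB h.alt _ _ (cyc_finrank hg hu0 hgu) hnd
  exact (Nat.not_even_iff_odd.mpr hodd) hev

/-- A nontrivial element of order `r` gives a long chain. -/
theorem exists_chain (hq : Fintype.card F = q) (hr : r.Prime) (hrF : (r : F) ≠ 0) (hrq : ¬ r ∣ q)
    {κ : Type} [Fintype κ] [DecidableEq κ] (M : Matrix κ κ F) (hM : M ^ r = 1) (hM1 : M ≠ 1) :
    ∃ v : κ → F, LinearIndependent F (fun j : Fin (orderOf (q : ZMod r)) => (M ^ (j : ℕ)) *ᵥ v) := by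
  classical
  let L : End F (κ → F) := Matrix.toLin' M
  have hLpow : ∀ (n : ℕ) (v : κ → F), (L ^ n) v = (M ^ n) *ᵥ v := by
    intro n v
    have := pow_intertwine (LinearEquiv.refl F (κ → F)) (M := M) (T := L) (fun t => rfl) n v
    simpa using this.symm
  have hLr : L ^ r = 1 := by
    apply LinearMap.ext
    intro v
    rw [hLpow, hM, Matrix.one_mulVec]
    rfl
  have hsplit := (split01 hrF hLr (U := ⊤) (fun v _ => trivial)).2
  rw [top_inf_eq, top_inf_eq, finrank_top] at hsplit
  have hpos : 0 < finrank F (LinearMap.ker (Polynomial.aeval L (Phi F r))) := by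
    by_contra h0
    have h1 : finrank F (LinearMap.ker (Polynomial.aeval L (X - 1 : F[X]))) = finrank F (κ → F) := by
      omega
    have h2 : LinearMap.ker (Polynomial.aeval L (X - 1 : F[X])) = ⊤ :=
      Submodule.eq_top_of_finrank_eq h1
    apply hM1
    apply Matrix.toLin'.injective
    apply LinearMap.ext
    intro v
    have h3 : v ∈ LinearMap.ker (Polynomial.aeval L (X - 1 : F[X])) := by
      rw [h2]
      trivial
    rw [Matrix.toLin'_one]
    exact mem_fix.mp h3
  obtain ⟨S, hS, hprod, -⟩ := exists_factors hq hr hrF hrq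
  have hcop : ∀ g ∈ S, ∀ k ∈ S, g ≠ k → IsCoprime g k := by
    intro g hg k hk hne
    obtain ⟨hgi, hgm, -⟩ := hS g hg
    obtain ⟨hki, hkm, -⟩ := hS k hk
    refine hgi.coprime_iff_not_dvd.mpr ?_
    intro hd
    exact hne (Polynomial.eq_of_monic_of_associated hgm hkm (hgi.associated_of_dvd hki hd))
  have h3 := finrank_sum_factors (W := ⊤) (T := L) (fun v _ => trivial) S hcop
  rw [hprod, top_inf_eq] at h3
  obtain ⟨g, hgS, hgpos⟩ : ∃ g ∈ S, 0 < finrank F (⊤ ⊓ LinearMap.ker (Polynomial.aeval L g) :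
      Submodule F (κ → F)) := by
    by_contra hcon
    push Not at hcon
    have h4 : ∑ g ∈ S, finrank F (⊤ ⊓ LinearMap.ker (Polynomial.aeval L g) : Submodule F (κ → F)) = 0 :=
      Finset.sum_eq_zero (fun g hg => by have := hcon g hg; omega)
    omega
  obtain ⟨hgi, hgm, hgr, hg1, hgd⟩ := hS g hgS
  rw [top_inf_eq] at hgpos
  obtain ⟨⟨v, hv⟩, hv0⟩ : ∃ v : LinearMap.ker (Polynomial.aeval L g), v ≠ 0 := by
    haveI := Module.nontrivial_of_finrank_pos (R := F) hgpos
    exact exists_ne 0
  have hv0' : v ≠ 0 := fun h => hv0 (Subtype.ext h)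
  refine ⟨v, ?_⟩
  have hli := li_of_irreducible L hgi hv0' (LinearMap.mem_ker.mp hv)
  have h5 := hli.comp (Fin.cast hgd.symm) (Fin.cast_injective _)
  have h6 : (fun j : Fin (orderOf (q : ZMod r)) => (M ^ (j : ℕ)) *ᵥ v) =
      (fun j : Fin g.natDegree => (L ^ (j : ℕ)) v) ∘ (Fin.cast hgd.symm) := by
    funext j
    simp [hLpow]
  rw [h6]
  exact h5

/-- A Kronecker element `1 ⊗ B'`, with `B'` moving an odd `orderOf q`-dimensional space, cannot act as an
isometry with moved part of positive dimension. -/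
theorem one_kron_case (hq : Fintype.card F = q) (h : Rz Bf T r) (hr : r.Prime) (hr2 : r ≠ 2) (hrF : (r : F) ≠ 0)
    (hrq : ¬ r ∣ q) {κ l : Type} [Fintype κ] [DecidableEq κ] [Fintype l] [DecidableEq l] [Nonempty κ]
    (ψ : (κ × l → F) ≃ₗ[F] V) (B' : Matrix l l F)
    (hψ : ∀ t, ψ (((1 : Matrix κ κ F) ⊗ₖ B') *ᵥ t) = T (ψ t)) (hB' : B' ^ r = 1)
    (hrk : (B' - 1).rank = orderOf (q : ZMod r)) (hiodd : Odd (orderOf (q : ZMod r)))
    (hpos : 0 < finrank F (LinearMap.ker (Polynomial.aeval T (Phi F r)))) : False := by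
  classical
  set i := orderOf (q : ZMod r) with hi
  have hipos : 0 < i := hiodd.pos
  let L : End F (l → F) := Matrix.toLin' B'
  have hLψ : ∀ t, (LinearEquiv.refl F (l → F)) (B' *ᵥ t) = L ((LinearEquiv.refl F (l → F)) t) := fun t => rfl
  have hLr : L ^ r = 1 := by
    apply LinearMap.ext
    intro v
    have := pow_intertwine (LinearEquiv.refl F (l → F)) hLψ r v
    simp only [LinearEquiv.refl_apply] at this
    rw [← this, hB', Matrix.one_mulVec]
    rfl
  have hsplit := (split01 hrF hLr (U := ⊤) (fun v _ => trivial)).2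
  rw [top_inf_eq, top_inf_eq, finrank_top, Module.finrank_fintype_fun_eq_card] at hsplit
  have hrke := rank_sub_one_eq (LinearEquiv.refl F (l → F)) hLψ
  unfold Dk at hrke
  have hK : finrank F (LinearMap.ker (Polynomial.aeval L (Phi F r))) = i := by omega
  obtain ⟨S, hS, hprod, -⟩ := exists_factors hq hr hrF hrq
  have hcop : ∀ g ∈ S, ∀ k ∈ S, g ≠ k → IsCoprime g k := by
    intro g hg k hk hne
    obtain ⟨hgi, hgm, -⟩ := hS g hg
    obtain ⟨hki, hkm, -⟩ := hS k hk
    refine hgi.coprime_iff_not_dvd.mpr ?_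
    intro hd
    exact hne (Polynomial.eq_of_monic_of_associated hgm hkm (hgi.associated_of_dvd hki hd))
  have h3 := finrank_sum_factors (W := ⊤) (T := L) (fun v _ => trivial) S hcop
  rw [hprod, top_inf_eq, hK] at h3
  obtain ⟨g, hgS, hgpos⟩ : ∃ g ∈ S, 0 < finrank F (⊤ ⊓ LinearMap.ker (Polynomial.aeval L g) :
      Submodule F (l → F)) := by
    by_contra hcon
    push Not at hcon
    have h4 : ∑ g ∈ S, finrank F (⊤ ⊓ LinearMap.ker (Polynomial.aeval L g) : Submodule F (l → F)) = 0 :=
      Finset.sum_eq_zero (fun g hg => by have := hcon g hg; omega)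
    omega
  obtain ⟨hgi, hgm, hgr, hg1, hgd⟩ := hS g hgS
  have hdv := natDegree_dvd_inf (T := L) hgi (W := ⊤) (fun v _ => trivial)
  rw [hgd] at hdv
  have hge : i ≤ finrank F (⊤ ⊓ LinearMap.ker (Polynomial.aeval L g) : Submodule F (l → F)) :=
    Nat.le_of_dvd hgpos hdv
  have hle0 : finrank F (⊤ ⊓ LinearMap.ker (Polynomial.aeval L g) : Submodule F (l → F)) ≤ i := by
    rw [h3]
    exact Finset.single_le_sum (f := fun g => finrank F (⊤ ⊓ LinearMap.ker (Polynomial.aeval L g) :
      Submodule F (l → F))) (fun _ _ => Nat.zero_le _) hgS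
  rw [top_inf_eq] at hge hle0
  have hgdvd : g ∣ Phi F r := by
    rw [← hprod]
    exact Finset.dvd_prod_of_mem _ hgS
  have hker_le : LinearMap.ker (Polynomial.aeval L g) ≤ LinearMap.ker (Polynomial.aeval L (Phi F r)) := by
    obtain ⟨c, hc⟩ := hgdvd
    intro v hv
    rw [LinearMap.mem_ker] at hv ⊢
    rw [hc, mul_comm, map_mul, Module.End.mul_apply, hv, map_zero]
  have hker_eq : LinearMap.ker (Polynomial.aeval L g) = LinearMap.ker (Polynomial.aeval L (Phi F r)) :=
    Submodule.eq_of_le_of_finrank_eq hker_le (by omega)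
  have hQL : Polynomial.aeval L (g * (X - 1)) = 0 := by
    apply LinearMap.ext
    intro w
    rw [map_mul, Module.End.mul_apply, LinearMap.zero_apply, ← LinearMap.mem_ker, hker_eq,
      LinearMap.mem_ker, ← Module.End.mul_apply, ← map_mul]
    have hPm : Phi F r * (X - 1) = (X - 1) * Phi F r := mul_comm _ _
    rw [hPm, aeval_X_pow_sub_one hLr]
    rfl
  have hQB : Polynomial.aeval B' (g * (X - 1)) = 0 := by
    apply Matrix.toLin'.injective
    apply LinearMap.ext
    intro t
    have := aeval_intertwine (LinearEquiv.refl F (l → F)) hLψ (g * (X - 1)) t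
    simp only [LinearEquiv.refl_apply] at this
    rw [hQL, LinearMap.zero_apply] at this
    rw [Matrix.toLin'_apply, this]
    simp
  have hQT : Polynomial.aeval T (g * (X - 1)) = 0 := by
    apply LinearMap.ext
    intro v
    obtain ⟨t, rfl⟩ := ψ.surjective v
    rw [← aeval_intertwine ψ hψ, aeval_one_kron, hQB, Matrix.kronecker_zero]
    simp
  have hle1 : LinearMap.ker (Polynomial.aeval T (Phi F r)) ≤ LinearMap.ker (Polynomial.aeval T g) := by
    intro v hv
    rw [LinearMap.mem_ker] at hv ⊢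
    obtain ⟨a', b', hab⟩ := isCoprime_Phi (F := F) hrF
    have h9 : Polynomial.aeval T (g * (a' * (X - 1) + b' * Phi F r)) v = Polynomial.aeval T g v := by
      rw [hab, mul_one]
    have h10 : g * (a' * (X - 1) + b' * Phi F r) = a' * (g * (X - 1)) + g * b' * Phi F r := by ring
    rw [h10, map_add, LinearMap.add_apply, map_mul, map_mul _ (g * b'), hQT, mul_zero, LinearMap.zero_apply,
      zero_add, Module.End.mul_apply, hv, map_zero] at h9
    exact h9.symm
  have hB := Rz.fm h
  have hnd : Nd (fun u v => Bf u v) (LinearMap.ker (Polynomial.aeval T (Phi F r))) := by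
    have := nd1 hB h.iso hrF h.pow hB.nd_top (U := ⊤) (fun v _ => trivial)
    rwa [top_inf_eq] at this
  exact no_single h hr hr2 hrF hgi (by rw [hgd]; exact hiodd) le_rfl hle1 hnd (inv_ker T _) hpos

/-- Rank facts for Kronecker products of matrices on `Fin a`, `Fin b`. -/
theorem no_kron (hq : Fintype.card F = q) (h : Rz Bf T r) (hr : r.Prime) (hr2 : r ≠ 2) (hrF : (r : F) ≠ 0)
    (hrq : ¬ r ∣ q) (hrp : r ≠ p) (ha : Even a) (ha2 : 2 ≤ a) (hb : 3 ≤ b)
    (hc : c = if Even (orderOf (q : ZMod r)) then orderOf (q : ZMod r) else 2 * orderOf (q : ZMod r))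
    (ψ : (Fin a × Fin b → F) ≃ₗ[F] V) (A : Matrix (Fin a) (Fin a) F) (B : Matrix (Fin b) (Fin b) F)
    (B' : Matrix (Fin b) (Fin b) F) (hBB' : B * B' = 1)
    (hψ : ∀ t, ψ ((A ⊗ₖ B) *ᵥ t) = T (ψ t))
    (hdim : Dk T (X - 1 : F[X]) + c = a * b) : False := by
  classical
  haveI : Nonempty (Fin a) := ⟨⟨0, by omega⟩⟩
  haveI : Nonempty (Fin b) := ⟨⟨0, by omega⟩⟩
  set i := orderOf (q : ZMod r) with hi
  have hipos : 0 < i := by
    have hq1 : (q : ZMod r) ≠ 0 := fun h0 => hrq ((ZMod.natCast_eq_zero_iff q r).mp h0)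
    have : IsUnit (q : ZMod r) := hq1.isUnit
    exact orderOf_pos_iff.mpr (this.isOfFinOrder)
  have hcpos : 0 < c := by
    rw [hc]
    split_ifs <;> omega
  have hrk := rank_sub_one_eq ψ hψ
  rw [Fintype.card_prod, Fintype.card_fin, Fintype.card_fin] at hrk
  have hrkM : ((A ⊗ₖ B) - 1).rank = c := by omega
  have hMr : (A ⊗ₖ B) ^ r = 1 := eq_one_of_pow ψ hψ h.pow
  have hM1 : (A ⊗ₖ B) ≠ 1 := by
    intro h1
    rw [h1, sub_self, Matrix.rank_zero] at hrkM
    omega
  have hKpos : 0 < finrank F (LinearMap.ker (Polynomial.aeval T (Phi F r))) := by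
    have hsplit := (split01 hrF h.pow (U := ⊤) (fun v _ => trivial)).2
    rw [top_inf_eq, top_inf_eq, finrank_top] at hsplit
    have hfr : finrank F V = a * b := by
      rw [← LinearEquiv.finrank_eq ψ, Module.finrank_fintype_fun_eq_card, Fintype.card_prod,
        Fintype.card_fin, Fintype.card_fin]
    unfold Dk at hdim
    omega
  by_cases hAs : ∀ z : F, A ≠ z • 1
  · by_cases hBs : ∀ z : F, B ≠ z • 1
    · -- both factors nonscalar
      have h1 := Kron.card_le_rank_of_left A B B' hBB' hAs 1
      rw [Fintype.card_fin, one_smul, hrkM] at h1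
      by_cases hi2 : i ≤ 2
      · have hc2 : c = 2 := by
          rw [hc]
          have : i = 1 ∨ i = 2 := by omega
          rcases this with h2 | h2 <;> rw [h2] <;> decide
        omega
      · -- `r` does not divide `q - 1`
        have hr1 : ¬ r ∣ q - 1 := by
          intro hd
          have hFcard : 1 ≤ q := by
            rw [← hq]
            exact Fintype.card_pos
          have h3 : orderOf (q : ZMod r) ∣ 1 := by
            haveI : Fact r.Prime := ⟨hr⟩
            rw [ord_dvd_iff hFcard, pow_one]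
            exact hd
          have := Nat.le_of_dvd one_pos h3
          omega
        have hne1 : ((1 : F) ≠ 0) := one_ne_zero
        obtain ⟨s, hs0, hAr, hBr⟩ := KronConj.scalar_of_kron_eq_smul_one (A ^ r) (B ^ r) (1 : F) hne1
          (by rw [← KronConj.kron_pow, hMr, one_smul])
        have hcop : (Nat.card Fˣ).Coprime r := by
          rw [Nat.card_eq_fintype_card, Fintype.card_units, hq]
          exact ((Nat.Prime.coprime_iff_not_dvd hr).2 hr1).symm
        obtain ⟨u, hu⟩ := (powCoprime hcop).surjective (Units.mk0 s hs0)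
        have hu' : (u : F) ^ r = s := by
          have := congrArg Units.val hu
          simpa using this
        have hu0 : (u : F) ≠ 0 := u.ne_zero
        let A₁ : Matrix (Fin a) (Fin a) F := (u : F)⁻¹ • A
        let B₁ : Matrix (Fin b) (Fin b) F := (u : F) • B
        have hK : A ⊗ₖ B = A₁ ⊗ₖ B₁ := by
          simp only [A₁, B₁]
          rw [Matrix.smul_kronecker, Matrix.kronecker_smul, smul_smul, inv_mul_cancel₀ hu0, one_smul]
        have hA₁r : A₁ ^ r = 1 := by
          simp only [A₁]
          rw [_root_.smul_pow, hAr, smul_smul, inv_pow, hu', inv_mul_cancel₀ hs0, one_smul]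
        have hB₁r : B₁ ^ r = 1 := by
          simp only [B₁]
          rw [_root_.smul_pow, hBr, smul_smul, hu', one_mul, mul_inv_cancel₀ hs0, one_smul]
        have hA₁1 : A₁ ≠ 1 := by
          intro h1
          apply hAs (u : F)
          have : A = (u : F) • A₁ := by
            simp only [A₁]
            rw [smul_smul, mul_inv_cancel₀ hu0, one_smul]
          rw [this, h1]
        have hB₁1 : B₁ ≠ 1 := by
          intro h1
          apply hBs (u : F)⁻¹
          have : B = (u : F)⁻¹ • B₁ := by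
            simp only [B₁]
            rw [smul_smul, inv_mul_cancel₀ hu0, one_smul]
          rw [this, h1]
        rw [hK] at hrkM
        obtain ⟨v, hv⟩ := exists_chain (M := A₁) hq hr hrF hrq hA₁r hA₁1
        obtain ⟨w, hw⟩ := exists_chain (M := B₁) hq hr hrF hrq hB₁r hB₁1
        obtain ⟨k, hk⟩ : ∃ k, i = k + 1 := ⟨i - 1, by omega⟩
        have hv' : LinearIndependent F (fun j : Fin (k + 1) => (A₁ ^ (j : ℕ)) *ᵥ v) := by
          have := hv.comp (Fin.cast hk.symm) (Fin.cast_injective _)
          exact this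
        have hw' : LinearIndependent F (fun j : Fin (k + 1) => (B₁ ^ (j : ℕ)) *ᵥ w) := by
          have := hw.comp (Fin.cast hk.symm) (Fin.cast_injective _)
          exact this
        have h2 := chain_le_rank A₁ B₁ v k hv'
        have h3 := chain_le_rank_right A₁ B₁ w k hw'
        rw [hrkM, Fintype.card_fin] at h2 h3
        have h4 := OrderRank.order_le_rank (p := p) hq (hr := ⟨hr⟩) hrp A₁ hA₁r hA₁1
        have h5 : (A₁ - 1).rank ≤ a := by
          have := Matrix.rank_le_card_height (A₁ - 1)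
          simpa using this
        by_cases hie : Even i
        · rw [if_pos hie] at hc
          subst hc
          nlinarith
        · rw [if_neg hie] at hc
          subst hc
          have h6 : Odd i := Nat.not_even_iff_odd.mp hie
          have h7 : i + 1 ≤ a := by
            have : i ≠ a := fun h8 => hie (h8 ▸ ha)
            omega
          nlinarith
    · -- `B` scalar
      push Not at hBs
      obtain ⟨s, hs⟩ := hBs
      have hsne : s ≠ 0 := by
        rintro rfl
        rw [zero_smul] at hs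
        have h2 := congrArg (fun X => X ⟨0, by omega⟩ ⟨0, by omega⟩) hBB'
        simp [hs] at h2
      let A' : Matrix (Fin a) (Fin a) F := s • A
      have hM : A ⊗ₖ B = A' ⊗ₖ (1 : Matrix (Fin b) (Fin b) F) := by
        simp only [A']
        rw [hs, Matrix.kronecker_smul, Matrix.smul_kronecker]
      rw [hM] at hrkM hMr
      have hA'r : A' ^ r = 1 := by
        apply eq_one_of_kron_one (l := Fin b)
        rw [KronConj.kron_pow, one_pow] at hMr
        exact hMr
      have hA'1 : A' ≠ 1 := by
        intro h1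
        rw [h1, Matrix.one_kronecker_one, sub_self, Matrix.rank_zero] at hrkM
        omega
      have h3 := OrderRank.order_le_rank (p := p) hq (hr := ⟨hr⟩) hrp A' hA'r hA'1
      rw [kron_one_sub, Kron.rank_kronecker_one, Fintype.card_fin] at hrkM
      have hcle : c ≤ 2 * i := by
        rw [hc]
        split_ifs <;> omega
      nlinarith
  · -- `A` scalar
    push Not at hAs
    obtain ⟨s, hs⟩ := hAs
    let B₂ : Matrix (Fin b) (Fin b) F := s • B
    have hM : A ⊗ₖ B = (1 : Matrix (Fin a) (Fin a) F) ⊗ₖ B₂ := by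
      simp only [B₂]
      rw [hs, Matrix.kronecker_smul, Matrix.smul_kronecker]
    rw [hM] at hrkM hMr hψ
    have hB₂r : B₂ ^ r = 1 := by
      apply eq_one_of_one_kron (κ := Fin a)
      rw [kron_one_pow] at hMr
      exact hMr
    have hB₂1 : B₂ ≠ 1 := by
      intro h1
      rw [h1, Matrix.one_kronecker_one, sub_self, Matrix.rank_zero] at hrkM
      omega
    have h3 := OrderRank.order_le_rank (p := p) hq (hr := ⟨hr⟩) hrp B₂ hB₂r hB₂1
    rw [one_kron_sub, Kron.rank_one_kronecker, Fintype.card_fin] at hrkM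
    by_cases hie : Even i
    · rw [if_pos hie] at hc
      subst hc
      nlinarith
    · rw [if_neg hie] at hc
      subst hc
      have h6 : Odd i := Nat.not_even_iff_odd.mp hie
      have ha2' : a = 2 := by
        by_contra hne
        have : 3 ≤ a := by omega
        nlinarith
      have hrk2 : (B₂ - 1).rank = i := by
        subst ha2'
        omega
      exact one_kron_case hq h hr hr2 hrF hrq ψ B₂ hψ hB₂r hrk2 h6 hKpos

end nokron

end Cfsg.Agent.Lib.FGStruct.KronChain
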