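import Cfsg.Agent.Lib.FGStruct.KronChain
import Cfsg.Agent.Lib.ElusDec.SpNegD
import Cfsg.Agent.Lib.CmaxS.Simple
import Cfsg.Agent.Lib.Classical.SympCount
import Cfsg.Agent.Lib.ElusF.SpUniModel

/-!
# Elements of prime order of symplectic groups and tensor decompositions `Sp ⊗ O`
-/

set_option autoImplicit false
set_option linter.unusedSectionVars false
set_option linter.style.haveILetI false
set_option linter.unusedVariables false
set_option linter.unusedSimpArgs false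

open Polynomial Module Matrix Kronecker
open scoped MatrixGroups

universe u

namespace Cfsg.Agent.Lib.FGStruct.TensorSp

open Cfsg Cfsg.Agent.Lib.ElusL.Basic Cfsg.Agent.Lib.ElusL.Flag Cfsg.Agent.Lib.ElusL.Cyc
  Cfsg.Agent.Lib.ElusL.Pos Cfsg.Agent.Lib.ElusF.Form Cfsg.Agent.Lib.ElusF.Step
  Cfsg.Agent.Lib.ElusF.Split Cfsg.Agent.Lib.ElusF.SpModel Cfsg.Agent.Lib.ElusF.SpNeg
  Cfsg.Agent.Lib.ElusF.SpPos Cfsg.Agent.Lib.ElusF.SpPos2 Cfsg.Agent.Lib.ElusF.SpTwo
  Cfsg.Agent.Lib.ElusF.SpMain Cfsg.Agent.Lib.Classical.SympForm Cfsg.Agent.Lib.ElusF.SpNd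
  Cfsg.Agent.Lib.ElusF.SpNdThm Cfsg.Agent.Lib.SylowLarge.SpForm Cfsg.Agent.Lib.Elusive
  Cfsg.Agent.Lib.FGStruct.KronChain Cfsg.Agent.Lib.NotMax.Tensor Cfsg.Agent.Lib.Geo.Basic

section fwd

variable {F : Type u} [Field F] [Fintype F] {d a b r : ℕ}

/-- The hypothesis: all elements of order `r` modulo scalars are conjugate into the tensor subgroup. -/
abbrev AllT (F : Type u) [Field F] (d a b r : ℕ) (e : (Fin d ⊕ Fin d) ≃ Fin a × Fin b)
    (P : GL (Fin d ⊕ Fin d) F) : Prop :=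
  ∀ x ∈ Cfsg.spGL d F,
    (∃ z : F, ((x ^ r : GL (Fin d ⊕ Fin d) F) : Matrix (Fin d ⊕ Fin d) (Fin d ⊕ Fin d) F) =
      z • (1 : Matrix (Fin d ⊕ Fin d) (Fin d ⊕ Fin d) F)) →
    (∀ z : F, (x : Matrix (Fin d ⊕ Fin d) (Fin d ⊕ Fin d) F) ≠
      z • (1 : Matrix (Fin d ⊕ Fin d) (Fin d ⊕ Fin d) F)) →
    ∃ g ∈ Cfsg.spGL d F, g⁻¹ * x * g ∈ Cfsg.Geo.tensorProductSubgroup a b e P

/-- Invertible matrices as linear equivalences. -/
noncomputable def glLE {ι : Type} [Fintype ι] [DecidableEq ι] (g : GL ι F) : (ι → F) ≃ₗ[F] (ι → F) :=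
  LinearEquiv.ofLinearMap (Matrix.toLin' (g : Matrix ι ι F)) (Matrix.toLin' ((g⁻¹ : GL ι F) : Matrix ι ι F))
    (by rw [← Matrix.toLin'_mul, ← Units.val_mul, mul_inv_cancel, Units.val_one, Matrix.toLin'_one])
    (by rw [← Matrix.toLin'_mul, ← Units.val_mul, inv_mul_cancel, Units.val_one, Matrix.toLin'_one])

theorem glLE_apply {ι : Type} [Fintype ι] [DecidableEq ι] (g : GL ι F) (v : ι → F) :
    glLE g v = (g : Matrix ι ι F) *ᵥ v := rfl

/-- An isometry of a model gives a Kronecker element acting on it. -/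
theorem exists_psi {V : Type*} [AddCommGroup V] [Module F V] [FiniteDimensional F V]
    {Bf : LinearMap.BilinForm F V} {T : End F V} (e : (Fin d ⊕ Fin d) ≃ Fin a × Fin b)
    (P : GL (Fin d ⊕ Fin d) F) (hall : AllT F d a b r e P) (h : Rz Bf T r) (hdim : finrank F V = 2 * d)
    (hNS : ∀ z : F, T ≠ z • 1) :
    ∃ (ψ : (Fin a × Fin b → F) ≃ₗ[F] V) (A : GL (Fin a) F) (B : GL (Fin b) F),
      ∀ t, ψ (((A : Matrix (Fin a) (Fin a) F) ⊗ₖ (B : Matrix (Fin b) (Fin b) F)) *ᵥ t) = T (ψ t) := by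
  classical
  obtain ⟨e₀, x₀, he, hx, hpow⟩ := exists_conj (d := d) h hdim
  let x' : GL (Fin d ⊕ Fin d) F :=
    ⟨(x₀ : Matrix (Fin d ⊕ Fin d) (Fin d ⊕ Fin d) F),
      ((x₀⁻¹ : Matrix.symplecticGroup (Fin d) F) : Matrix (Fin d ⊕ Fin d) (Fin d ⊕ Fin d) F),
      congrArg Subtype.val (mul_inv_cancel x₀), congrArg Subtype.val (inv_mul_cancel x₀)⟩
  have hx'c : (x' : Matrix (Fin d ⊕ Fin d) (Fin d ⊕ Fin d) F) = x₀ := rfl
  have hmem : x' ∈ Cfsg.spGL d F := by
    rw [mem_spGL_iff]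
    intro u v
    rw [hx'c, ← he, ← he, hx, hx, h.iso, he]
  have hr' : ((x' ^ r : GL (Fin d ⊕ Fin d) F) : Matrix (Fin d ⊕ Fin d) (Fin d ⊕ Fin d) F) =
      (1 : F) • (1 : Matrix (Fin d ⊕ Fin d) (Fin d ⊕ Fin d) F) := by
    rw [Units.val_pow_eq_pow_val, hx'c, ← hpow]
    rfl
  have hns : ∀ z : F, (x' : Matrix (Fin d ⊕ Fin d) (Fin d ⊕ Fin d) F) ≠
      z • (1 : Matrix (Fin d ⊕ Fin d) (Fin d ⊕ Fin d) F) := by
    intro z hz
    apply hNS z
    apply LinearMap.ext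
    intro v
    obtain ⟨w, rfl⟩ := e₀.surjective v
    rw [← hx, ← hx'c, hz, Matrix.smul_mulVec, Matrix.one_mulVec, map_smul]
    rfl
  obtain ⟨g, hg, hm⟩ := hall x' hmem ⟨1, hr'⟩ hns
  obtain ⟨M, ⟨A, B, hM⟩, hPsi⟩ := (mem_tensor_iff e P).mp hm
  refine ⟨(LinearEquiv.funCongrLeft F F e) ≪≫ₗ glLE P ≪≫ₗ glLE g ≪≫ₗ e₀, A, B, fun t => ?_⟩
  simp only [LinearEquiv.trans_apply, glLE_apply, LinearEquiv.funCongrLeft_apply, LinearMap.funLeft_apply]
  have h1 := Psi_mulVec e P M t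
  rw [hPsi, hM] at h1
  have hc : ∀ s : Fin a × Fin b → F, (LinearMap.funLeft F F e) s = s ∘ e := fun s => rfl
  simp only [hc]
  rw [← h1, ← hx, ← hx'c]
  congr 1
  generalize (P : Matrix (Fin d ⊕ Fin d) (Fin d ⊕ Fin d) F) *ᵥ (t ∘ e) = w
  rw [Matrix.mulVec_mulVec, Matrix.mulVec_mulVec, ← Units.val_mul, ← Units.val_mul]
  congr 2
  group

/-- If the rank of `A ⊗ B - 1` is small, then `a` divides it. -/
theorem dvd_rank_of_lt {A : Matrix (Fin a) (Fin a) F} {B B' : Matrix (Fin b) (Fin b) F} (hBB' : B * B' = 1)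
    (hm : ((A ⊗ₖ B) - 1).rank < b) : a ∣ ((A ⊗ₖ B) - 1).rank := by
  by_cases hAs : ∀ z : F, A ≠ z • 1
  · have h1 := Kron.card_le_rank_of_left A B B' hBB' hAs 1
    rw [Fintype.card_fin, one_smul] at h1
    omega
  · push Not at hAs
    obtain ⟨s, hs⟩ := hAs
    have hM : A ⊗ₖ B = (1 : Matrix (Fin a) (Fin a) F) ⊗ₖ (s • B) := by
      rw [hs, Matrix.kronecker_smul, Matrix.smul_kronecker]
    rw [hM, one_kron_sub, Kron.rank_one_kronecker, Fintype.card_fin]
    exact Nat.dvd_mul_right _ _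

theorem not_scalar_of_Dk {V : Type*} [AddCommGroup V] [Module F V] [FiniteDimensional F V] {T : End F V}
    (h0 : 0 < Dk T (X - 1 : F[X])) (h1 : Dk T (X - 1 : F[X]) < finrank F V) (z : F) : T ≠ z • 1 := by
  intro hz
  unfold Dk at h0
  obtain ⟨⟨v, hv⟩, hv0⟩ : ∃ v : LinearMap.ker (Polynomial.aeval T (X - 1 : F[X])), v ≠ 0 := by
    haveI := Module.nontrivial_of_finrank_pos (R := F) h0
    exact exists_ne 0
  have hv0' : v ≠ 0 := fun h => hv0 (Subtype.ext h)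
  have hv1 : T v = v := mem_fix.mp hv
  have hz1 : z = 1 := by
    rw [hz] at hv1
    simp only [LinearMap.smul_apply, Module.End.one_apply] at hv1
    have h2 : (z - 1) • v = 0 := by rw [sub_smul, hv1, one_smul, sub_self]
    have := (smul_eq_zero.mp h2).resolve_right hv0'
    exact sub_eq_zero.mp this
  rw [hz1, one_smul] at hz
  rw [hz, Dk_one_sub] at h1
  exact lt_irrefl _ h1

/-- A model with small moved space contradicts the hypothesis. -/
theorem false_of_small {V : Type*} [AddCommGroup V] [Module F V] [FiniteDimensional F V]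
    {Bf : LinearMap.BilinForm F V} {T : End F V} {m : ℕ} (hab : 2 * d = a * b)
    (e : (Fin d ⊕ Fin d) ≃ Fin a × Fin b) (P : GL (Fin d ⊕ Fin d) F) (hall : AllT F d a b r e P)
    (h : Rz Bf T r) (hdim : finrank F V = 2 * d) (hD : Dk T (X - 1 : F[X]) + m = 2 * d)
    (hm : 0 < m) (hm' : m < b) (hD0 : 0 < Dk T (X - 1 : F[X])) (hna : ¬ a ∣ m) : False := by
  classical
  obtain ⟨ψ, A, B, hψ⟩ := exists_psi e P hall h hdim (not_scalar_of_Dk hD0 (by omega))
  have hrk := rank_sub_one_eq ψ hψ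
  rw [Fintype.card_prod, Fintype.card_fin, Fintype.card_fin] at hrk
  have hrk' : (((A : Matrix (Fin a) (Fin a) F) ⊗ₖ (B : Matrix (Fin b) (Fin b) F)) - 1).rank = m := by omega
  have hBB' : (B : Matrix (Fin b) (Fin b) F) * ((B⁻¹ : GL (Fin b) F) : Matrix (Fin b) (Fin b) F) = 1 := by
    rw [← Units.val_mul, mul_inv_cancel, Units.val_one]
  have := dvd_rank_of_lt (A := (A : Matrix (Fin a) (Fin a) F)) hBB' (by rw [hrk']; exact hm')
  rw [hrk'] at this
  exact hna this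

/-- The characteristic case: transvections. -/
theorem no_p {p : ℕ} [Fact p.Prime] [CharP F p] (hF2 : (2 : F) ≠ 0) (hd : 2 ≤ d) (hab : 2 * d = a * b) (ha2 : 2 ≤ a) (hb : 3 ≤ b)
    (e : (Fin d ⊕ Fin d) ≃ Fin a × Fin b) (P : GL (Fin d ⊕ Fin d) F) (hall : AllT F d a b p e P) :
    False := by
  classical
  let μ : Multiset ℕ := 2 ::ₘ Multiset.replicate (2 * d - 2) 1
  have hp2 := (Fact.out : p.Prime).two_le
  obtain ⟨V, i1, i2, i3, Bf, T, hRz, hf, hD⟩ := Cfsg.Agent.Lib.ElusF.SpUniModel.model_uni (F := F) (p := p) hF2 _ μ rfl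
    (by
      intro x hx
      rcases Multiset.mem_cons.mp hx with rfl | hx
      · exact ⟨by norm_num, hp2⟩
      · rw [Multiset.eq_of_mem_replicate hx]
        exact ⟨by norm_num, by omega⟩)
    (by
      intro x hx
      simp only [μ, Multiset.count_cons, Multiset.count_replicate]
      by_cases hx1 : x = 1
      · subst hx1
        simp
        exact ⟨d - 1, by omega⟩
      · have hx2 : x ≠ 2 := by
          rintro rfl
          exact absurd hx (by decide)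
        simp [hx2, Ne.symm hx1])
  have hsum : μ.sum = 2 * d := by
    simp only [μ, Multiset.sum_cons, Multiset.sum_replicate, smul_eq_mul, mul_one]
    omega
  have hD1 := hD 1
  rw [pow_one] at hD1
  have hD2 : Dk T (X - 1 : F[X]) = 2 * d - 1 := by
    rw [hD1]
    simp only [μ, Multiset.map_cons, Multiset.map_replicate, Multiset.sum_cons, Multiset.sum_replicate,
      smul_eq_mul]
    simp
    omega
  refine false_of_small (m := 1) hab e P hall hRz (by rw [hf, hsum]) (by omega) one_pos (by omega)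
    (by omega) (fun h => ?_)
  have := Nat.le_of_dvd one_pos h
  omega

/-- The prime `2`, with `a ≥ 4`. -/
theorem no_two (hF2 : (2 : F) ≠ 0) (hd : 2 ≤ d) (hab : 2 * d = a * b) (ha4 : 3 ≤ a) (hb : 3 ≤ b)
    (e : (Fin d ⊕ Fin d) ≃ Fin a × Fin b) (P : GL (Fin d ⊕ Fin d) F) (hall : AllT F d a b 2 e P) :
    False := by
  classical
  have h₁ : Rz (sympBilin 1 F) (-1 : End F (Fin 1 ⊕ Fin 1 → F)) 2 :=
    ⟨sympBilin_isAlt, sympBilin_nondegenerate, fun u v => by
      simp only [LinearMap.neg_apply, Module.End.one_apply, map_neg, neg_neg], by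
      apply LinearMap.ext
      intro v
      rw [pow_two, Module.End.mul_apply]
      simp⟩
  have hRz := Rz.prod h₁ (Rz.triv (F := F) (d - 1) 2)
  have hfr : finrank F ((Fin 1 ⊕ Fin 1 → F) × (Fin (d - 1) ⊕ Fin (d - 1) → F)) = 2 * d := by
    rw [Module.finrank_prod, finrank_triv, finrank_triv]
    omega
  have hD₁ : Dk (-1 : End F (Fin 1 ⊕ Fin 1 → F)) (X - 1 : F[X]) = 0 := by
    unfold Dk
    have : LinearMap.ker (Polynomial.aeval (-1 : End F (Fin 1 ⊕ Fin 1 → F)) (X - 1 : F[X])) = ⊥ := by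
      rw [LinearMap.ker_eq_bot']
      intro v hv
      simp only [map_sub, aeval_X, map_one, LinearMap.sub_apply, LinearMap.neg_apply, Module.End.one_apply] at hv
      have h2 : (2 : F) • v = 0 := by
        rw [two_smul]
        have := congrArg Neg.neg hv
        simpa [sub_eq_add_neg] using this
      exact (smul_eq_zero.mp h2).resolve_left hF2
    rw [this]
    exact finrank_bot F _
  have hD : Dk (LinearMap.prodMap (-1 : End F (Fin 1 ⊕ Fin 1 → F))
      (1 : End F (Fin (d - 1) ⊕ Fin (d - 1) → F))) (X - 1 : F[X]) = 2 * (d - 1) := by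
    rw [Dk_prod, hD₁, Dk_one_sub, finrank_triv, zero_add]
  refine false_of_small (m := 2) hab e P hall hRz hfr (by rw [hD]; omega) two_pos (by omega)
    (by rw [hD]; omega) (fun h => ?_)
  have := Nat.le_of_dvd two_pos h
  omega

/-- The bound on `c` given by the order of the symplectic group. -/
theorem c_le_of_dvd_sp {q i c : ℕ} (hq : Fintype.card F = q) (hr : r.Prime) (hrq : ¬ r ∣ q)
    (hi : i = orderOf (q : ZMod r)) (hc : c = if Even i then i else 2 * i)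
    (hdv : r ∣ Nat.card (Cfsg.spGL d F)) : c ≤ 2 * d := by
  classical
  haveI : Fact r.Prime := ⟨hr⟩
  have hq1 : 1 ≤ q := by
    rw [← hq]
    exact Fintype.card_pos
  rw [Nat.card_congr (CmaxS.Simple.eSp (m := d) (F := F)).toEquiv,
    Cfsg.Agent.Lib.Classical.SympCount.card_symplecticGroup (q := q)
    (by rw [Nat.card_eq_fintype_card, hq])] at hdv
  rcases hr.prime.dvd_or_dvd hdv with h3 | h3
  · exact absurd (hr.dvd_of_dvd_pow h3) hrq
  · obtain ⟨j, hj, hjd⟩ := (hr.prime.dvd_finsetProd_iff _).mp h3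
    have hjd' := Finset.mem_range.mp hj
    have hidvd : i ∣ 2 * (j + 1) := by
      rw [hi]
      exact (ord_dvd_iff hq1 _).mpr hjd
    have hcdvd : c ∣ 2 * (j + 1) := by
      rw [hc]
      split_ifs with hev
      · exact hidvd
      · exact Nat.mul_dvd_mul_left 2
          ((Nat.not_even_iff_odd.mp hev).coprime_two_right.dvd_of_dvd_mul_left hidvd)
    have := Nat.le_of_dvd (by omega) hcdvd
    omega

/-- The forward implication. -/
theorem fwd (p : ℕ) [Fact p.Prime] [CharP F p] {q : ℕ} (hq : Fintype.card F = q) (hodd : Odd q) (hd : 2 ≤ d) (hab : 2 * d = a * b)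
    (ha : Even a) (ha2 : 2 ≤ a) (hb : 3 ≤ b) (e : (Fin d ⊕ Fin d) ≃ Fin a × Fin b)
    (P : GL (Fin d ⊕ Fin d) F) [hrf : Fact r.Prime]
    (hΩ : r ∣ (Cfsg.Geo.tensorProductSubgroup a b e P).relIndex (Cfsg.spGL d F))
    (hall : AllT F d a b r e P) : r = 2 ∧ a = 2 := by
  classical
  have hr : r.Prime := hrf.out
  have hpP : p.Prime := Fact.out
  obtain ⟨n, hp', hn⟩ := FiniteField.card F p
  have hq' : q = p ^ (n : ℕ) := by rw [← hq, hn]
  have hp2 : p ≠ 2 := by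
    rintro rfl
    rw [hq'] at hodd
    exact (Nat.not_even_iff_odd.mpr hodd) (Nat.even_pow.mpr ⟨even_two, n.ne_zero⟩)
  have hF2 : (2 : F) ≠ 0 := by
    intro h
    have h1 : ((2 : ℕ) : F) = 0 := by exact_mod_cast h
    have h2 := (CharP.cast_eq_zero_iff F p 2).mp h1
    exact hp2 ((Nat.prime_dvd_prime_iff_eq hpP Nat.prime_two).mp h2)
  by_cases hrp : r = p
  · subst hrp
    exact (no_p (p := r) hF2 hd hab ha2 hb e P hall).elim
  have hrF : (r : F) ≠ 0 := by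
    intro h
    have h2 := (CharP.cast_eq_zero_iff F p r).mp h
    exact hrp ((Nat.prime_dvd_prime_iff_eq hpP hr).mp h2).symm
  have hrq : ¬ r ∣ q := by
    rw [hq']
    intro h
    exact hrp ((Nat.prime_dvd_prime_iff_eq hr hpP).mp (hr.dvd_of_dvd_pow h))
  by_cases hr2 : r = 2
  · subst hr2
    refine ⟨rfl, ?_⟩
    by_contra hne
    have h3 : 3 ≤ a := by
      have : a ≠ 2 := hne
      omega
    exact no_two hF2 hd hab h3 hb e P hall
  exfalso
  set i := orderOf (q : ZMod r) with hi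
  obtain ⟨c, hc⟩ : ∃ c, c = if Even i then i else 2 * i := ⟨_, rfl⟩
  have hcle : c ≤ 2 * d := c_le_of_dvd_sp hq hr hrq hi hc
    (hΩ.trans (Subgroup.relIndex_dvd_card _ _))
  obtain ⟨V, i1, i2, i3, Bf, T, hRz, hf, hD, hNS⟩ :=
    Cfsg.Agent.Lib.ElusDec.SpNegD.exists_model_w (d := d) (w := 1) hq hr hr2 hrF hrq hi hc le_rfl (by omega)
  obtain ⟨ψ, A, B, hψ⟩ := exists_psi e P hall hRz hf hNS
  have hBB' : (B : Matrix (Fin b) (Fin b) F) * ((B⁻¹ : GL (Fin b) F) : Matrix (Fin b) (Fin b) F) = 1 := by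
    rw [← Units.val_mul, mul_inv_cancel, Units.val_one]
  exact no_kron (p := p) hq hRz hr hr2 hrF hrq hrp ha ha2 hb hc ψ _ _ _ hBB' hψ (by rw [hD]; omega)

end fwd

section bwd

variable {F : Type u} [Field F] [Fintype F] {d a b : ℕ}

/-- Kronecker products of invertible matrices. -/
def kronGL (A : GL (Fin a) F) (B : GL (Fin b) F) : GL (Fin a × Fin b) F :=
  ⟨(A : Matrix (Fin a) (Fin a) F) ⊗ₖ (B : Matrix (Fin b) (Fin b) F),
    ((A⁻¹ : GL (Fin a) F) : Matrix (Fin a) (Fin a) F) ⊗ₖ ((B⁻¹ : GL (Fin b) F) : Matrix (Fin b) (Fin b) F),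
    by
      rw [← Matrix.mul_kronecker_mul, ← Units.val_mul, ← Units.val_mul, mul_inv_cancel, mul_inv_cancel,
        Units.val_one, Units.val_one, Matrix.one_kronecker_one],
    by
      rw [← Matrix.mul_kronecker_mul, ← Units.val_mul, ← Units.val_mul, inv_mul_cancel, inv_mul_cancel,
        Units.val_one, Units.val_one, Matrix.one_kronecker_one]⟩

theorem kron_mem_tensor (e : (Fin d ⊕ Fin d) ≃ Fin a × Fin b) (P : GL (Fin d ⊕ Fin d) F)
    (A : GL (Fin a) F) (B : GL (Fin b) F) :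
    Psi e P (kronGL A B) ∈ Cfsg.Geo.tensorProductSubgroup a b e P :=
  (mem_tensor_iff e P).mpr ⟨_, ⟨A, B, rfl⟩, rfl⟩

theorem sympForm_add_left (u v w : Fin d ⊕ Fin d → F) :
    sympForm d F (u + v) w = sympForm d F u w + sympForm d F v w :=
  (sympBilin d F).map_add₂ u v w

theorem sympForm_add_right (u v w : Fin d ⊕ Fin d → F) :
    sympForm d F u (v + w) = sympForm d F u v + sympForm d F u w := by
  simpa [sympBilin_apply] using ((sympBilin d F) u).map_add v w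

theorem sympForm_zero_left (w : Fin d ⊕ Fin d → F) : sympForm d F 0 w = 0 :=
  (sympBilin d F).map_zero₂ w

theorem sympForm_zero_right (w : Fin d ⊕ Fin d → F) : sympForm d F w 0 = 0 := by
  simpa [sympBilin_apply] using ((sympBilin d F) w).map_zero

/-- Kronecker products of isometries are isometries. -/
theorem kron_mem_sp {e : (Fin d ⊕ Fin d) ≃ Fin a × Fin b} {P : GL (Fin d ⊕ Fin d) F}
    {f₁ : (Fin a → F) → (Fin a → F) → F} {f₂ : (Fin b → F) → (Fin b → F) → F}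
    (hS : Cfsg.Geo.IsTensorFormStructure id (Cfsg.sympForm d F) f₁ f₂ e P)
    (hf₁ : Cfsg.Geo.IsBilinearForm f₁) (hf₂ : Cfsg.Geo.IsBilinearForm f₂)
    (A : GL (Fin a) F) (B : GL (Fin b) F)
    (hA : ∀ x y, f₁ ((A : Matrix (Fin a) (Fin a) F) *ᵥ x) ((A : Matrix (Fin a) (Fin a) F) *ᵥ y) = f₁ x y)
    (hB : ∀ x y, f₂ ((B : Matrix (Fin b) (Fin b) F) *ᵥ x) ((B : Matrix (Fin b) (Fin b) F) *ᵥ y) = f₂ x y) :
    Psi e P (kronGL A B) ∈ Cfsg.spGL d F := by
  classical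
  obtain ⟨c, hc, hform⟩ := hS
  have hT := fun x₁ y₁ x₂ y₂ => form_T (e := e) (P := P) id (fun _ _ => rfl) hform
    (formOfGram_bilinear hf₁) (formOfGram_bilinear hf₂) x₁ y₁ x₂ y₂
  rw [mem_spGL_iff]
  set Y : Matrix (Fin d ⊕ Fin d) (Fin d ⊕ Fin d) F := ((Psi e P (kronGL A B) : GL (Fin d ⊕ Fin d) F) : Matrix (Fin d ⊕ Fin d) (Fin d ⊕ Fin d) F) with hYd
  have hY : ∀ x y, Y *ᵥ TT e P x y = TT e P ((A : Matrix (Fin a) (Fin a) F) *ᵥ x) ((B : Matrix (Fin b) (Fin b) F) *ᵥ y) :=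
    Psi_T e P A B _ rfl
  have step1 : ∀ (u : Fin d ⊕ Fin d → F) x y, sympForm d F (Y *ᵥ u) (Y *ᵥ TT e P x y) =
      sympForm d F u (TT e P x y) := by
    intro u x y
    refine span_TT e P (fun u => sympForm d F (Y *ᵥ u) (Y *ᵥ TT e P x y) = sympForm d F u (TT e P x y))
      ?_ ?_ ?_ u
    · simp only [Matrix.mulVec_zero, sympForm_zero_left]
    · intro u v hu hv
      simp only [Matrix.mulVec_add, sympForm_add_left, hu, hv]
    · intro x' y'
      rw [hY, hY, hT, hT, hA, hB]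
  intro u v
  refine span_TT e P (fun v => sympForm d F (Y *ᵥ u) (Y *ᵥ v) = sympForm d F u v) ?_ ?_ ?_ v
  · simp only [Matrix.mulVec_zero, sympForm_zero_right]
  · intro v w hv hw
    simp only [Matrix.mulVec_add, sympForm_add_right, hv, hw]
  · intro x y
    exact step1 u x y

/-- Symplectic matrices conjugating. -/
theorem conj_mem {x y : GL (Fin d ⊕ Fin d) F} (A : Matrix.symplecticGroup (Fin d) F)
    (h : (x : Matrix (Fin d ⊕ Fin d) (Fin d ⊕ Fin d) F) * (A : Matrix (Fin d ⊕ Fin d) (Fin d ⊕ Fin d) F) =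
      (A : Matrix (Fin d ⊕ Fin d) (Fin d ⊕ Fin d) F) * (y : Matrix (Fin d ⊕ Fin d) (Fin d ⊕ Fin d) F)) :
    ∃ g ∈ Cfsg.spGL d F, g⁻¹ * x * g = y := by
  classical
  let g : GL (Fin d ⊕ Fin d) F :=
    ⟨(A : Matrix (Fin d ⊕ Fin d) (Fin d ⊕ Fin d) F),
      ((A⁻¹ : Matrix.symplecticGroup (Fin d) F) : Matrix (Fin d ⊕ Fin d) (Fin d ⊕ Fin d) F),
      congrArg Subtype.val (mul_inv_cancel A), congrArg Subtype.val (inv_mul_cancel A)⟩
  refine ⟨g, ?_, ?_⟩
  · rw [mem_spGL_iff]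
    exact (mem_symplecticGroup_iff _).1 A.2
  · have h' : x * g = g * y := Units.ext h
    rw [mul_assoc, h', ← mul_assoc, inv_mul_cancel, one_mul]

/-- Isometries of the standard space are symplectic matrices. -/
theorem sp_of_equiv (φ : (Fin d ⊕ Fin d → F) ≃ₗ[F] (Fin d ⊕ Fin d → F))
    (hiso : ∀ u v, sympForm d F (φ u) (φ v) = sympForm d F u v) :
    ∃ A : Matrix.symplecticGroup (Fin d) F, ∀ v, (A : Matrix (Fin d ⊕ Fin d) (Fin d ⊕ Fin d) F) *ᵥ v = φ v := by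
  classical
  let A : Matrix (Fin d ⊕ Fin d) (Fin d ⊕ Fin d) F := LinearMap.toMatrix' φ.toLinearMap
  have hA : ∀ v, A *ᵥ v = φ v := by
    intro v
    simp [A, LinearMap.toMatrix'_mulVec]
  have hmem : A ∈ Matrix.symplecticGroup (Fin d) F := by
    rw [mem_symplecticGroup_iff]
    intro u v
    rw [hA, hA, hiso]
  exact ⟨⟨A, hmem⟩, hA⟩

section invol

variable {V : Type*} [AddCommGroup V] [Module F V] [FiniteDimensional F V]
  {Bf : LinearMap.BilinForm F V} {T : End F V}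

/-- A nondegenerate alternating subspace is a standard space. -/
theorem exists_iso_sub (h : Rz Bf T 2) {W : Submodule F V} (hW : Nd (fun u v => Bf u v) W) {k : ℕ}
    (hdim : finrank F W = 2 * k) :
    ∃ e : (Fin k ⊕ Fin k → F) ≃ₗ[F] W, ∀ x y, Bf (e x : V) (e y : V) = sympForm k F x y := by
  classical
  let B' : LinearMap.BilinForm F W := Bf.restrict W
  have hB' : ∀ x y : W, B' x y = Bf (x : V) y := fun x y => rfl
  have halt : B'.IsAlt := fun x => h.alt (x : V)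
  have hN : B'.Nondegenerate := by
    rw [sep_iff halt]
    intro x hx
    apply Subtype.ext
    exact hW x x.2 (fun v hv => hx ⟨v, hv⟩)
  haveI : Finite W := Module.finite_of_finite F
  have hcard : Nat.card W = (Nat.card F) ^ (2 * k) := by
    rw [Module.natCard_eq_pow_finrank (K := F), hdim]
  obtain ⟨e, he⟩ := exists_form_equiv rfl B' halt hN k hcard
  exact ⟨e, he⟩

theorem mem_K1 {v : V} (hv : v ∈ LinearMap.ker (Polynomial.aeval T (Phi F 2))) : T v = - v := by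
  rw [LinearMap.mem_ker] at hv
  have h1 : Phi F 2 = 1 + X := by
    simp [Phi, Finset.sum_range_succ]
  rw [h1, map_add, map_one, aeval_X, LinearMap.add_apply, Module.End.one_apply] at hv
  exact eq_neg_of_add_eq_zero_right hv

/-- The model of an involution. -/
theorem exists_invol_model (h : Rz Bf T 2) (hF2 : (2 : F) ≠ 0) {k l : ℕ}
    (hk : finrank F (LinearMap.ker (Polynomial.aeval T (Phi F 2))) = 2 * k)
    (hl : finrank F (LinearMap.ker (Polynomial.aeval T (X - 1 : F[X]))) = 2 * l) :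
    ∃ E : ((Fin k ⊕ Fin k → F) × (Fin l ⊕ Fin l → F)) ≃ₗ[F] V,
      (∀ s t s' t', Bf (E (s, t)) (E (s', t')) = sympForm k F s s' + sympForm l F t t') ∧
      ∀ s t, T (E (s, t)) = E (-s, t) := by
  classical
  have hB := Rz.fm h
  have hrF : ((2 : ℕ) : F) ≠ 0 := by exact_mod_cast hF2
  set K₀ := LinearMap.ker (Polynomial.aeval T (X - 1 : F[X])) with hK₀
  set K₁ := LinearMap.ker (Polynomial.aeval T (Phi F 2)) with hK₁
  have hnd1 : Nd (fun u v => Bf u v) K₁ := by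
    have := nd1 hB h.iso hrF h.pow hB.nd_top (U := ⊤) (fun v _ => trivial)
    rwa [top_inf_eq] at this
  have hnd0 : Nd (fun u v => Bf u v) K₀ := by
    have := nd0 hB h.iso hrF h.pow hB.nd_top (U := ⊤) (fun v _ => trivial)
    rwa [top_inf_eq] at this
  obtain ⟨e₁, he₁⟩ := exists_iso_sub h hnd1 hk
  obtain ⟨e₀, he₀⟩ := exists_iso_sub h hnd0 hl
  have hsup := (split01 hrF h.pow (U := ⊤) (fun v _ => trivial)).1
  rw [top_inf_eq, top_inf_eq] at hsup
  have hdis : K₀ ⊓ K₁ = ⊥ := ker_disjoint (T := T) (isCoprime_Phi hrF)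
  have hc : IsCompl K₁ K₀ := by
    constructor
    · rw [Submodule.disjoint_def]
      intro x hx hx0
      have : x ∈ K₀ ⊓ K₁ := ⟨hx0, hx⟩
      rw [hdis] at this
      exact (Submodule.mem_bot F).mp this
    · rw [codisjoint_iff, sup_comm]
      exact hsup
  let E : ((Fin k ⊕ Fin k → F) × (Fin l ⊕ Fin l → F)) ≃ₗ[F] V :=
    (e₁.prodCongr e₀) ≪≫ₗ Submodule.prodEquivOfIsCompl K₁ K₀ hc
  have hE : ∀ s t, E (s, t) = (e₁ s : V) + (e₀ t : V) := fun s t => rfl
  refine ⟨E, ?_, ?_⟩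
  · intro s t s' t'
    rw [hE, hE]
    simp only [map_add, LinearMap.add_apply]
    have h1 : Bf (e₁ s : V) (e₀ t' : V) = 0 := by
      have h2 := orth01 hB h.iso hrF (mem_fix.mp (e₀ t').2) (e₁ s).2
      exact (hB.eq_zero_comm _ _).mp h2
    have h2 : Bf (e₀ t : V) (e₁ s' : V) = 0 := orth01 hB h.iso hrF (mem_fix.mp (e₀ t).2) (e₁ s').2
    rw [h1, h2, he₁, he₀, add_zero, zero_add]
  · intro s t
    rw [hE, hE, map_add, mem_K1 (e₁ s).2, mem_fix.mp (e₀ t).2, map_neg]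
    rfl

/-- Involutions with the same fixed dimension are conjugate. -/
theorem conj_invol {T₁ T₂ : End F V} (h₁ : Rz Bf T₁ 2) (h₂ : Rz Bf T₂ 2) (hF2 : (2 : F) ≠ 0)
    (hD : Dk T₁ (X - 1 : F[X]) = Dk T₂ (X - 1 : F[X])) :
    ∃ φ : V ≃ₗ[F] V, (∀ u v, Bf (φ u) (φ v) = Bf u v) ∧ ∀ v, φ (T₂ v) = T₁ (φ v) := by
  classical
  have hB := Rz.fm h₁
  have hrF : ((2 : ℕ) : F) ≠ 0 := by exact_mod_cast hF2
  have hs₁ := (split01 hrF h₁.pow (U := ⊤) (fun v _ => trivial)).2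
  have hs₂ := (split01 hrF h₂.pow (U := ⊤) (fun v _ => trivial)).2
  rw [top_inf_eq, top_inf_eq, finrank_top] at hs₁ hs₂
  unfold Dk at hD
  have hnd1 : Nd (fun u v => Bf u v) (LinearMap.ker (Polynomial.aeval T₁ (Phi F 2))) := by
    have := nd1 hB h₁.iso hrF h₁.pow hB.nd_top (U := ⊤) (fun v _ => trivial)
    rwa [top_inf_eq] at this
  have hnd0 : Nd (fun u v => Bf u v) (LinearMap.ker (Polynomial.aeval T₁ (X - 1 : F[X]))) := by
    have := nd0 hB h₁.iso hrF h₁.pow hB.nd_top (U := ⊤) (fun v _ => trivial)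
    rwa [top_inf_eq] at this
  obtain ⟨k, hk⟩ := even_of_nd hB h₁.alt _ _ rfl hnd1
  obtain ⟨l, hl⟩ := even_of_nd hB h₁.alt _ _ rfl hnd0
  obtain ⟨E₁, hE₁, hT₁⟩ := exists_invol_model (k := k) (l := l) h₁ hF2 (by omega) (by omega)
  obtain ⟨E₂, hE₂, hT₂⟩ := exists_invol_model (k := k) (l := l) h₂ hF2 (by omega) (by omega)
  refine ⟨E₂.symm ≪≫ₗ E₁, ?_, ?_⟩
  · intro u v
    obtain ⟨⟨s, t⟩, rfl⟩ := E₂.surjective u
    obtain ⟨⟨s', t'⟩, rfl⟩ := E₂.surjective v
    simp only [LinearEquiv.trans_apply, LinearEquiv.symm_apply_apply]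
    rw [hE₁, hE₂]
  · intro v
    obtain ⟨⟨s, t⟩, rfl⟩ := E₂.surjective v
    simp only [LinearEquiv.trans_apply, LinearEquiv.symm_apply_apply]
    rw [hT₂, LinearEquiv.symm_apply_apply, hT₁]

end invol

section minus

variable {V : Type*} [AddCommGroup V] [Module F V] [FiniteDimensional F V]
  {Bf : LinearMap.BilinForm F V} {T : End F V}

theorem tt_eq (hTr : T ^ 2 = (-1 : F) • 1) (v : V) : T (T v) = - v := by
  have := congrArg (fun S : End F V => S v) hTr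
  simpa [sq] using this

theorem rz_four (h : Rz Bf T 2 ∨ True) (halt : Bf.IsAlt) (hnd : Bf.Nondegenerate)
    (hT : ∀ u v, Bf (T u) (T v) = Bf u v) (hTr : T ^ 2 = (-1 : F) • 1) : Rz Bf T 4 := by
  refine ⟨halt, hnd, hT, ?_⟩
  have h4 : T ^ 4 = (T ^ 2) ^ 2 := by rw [← pow_mul]
  rw [h4, hTr]
  apply LinearMap.ext
  intro v
  simp [sq]

/-- A vector with `B w (T w) = 1` in a nondegenerate invariant subspace. -/
theorem plane_unit (hodd : Fintype.card F % 2 = 1) (h : Rz Bf T 4) (hTr : T ^ 2 = (-1 : F) • 1)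
    (hF2 : (2 : F) ≠ 0) {U : Submodule F V} (hU : Nd (fun u v => Bf u v) U) (hUi : Inv T U)
    (hpos : 0 < finrank F U) : ∃ w ∈ U, Bf w (T w) = 1 := by
  have hB := Rz.fm h
  have hTT := tt_eq hTr
  have hneg : ∀ x y, Bf x y = - Bf y x := fun x y => (h.alt.neg_eq y x).symm
  by_cases hex : ∃ u ∈ U, Bf u (T u) ≠ 0
  · obtain ⟨u, huU, hu⟩ := hex
    obtain ⟨α, β, hαβ⟩ := FiniteField.exists_root_sum_quadratic (R := F) (f := X ^ 2)
      (g := X ^ 2 - C (Bf u (T u))⁻¹) (by simp) (by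
        rw [degree_sub_eq_left_of_degree_lt]
        · simp
        · simp only [degree_X_pow]
          exact lt_of_le_of_lt degree_C_le (by decide)) hodd
    simp only [eval_pow, eval_X, eval_sub, eval_C] at hαβ
    have hsum : α ^ 2 + β ^ 2 = (Bf u (T u))⁻¹ := by linear_combination hαβ
    refine ⟨α • u + β • T u, U.add_mem (U.smul_mem _ huU) (U.smul_mem _ (hUi _ huU)), ?_⟩
    have h1 : Bf u u = 0 := h.alt u
    have h2 : Bf (T u) (T u) = 0 := h.alt _
    have h3 : Bf (T u) u = - Bf u (T u) := hneg _ _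
    simp only [map_add, map_smul, hTT, LinearMap.add_apply, LinearMap.smul_apply, map_neg, smul_eq_mul,
      h1, h2, h3]
    have h4 : α * (α * Bf u (T u) + β * 0) + β * -(α * 0 + β * -Bf u (T u)) =
        (α ^ 2 + β ^ 2) * Bf u (T u) := by ring
    rw [h4, hsum, inv_mul_cancel₀ hu]
  · exfalso
    push Not at hex
    obtain ⟨⟨v₀, hv₀⟩, hv0⟩ : ∃ v : U, v ≠ 0 := by
      haveI := Module.nontrivial_of_finrank_pos (R := F) hpos
      exact exists_ne 0
    have hv0' : v₀ ≠ 0 := fun h => hv0 (Subtype.ext h)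
    have hkey : ∀ x ∈ U, Bf (T v₀) x = 0 := by
      intro x hx
      have h1 := hex (x + v₀) (U.add_mem hx hv₀)
      have h2 := hex x hx
      have h3 := hex v₀ hv₀
      rw [map_add, map_add, LinearMap.add_apply, map_add, map_add, h2, h3, add_zero, zero_add] at h1
      have h4 : Bf v₀ (T x) = - Bf (T v₀) x := by
        rw [← h.iso v₀ (T x), hTT, map_neg]
      have h5 : Bf x (T v₀) = - Bf (T v₀) x := hneg _ _
      rw [h4, h5] at h1
      have h6 : (2 : F) * Bf (T v₀) x = 0 := by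
        have : (2 : F) * Bf (T v₀) x = - (- Bf (T v₀) x + - Bf (T v₀) x) := by ring
        rw [this, h1, neg_zero]
      exact (mul_eq_zero.mp h6).resolve_left hF2
    have h5 : T v₀ = 0 := hU _ (hUi _ hv₀) hkey
    apply hv0'
    have h6 := hTT v₀
    rw [h5, map_zero] at h6
    exact neg_eq_zero.mp h6.symm

/-- Frames adapted to an isometry with `T ^ 2 = -1`. -/
theorem exists_frame_minus (hodd : Fintype.card F % 2 = 1) (h : Rz Bf T 4) (hTr : T ^ 2 = (-1 : F) • 1)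
    (hF2 : (2 : F) ≠ 0) (hdim : finrank F V = 2 * d) :
    ∃ u : Fin d → V, (∀ i j, Bf (u i) (u j) = 0) ∧ ∀ i j, Bf (u i) (T (u j)) = if i = j then 1 else 0 := by
  classical
  have hB := Rz.fm h
  have hTT := tt_eq hTr
  have hinj : Function.Injective T := by
    intro a b hab
    have h1 := congrArg T hab
    rw [hTT, hTT] at h1
    exact neg_injective h1
  obtain ⟨D, h1, h2, h3, h4, h5⟩ := Cfsg.Agent.Lib.ElusDec.SpOrth.orth_decomp hB h.iso hinj
    (a := 2) (s₀ := d)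
    (fun U s hs hsd hU hUi hd => step_minus hB h.alt h.iso hF2 hTr hU hUi (by omega)) d le_rfl ⊤
    hB.nd_top (fun v _ => trivial) (by rw [finrank_top, hdim])
  choose u hu hu1 using fun j => plane_unit hodd h hTr hF2 (h2 j) (h3 j) (by rw [h4 j]; norm_num)
  refine ⟨u, ?_, ?_⟩
  · intro i j
    by_cases hij : i = j
    · subst hij
      exact h.alt _
    · exact h5 i j hij _ (hu i) _ (hu j)
  · intro i j
    by_cases hij : i = j
    · subst hij
      simpa using hu1 i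
    · rw [if_neg hij]
      exact h5 i j hij _ (hu i) _ (h3 j _ (hu j))

/-- Symplectic matrices from frames. -/
theorem sp_of_frame (b : Fin d → (Fin d ⊕ Fin d → F) × (Fin d ⊕ Fin d → F))
    (hb : Cfsg.Agent.Lib.Classical.AltCount.IsFrame (sympBilin d F) d b) :
    ∃ A : Matrix.symplecticGroup (Fin d) F, ∀ i,
      (A : Matrix (Fin d ⊕ Fin d) (Fin d ⊕ Fin d) F) *ᵥ (Pi.single (Sum.inr i) 1) = (b i).1 ∧
      (A : Matrix (Fin d ⊕ Fin d) (Fin d ⊕ Fin d) F) *ᵥ (Pi.single (Sum.inl i) 1) = (b i).2 := by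
  classical
  refine ⟨Cfsg.Agent.Lib.Classical.SympCount.framesEquiv.symm ⟨b, hb⟩, fun i => ?_⟩
  have h := Cfsg.Agent.Lib.Classical.SympCount.framesEquiv.apply_symm_apply
    (⟨b, hb⟩ : {b : Fin d → (Fin d ⊕ Fin d → F) × (Fin d ⊕ Fin d → F) //
      Cfsg.Agent.Lib.Classical.AltCount.IsFrame (sympBilin d F) d b})
  have h2 := congrFun (congrArg Subtype.val h) i
  exact ⟨congrArg Prod.fst h2, congrArg Prod.snd h2⟩

/-- Every symplectic matrix of square `-1` is conjugate to `-J`. -/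
theorem conj_neg_J (hodd : Fintype.card F % 2 = 1) (hF2 : (2 : F) ≠ 0)
    {x : Matrix (Fin d ⊕ Fin d) (Fin d ⊕ Fin d) F} (hx : ∀ u v, sympForm d F (x *ᵥ u) (x *ᵥ v) = sympForm d F u v)
    (hx2 : x * x = -1) :
    ∃ A : Matrix.symplecticGroup (Fin d) F, x * (A : Matrix (Fin d ⊕ Fin d) (Fin d ⊕ Fin d) F) = (A : Matrix (Fin d ⊕ Fin d) (Fin d ⊕ Fin d) F) * (- Matrix.J (Fin d) F) := by
  classical
  let L : End F (Fin d ⊕ Fin d → F) := Matrix.toLin' x
  have hL : ∀ v, L v = x *ᵥ v := fun v => rfl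
  have hLr : L ^ 2 = (-1 : F) • 1 := by
    apply LinearMap.ext
    intro v
    rw [pow_two, Module.End.mul_apply, hL, hL, Matrix.mulVec_mulVec, hx2]
    simp [Matrix.neg_mulVec]
  have hRz : Rz (sympBilin d F) L 4 := rz_four (Or.inr trivial) sympBilin_isAlt sympBilin_nondegenerate
    (fun u v => hx u v) hLr
  obtain ⟨u, hu1, hu2⟩ := exists_frame_minus hodd hRz hLr hF2 (finrank_triv d)
  have hTT := tt_eq hLr
  have hfr : Cfsg.Agent.Lib.Classical.AltCount.IsFrame (sympBilin d F) d (fun i => (u i, L (u i))) := by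
    intro i j
    refine ⟨hu1 i j, ?_, hu2 i j⟩
    simp only
    rw [hRz.iso]
    exact hu1 i j
  obtain ⟨A, hA⟩ := sp_of_frame _ hfr
  refine ⟨A, ?_⟩
  apply Matrix.ext_of_mulVec_single
  intro c
  rw [← Matrix.mulVec_mulVec, ← Matrix.mulVec_mulVec]
  rcases c with i | i
  · have hJ : (- Matrix.J (Fin d) F) *ᵥ (Pi.single (Sum.inl i) 1 : Fin d ⊕ Fin d → F) =
        - (Pi.single (Sum.inr i) 1 : Fin d ⊕ Fin d → F) := by
      funext c
      rcases c with j | j <;> simp [Matrix.J, Matrix.neg_mulVec, Matrix.one_apply, Pi.single_apply, eq_comm]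
    rw [hJ, Matrix.mulVec_neg, (hA i).1, (hA i).2]
    change L (L (u i)) = _
    rw [hTT]
  · have hJ : (- Matrix.J (Fin d) F) *ᵥ (Pi.single (Sum.inr i) 1 : Fin d ⊕ Fin d → F) =
        (Pi.single (Sum.inl i) 1 : Fin d ⊕ Fin d → F) := by
      funext c
      rcases c with j | j <;> simp [Matrix.J, Matrix.neg_mulVec, Matrix.one_apply, Pi.single_apply, eq_comm]
    rw [hJ, (hA i).1, (hA i).2]
    rfl

/-- Symplectic matrices of square `-1` are conjugate. -/
theorem conj_minus (hodd : Fintype.card F % 2 = 1) (hF2 : (2 : F) ≠ 0)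
    {x y : Matrix (Fin d ⊕ Fin d) (Fin d ⊕ Fin d) F}
    (hx : ∀ u v, sympForm d F (x *ᵥ u) (x *ᵥ v) = sympForm d F u v) (hx2 : x * x = -1)
    (hy : ∀ u v, sympForm d F (y *ᵥ u) (y *ᵥ v) = sympForm d F u v) (hy2 : y * y = -1) :
    ∃ A : Matrix.symplecticGroup (Fin d) F, x * (A : Matrix (Fin d ⊕ Fin d) (Fin d ⊕ Fin d) F) = (A : Matrix (Fin d ⊕ Fin d) (Fin d ⊕ Fin d) F) * y := by
  obtain ⟨A₁, h₁⟩ := conj_neg_J hodd hF2 hx hx2
  obtain ⟨A₂, h₂⟩ := conj_neg_J hodd hF2 hy hy2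
  refine ⟨A₁ * A₂⁻¹, ?_⟩
  have e₁ : ((A₂⁻¹ : Matrix.symplecticGroup (Fin d) F) : Matrix (Fin d ⊕ Fin d) (Fin d ⊕ Fin d) F) * (A₂ : Matrix (Fin d ⊕ Fin d) (Fin d ⊕ Fin d) F) = 1 :=
    congrArg Subtype.val (inv_mul_cancel A₂)
  have e₂ : (A₂ : Matrix (Fin d ⊕ Fin d) (Fin d ⊕ Fin d) F) * ((A₂⁻¹ : Matrix.symplecticGroup (Fin d) F) : Matrix (Fin d ⊕ Fin d) (Fin d ⊕ Fin d) F) = 1 :=
    congrArg Subtype.val (mul_inv_cancel A₂)
  have h₃ : ((A₂⁻¹ : Matrix.symplecticGroup (Fin d) F) : Matrix (Fin d ⊕ Fin d) (Fin d ⊕ Fin d) F) * y =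
      (- Matrix.J (Fin d) F) * ((A₂⁻¹ : Matrix.symplecticGroup (Fin d) F) : Matrix (Fin d ⊕ Fin d) (Fin d ⊕ Fin d) F) := by
    calc ((A₂⁻¹ : Matrix.symplecticGroup (Fin d) F) : Matrix (Fin d ⊕ Fin d) (Fin d ⊕ Fin d) F) * y
        = ((A₂⁻¹ : Matrix.symplecticGroup (Fin d) F) : Matrix (Fin d ⊕ Fin d) (Fin d ⊕ Fin d) F) * (y * ((A₂ : Matrix (Fin d ⊕ Fin d) (Fin d ⊕ Fin d) F) * ((A₂⁻¹ : Matrix.symplecticGroup (Fin d) F) : Matrix (Fin d ⊕ Fin d) (Fin d ⊕ Fin d) F))) := by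
          rw [e₂, Matrix.mul_one]
      _ = ((A₂⁻¹ : Matrix.symplecticGroup (Fin d) F) : Matrix (Fin d ⊕ Fin d) (Fin d ⊕ Fin d) F) * ((y * (A₂ : Matrix (Fin d ⊕ Fin d) (Fin d ⊕ Fin d) F)) * ((A₂⁻¹ : Matrix.symplecticGroup (Fin d) F) : Matrix (Fin d ⊕ Fin d) (Fin d ⊕ Fin d) F)) := by
          rw [Matrix.mul_assoc y]
      _ = ((A₂⁻¹ : Matrix.symplecticGroup (Fin d) F) : Matrix (Fin d ⊕ Fin d) (Fin d ⊕ Fin d) F) * (((A₂ : Matrix (Fin d ⊕ Fin d) (Fin d ⊕ Fin d) F) * (- Matrix.J (Fin d) F)) * ((A₂⁻¹ : Matrix.symplecticGroup (Fin d) F) : Matrix (Fin d ⊕ Fin d) (Fin d ⊕ Fin d) F)) := by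
          rw [h₂]
      _ = (((A₂⁻¹ : Matrix.symplecticGroup (Fin d) F) : Matrix (Fin d ⊕ Fin d) (Fin d ⊕ Fin d) F) * (A₂ : Matrix (Fin d ⊕ Fin d) (Fin d ⊕ Fin d) F)) * (- Matrix.J (Fin d) F) * ((A₂⁻¹ : Matrix.symplecticGroup (Fin d) F) : Matrix (Fin d ⊕ Fin d) (Fin d ⊕ Fin d) F) := by
          simp only [Matrix.mul_assoc]
      _ = _ := by
          rw [e₁, Matrix.one_mul]
  change x * ((A₁ : Matrix (Fin d ⊕ Fin d) (Fin d ⊕ Fin d) F) * ((A₂⁻¹ : Matrix.symplecticGroup (Fin d) F) : Matrix (Fin d ⊕ Fin d) (Fin d ⊕ Fin d) F)) =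
    ((A₁ : Matrix (Fin d ⊕ Fin d) (Fin d ⊕ Fin d) F) * ((A₂⁻¹ : Matrix.symplecticGroup (Fin d) F) : Matrix (Fin d ⊕ Fin d) (Fin d ⊕ Fin d) F)) * y
  rw [← Matrix.mul_assoc, h₁, Matrix.mul_assoc, Matrix.mul_assoc, h₃]

end minus

end bwd

section bwd2

variable {F : Type u} [Field F] [Fintype F] {d b : ℕ}

/-- Orthogonal involutions with a prescribed rank. -/
theorem exists_B0 (hF2 : (2 : F) ≠ 0) {f₂ : (Fin b → F) → (Fin b → F) → F}
    (hf₂ : Cfsg.Geo.IsSymmetricForm f₂) {k : ℕ} (hk : k ≤ b) :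
    ∃ B₀ : GL (Fin b) F,
      (∀ x y, f₂ ((B₀ : Matrix (Fin b) (Fin b) F) *ᵥ x) ((B₀ : Matrix (Fin b) (Fin b) F) *ᵥ y) = f₂ x y) ∧
      (B₀ : Matrix (Fin b) (Fin b) F) * (B₀ : Matrix (Fin b) (Fin b) F) = 1 ∧
      ((B₀ : Matrix (Fin b) (Fin b) F) - 1).rank = k := by
  classical
  haveI : Invertible (2 : F) := invertibleOfNonzero hF2
  let B₂ : LinearMap.BilinForm F (Fin b → F) := LinearMap.mk₂ F f₂ hf₂.bilinear.add_left
    hf₂.bilinear.smul_left hf₂.bilinear.add_right hf₂.bilinear.smul_right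
  have hB₂ : ∀ x y, B₂ x y = f₂ x y := fun _ _ => rfl
  have hsymm : LinearMap.IsSymm B₂ := ⟨fun x y => hf₂.symm x y⟩
  obtain ⟨v, hv⟩ := LinearMap.BilinForm.exists_orthogonal_basis hsymm
  have hfr : finrank F (Fin b → F) = b := by simp
  let w : Basis (Fin b) F (Fin b → F) := v.reindex (finCongr hfr)
  have hw : ∀ i j, i ≠ j → B₂ (w i) (w j) = 0 := by
    intro i j hij
    simp only [w, Basis.reindex_apply]
    exact hv (fun h => hij ((finCongr hfr).symm.injective h))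
  let s : Fin b → F := fun j => if (j : ℕ) < k then -1 else 1
  have hs : ∀ j, s j * s j = 1 := by
    intro j
    simp only [s]
    split_ifs <;> simp
  let D : End F (Fin b → F) := w.constr F (fun j => s j • w j)
  have hD : ∀ j, D (w j) = s j • w j := fun j => by
    simp only [D, Basis.constr_basis]
  have hDD : D * D = 1 := by
    apply w.ext
    intro j
    rw [Module.End.mul_apply, hD, map_smul, hD, smul_smul, hs, one_smul]
    rfl
  let M : Matrix (Fin b) (Fin b) F := LinearMap.toMatrix' D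
  have hM : ∀ x, M *ᵥ x = D x := fun x => by
    simp only [M, LinearMap.toMatrix'_mulVec]
  have hMM : M * M = 1 := by
    apply Matrix.ext_of_mulVec_single
    intro c
    rw [← Matrix.mulVec_mulVec, hM, hM, Matrix.one_mulVec, ← Module.End.mul_apply, hDD]
    rfl
  refine ⟨⟨M, M, hMM, hMM⟩, ?_, hMM, ?_⟩
  · intro x y
    change f₂ (M *ᵥ x) (M *ᵥ y) = f₂ x y
    rw [hM, hM, ← hB₂, ← hB₂]
    have h1 : B₂.compl₁₂ D D = B₂ := by
      refine w.ext fun i => w.ext fun j => ?_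
      change B₂ (D (w i)) (D (w j)) = B₂ (w i) (w j)
      rw [hD, hD]
      simp only [map_smul, LinearMap.smul_apply, smul_eq_mul]
      by_cases hij : i = j
      · subst hij
        rw [← mul_assoc, hs, one_mul]
      · rw [hw i j hij]
        simp
    exact LinearMap.congr_fun₂ h1 x y
  · change (M - 1).rank = k
    let t : Fin b → F := fun j => s j - 1
    have h1 : (M - 1).mulVecLin = D - 1 := by
      apply LinearMap.ext
      intro x
      simp [Matrix.sub_mulVec, hM]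
    have h2 : Matrix.toLin w w (Matrix.diagonal t) = D - 1 := by
      apply w.ext
      intro j
      rw [Matrix.toLin_self, Finset.sum_eq_single j]
      · simp [t, hD, sub_smul]
      · intro i _ hij
        simp [Matrix.diagonal_apply_ne _ hij]
      · intro h
        exact absurd (Finset.mem_univ _) h
    have h3 : (M - 1).rank = (Matrix.diagonal t).rank := by
      rw [Matrix.rank_eq_finrank_range_toLin (Matrix.diagonal t) w w, h2, Matrix.rank, h1]
    rw [h3, Matrix.rank_diagonal]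
    have h4 : ∀ j : Fin b, t j ≠ 0 ↔ (j : ℕ) < k := by
      intro j
      simp only [t, s]
      by_cases hj : (j : ℕ) < k
      · simp only [hj, if_true, iff_true]
        intro h
        apply hF2
        linear_combination -h
      · simp [hj]
    rw [Fintype.card_congr (Equiv.subtypeEquivRight h4)]
    have h5 : {j : Fin b // (j : ℕ) < k} ≃ Fin k :=
      { toFun := fun j => ⟨j.1, j.2⟩
        invFun := fun i => ⟨⟨i.1, by omega⟩, i.2⟩
        left_inv := fun j => rfl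
        right_inv := fun i => rfl }
    rw [Fintype.card_congr h5, Fintype.card_fin]

end bwd2

section bwd3

variable {F : Type u} [Field F] [Fintype F] {d b : ℕ}

theorem two_ne_zero_of_odd (p : ℕ) [hpp : Fact p.Prime] [CharP F p] {q : ℕ} (hq : Fintype.card F = q)
    (hodd : Odd q) : (2 : F) ≠ 0 := by
  have hpP : p.Prime := hpp.out
  obtain ⟨n, hp', hn⟩ := FiniteField.card F p
  have hq' : q = p ^ (n : ℕ) := by rw [← hq, hn]
  have hp2 : p ≠ 2 := by
    rintro rfl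
    rw [hq'] at hodd
    exact (Nat.not_even_iff_odd.mpr hodd) (Nat.even_pow.mpr ⟨even_two, n.ne_zero⟩)
  intro h
  have h1 : ((2 : ℕ) : F) = 0 := by exact_mod_cast h
  have h2 := (CharP.cast_eq_zero_iff F p 2).mp h1
  exact hp2 ((Nat.prime_dvd_prime_iff_eq hpP Nat.prime_two).mp h2)

/-- A form on a space of dimension two is preserved by matrices of determinant one. -/
theorem symp_two {f₁ : (Fin 2 → F) → (Fin 2 → F) → F} (hf₁ : Cfsg.Geo.IsSymplecticForm f₁)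
    (x y : Fin 2 → F) : f₁ ((!![0, 1; -1, 0] : Matrix (Fin 2) (Fin 2) F) *ᵥ x)
      ((!![0, 1; -1, 0] : Matrix (Fin 2) (Fin 2) F) *ᵥ y) = f₁ x y := by
  have hform : ∀ x y, f₁ x y = (x 0 * y 1 - x 1 * y 0) * Cfsg.Geo.gramMatrix f₁ 0 1 := by
    intro x y
    rw [← formOfGram_bilinear hf₁.bilinear x y]
    have h00 : Cfsg.Geo.gramMatrix f₁ 0 0 = 0 := hf₁.alternating _
    have h11 : Cfsg.Geo.gramMatrix f₁ 1 1 = 0 := hf₁.alternating _
    have h10 : Cfsg.Geo.gramMatrix f₁ 1 0 = - Cfsg.Geo.gramMatrix f₁ 0 1 := hf₁.skew _ _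
    simp only [Cfsg.Geo.formOfGram, Fin.sum_univ_two, h00, h11, h10, id]
    ring
  have hv : ∀ v : Fin 2 → F, ((!![0, 1; -1, 0] : Matrix (Fin 2) (Fin 2) F) *ᵥ v) 0 = v 1 ∧
      ((!![0, 1; -1, 0] : Matrix (Fin 2) (Fin 2) F) *ᵥ v) 1 = - v 0 := by
    intro v
    simp [Matrix.mulVec, dotProduct, Fin.sum_univ_two]
  rw [hform, hform x y, (hv x).1, (hv x).2, (hv y).1, (hv y).2]
  ring

/-- The backward implication. -/
theorem bwd (p : ℕ) [Fact p.Prime] [CharP F p] {q : ℕ} (hq : Fintype.card F = q) (hodd : Odd q)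
    (hab : 2 * d = 2 * b) (hb : 3 ≤ b) (e : (Fin d ⊕ Fin d) ≃ Fin 2 × Fin b)
    (P : GL (Fin d ⊕ Fin d) F) {f₁ : (Fin 2 → F) → (Fin 2 → F) → F} {f₂ : (Fin b → F) → (Fin b → F) → F}
    (hf₁ : Cfsg.Geo.IsSymplecticForm f₁) (hf₂ : Cfsg.Geo.IsSymmetricForm f₂)
    (hS : Cfsg.Geo.IsTensorFormStructure id (Cfsg.sympForm d F) f₁ f₂ e P) :
    AllT F d 2 b 2 e P := by
  classical
  rintro x hx ⟨z, hz⟩ -
  have hF2 : (2 : F) ≠ 0 := two_ne_zero_of_odd p hq hodd
  have hcard : Fintype.card F % 2 = 1 := by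
    rw [hq]
    exact Nat.odd_iff.mp hodd
  have hiso := (mem_spGL_iff d x).mp hx
  set Xm : Matrix (Fin d ⊕ Fin d) (Fin d ⊕ Fin d) F := (x : Matrix (Fin d ⊕ Fin d) (Fin d ⊕ Fin d) F) with hXd
  have hX2 : Xm * Xm = z • 1 := by
    rw [← hz, Units.val_pow_eq_pow_val, pow_two]
  let L : End F (Fin d ⊕ Fin d → F) := Matrix.toLin' Xm
  have hL : ∀ v, L v = Xm *ᵥ v := fun v => rfl
  have hLr : L ^ 2 = z • 1 := by
    apply LinearMap.ext
    intro v
    rw [pow_two, Module.End.mul_apply, hL, hL, Matrix.mulVec_mulVec, hX2]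
    simp [Matrix.smul_mulVec]
  have hfm := Rz.fm (Rz.triv (F := F) d 2)
  have hz2 : z ^ 2 = 1 := scalar_sq hfm (T := L) (fun u v => hiso u v) hLr
    (by rw [finrank_triv]; omega)
  have hz3 : (z - 1) * (z + 1) = 0 := by linear_combination hz2
  rcases mul_eq_zero.mp hz3 with hz1 | hz1
  · -- involutions
    have hz1' : z = 1 := sub_eq_zero.mp hz1
    subst hz1'
    rw [one_smul] at hX2
    have hRz : Rz (sympBilin d F) L 2 := ⟨sympBilin_isAlt, sympBilin_nondegenerate, fun u v => hiso u v, by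
      rw [hLr, one_smul]⟩
    have hrF : ((2 : ℕ) : F) ≠ 0 := by exact_mod_cast hF2
    have hs := (split01 hrF hRz.pow (U := ⊤) (fun v _ => trivial)).2
    rw [top_inf_eq, top_inf_eq, finrank_top, finrank_triv] at hs
    have hnd1 : Nd (fun u v => sympBilin d F u v) (LinearMap.ker (Polynomial.aeval L (Phi F 2))) := by
      have := nd1 hfm hRz.iso hrF hRz.pow hfm.nd_top (U := ⊤) (fun v _ => trivial)
      rwa [top_inf_eq] at this
    obtain ⟨k, hk⟩ := even_of_nd hfm hRz.alt _ _ rfl hnd1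
    obtain ⟨B₀, hB₀, hB₀2, hB₀r⟩ := exists_B0 hF2 hf₂ (k := k) (by omega)
    let y : GL (Fin d ⊕ Fin d) F := Psi e P (kronGL 1 B₀)
    have hyT : ∀ x₁ x₂, (y : Matrix (Fin d ⊕ Fin d) (Fin d ⊕ Fin d) F) *ᵥ TT e P x₁ x₂ =
        TT e P x₁ ((B₀ : Matrix (Fin b) (Fin b) F) *ᵥ x₂) := by
      intro x₁ x₂
      have := Psi_T e P (1 : GL (Fin 2) F) B₀ (kronGL 1 B₀) rfl x₁ x₂
      simpa using this
    have hymem : y ∈ Cfsg.spGL d F := kron_mem_sp hS hf₁.bilinear hf₂.bilinear 1 B₀ (by simp) hB₀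
    have hyiso := (mem_spGL_iff d y).mp hymem
    have hy2 : (y : Matrix (Fin d ⊕ Fin d) (Fin d ⊕ Fin d) F) * (y : Matrix (Fin d ⊕ Fin d) (Fin d ⊕ Fin d) F) = 1 := by
      apply ext_TT e P
      intro x₁ x₂
      rw [← Matrix.mulVec_mulVec, hyT, hyT, Matrix.mulVec_mulVec, hB₀2, Matrix.one_mulVec, Matrix.one_mulVec]
    let Ly : End F (Fin d ⊕ Fin d → F) := Matrix.toLin' (y : Matrix (Fin d ⊕ Fin d) (Fin d ⊕ Fin d) F)
    have hLy : ∀ v, Ly v = (y : Matrix (Fin d ⊕ Fin d) (Fin d ⊕ Fin d) F) *ᵥ v := fun v => rfl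
    have hRzy : Rz (sympBilin d F) Ly 2 := ⟨sympBilin_isAlt, sympBilin_nondegenerate, fun u v => hyiso u v, by
      apply LinearMap.ext
      intro v
      rw [pow_two, Module.End.mul_apply, hLy, hLy, Matrix.mulVec_mulVec, hy2]
      simp⟩
    have hψ : ∀ t, ((LinearEquiv.funCongrLeft F F e) ≪≫ₗ glLE P)
        (((1 : Matrix (Fin 2) (Fin 2) F) ⊗ₖ (B₀ : Matrix (Fin b) (Fin b) F)) *ᵥ t) =
        Ly (((LinearEquiv.funCongrLeft F F e) ≪≫ₗ glLE P) t) := by
      intro t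
      have h1 := Psi_mulVec e P (kronGL 1 B₀) t
      exact h1.symm
    have hrk := rank_sub_one_eq _ hψ
    rw [one_kron_sub, Kron.rank_one_kronecker, Fintype.card_fin, hB₀r, Fintype.card_prod,
      Fintype.card_fin, Fintype.card_fin] at hrk
    have hDeq : Dk L (X - 1 : F[X]) = Dk Ly (X - 1 : F[X]) := by
      unfold Dk at hrk ⊢
      omega
    obtain ⟨φ, hφ1, hφ2⟩ := conj_invol hRz hRzy hF2 hDeq
    obtain ⟨A, hA⟩ := sp_of_equiv φ hφ1
    have hconj : Xm * (A : Matrix (Fin d ⊕ Fin d) (Fin d ⊕ Fin d) F) =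
        (A : Matrix (Fin d ⊕ Fin d) (Fin d ⊕ Fin d) F) * (y : Matrix (Fin d ⊕ Fin d) (Fin d ⊕ Fin d) F) := by
      apply Matrix.ext_of_mulVec_single
      intro c
      rw [← Matrix.mulVec_mulVec, ← Matrix.mulVec_mulVec, hA, hA, ← hLy, hφ2]
      rfl
    obtain ⟨g, hg, hgy⟩ := conj_mem A hconj
    refine ⟨g, hg, ?_⟩
    rw [hgy]
    exact kron_mem_tensor e P 1 B₀
  · -- squares equal to `-1`
    have hz1' : z = -1 := eq_neg_of_add_eq_zero_left hz1
    subst hz1'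
    have hX2' : Xm * Xm = -1 := by rw [hX2]; simp
    let A₀ : GL (Fin 2) F := ⟨!![0, 1; -1, 0], !![0, -1; 1, 0], by
      ext i j
      fin_cases i <;> fin_cases j <;> simp [Matrix.mul_apply, Fin.sum_univ_two], by
      ext i j
      fin_cases i <;> fin_cases j <;> simp [Matrix.mul_apply, Fin.sum_univ_two]⟩
    have hA₀ : (A₀ : Matrix (Fin 2) (Fin 2) F) = !![0, 1; -1, 0] := rfl
    have hA₀2 : ∀ v : Fin 2 → F, (A₀ : Matrix (Fin 2) (Fin 2) F) *ᵥ ((A₀ : Matrix (Fin 2) (Fin 2) F) *ᵥ v) = (-1 : F) • v := by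
      intro v
      funext i
      rw [hA₀]
      fin_cases i <;> simp [Matrix.mulVec, dotProduct, Fin.sum_univ_two]
    let y : GL (Fin d ⊕ Fin d) F := Psi e P (kronGL A₀ 1)
    have hyT : ∀ x₁ x₂, (y : Matrix (Fin d ⊕ Fin d) (Fin d ⊕ Fin d) F) *ᵥ TT e P x₁ x₂ =
        TT e P ((A₀ : Matrix (Fin 2) (Fin 2) F) *ᵥ x₁) x₂ := by
      intro x₁ x₂
      have := Psi_T e P A₀ (1 : GL (Fin b) F) (kronGL A₀ 1) rfl x₁ x₂
      simpa using this
    have hymem : y ∈ Cfsg.spGL d F := kron_mem_sp hS hf₁.bilinear hf₂.bilinear A₀ 1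
      (fun x₁ y₁ => symp_two hf₁ x₁ y₁) (by simp)
    have hyiso := (mem_spGL_iff d y).mp hymem
    have hy2 : (y : Matrix (Fin d ⊕ Fin d) (Fin d ⊕ Fin d) F) * (y : Matrix (Fin d ⊕ Fin d) (Fin d ⊕ Fin d) F) = -1 := by
      apply ext_TT e P
      intro x₁ x₂
      rw [← Matrix.mulVec_mulVec, hyT, hyT, hA₀2, TT_smul_left, Matrix.neg_mulVec, Matrix.one_mulVec]
      simp
    obtain ⟨A, hconj⟩ := conj_minus hcard hF2 hiso hX2' hyiso hy2
    obtain ⟨g, hg, hgy⟩ := conj_mem A hconj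
    refine ⟨g, hg, ?_⟩
    rw [hgy]
    exact kron_mem_tensor e P A₀ 1

end bwd3

end Cfsg.Agent.Lib.FGStruct.TensorSp
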